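import Mathlib
import Cfsg.Agent.Char.PermChar
import Cfsg.Agent.Char.Integrality

/-!
Degrees of the constituents of a transitive permutation character and subdegrees.
-/

set_option autoImplicit false
set_option linter.style.haveILetI false

open Module MulAction
open scoped ComplexConjugate

namespace Cfsg.Agent.PermP

universe u v

variable {G : Type u} [Group G] [Fintype G] {Ω : Type v} [Fintype Ω] [MulAction G Ω]

/-- The dimension of a subrepresentation exceeds that of its fixed vectors by a multiple of any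
common divisor of the degrees of the non-principal constituents. -/
theorem subrep_dim_eq (f : ℕ)
    (hf : ∀ χ : G → ℂ, IsIrrCharacter G χ → χ ≠ (fun _ => 1) →
      classInner (Char.permChar (G := G) Ω) χ ≠ 0 → ∃ m : ℕ, χ 1 = (f : ℂ) * m)
    (p : Subrepresentation (Char.permRep (G := G) Ω)) :
    ∃ k : ℕ, finrank ℂ p.toSubmodule = finrank ℂ p.toRepresentation.invariants + f * k := by
  classical
  obtain ⟨q, hpq⟩ := Char.exists_isCompl_subrep _ p
  have hsum := Char.character_add_of_isCompl _ p q hpq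
  obtain ⟨s, hs⟩ := Char.isCharacter_eq_multiset_sum (Char.isCharacter_character p.toRepresentation)
  obtain ⟨t, ht⟩ := Char.isCharacter_eq_multiset_sum (Char.isCharacter_character q.toRepresentation)
  have hπ : Char.permChar (G := G) Ω = ((s + t).map Subtype.val).sum := by
    rw [Multiset.map_add, Multiset.sum_add, ← hs, ← ht, ← hsum]
    exact (funext (Char.permRep_character (G := G) Ω)).symm
  have hmem : ∀ χ ∈ s, classInner (Char.permChar (G := G) Ω) (χ : G → ℂ) ≠ 0 := by
    intro χ hχ
    rw [hπ, Char.classInner_multiset_sum, Nat.cast_ne_zero, Multiset.count_add]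
    have := Multiset.count_pos.2 hχ
    omega
  set one : IrrCharacter G := ⟨fun _ => 1, Char.isIrrCharacter_const_one⟩ with hone
  have hinv : (finrank ℂ p.toRepresentation.invariants : ℂ) = (s.count one : ℂ) := by
    haveI : Invertible (Nat.card G : ℂ) := invertibleOfNonzero Char.card_ne_zero_complex
    rw [← Representation.card_inv_mul_sum_char_eq_finrank, ← Char.classInner_multiset_sum s one,
      ← hs]
    simp [classInner, hone]
  have hinv' : finrank ℂ p.toRepresentation.invariants = s.count one := by exact_mod_cast hinv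
  have hdeg : ∀ u : Multiset (IrrCharacter G), u ≤ s →
      ∃ k : ℕ, (u.map Subtype.val).sum 1 = ((u.count one + f * k : ℕ) : ℂ) := by
    intro u
    induction u using Multiset.induction_on with
    | empty => exact fun _ => ⟨0, by simp⟩
    | cons a u ih =>
      intro hu
      obtain ⟨k, hk⟩ := ih ((Multiset.le_cons_self u a).trans hu)
      have ha : a ∈ s := Multiset.subset_of_le hu (Multiset.mem_cons_self a u)
      rw [Multiset.map_cons, Multiset.sum_cons, Pi.add_apply, hk, Multiset.count_cons]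
      by_cases h1 : a = one
      · subst h1
        refine ⟨k, ?_⟩
        simp [hone]
        ring
      · rw [if_neg (Ne.symm h1)]
        obtain ⟨m, hm⟩ := hf a a.2 (fun h => h1 (Subtype.ext h)) (hmem a ha)
        refine ⟨k + m, ?_⟩
        rw [hm]
        push_cast
        ring
  obtain ⟨k, hk⟩ := hdeg s le_rfl
  refine ⟨k, ?_⟩
  rw [← hs, Representation.char_one] at hk
  rw [hinv']
  exact_mod_cast hk

omit [Fintype Ω] in
theorem card_orbital_row [IsPretransitive G Ω] (a b : Ω) (x : Ω) :
    Nat.card {y : Ω // ∃ g : G, g • a = x ∧ g • b = y} =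
      Nat.card (orbit (stabilizer G a) b) := by
  obtain ⟨t, ht⟩ := exists_smul_eq G a x
  refine Nat.card_congr ⟨fun y => ⟨t⁻¹ • (y : Ω), ?_⟩, fun z => ⟨t • (z : Ω), ?_⟩, ?_, ?_⟩
  · obtain ⟨g, hga, hgb⟩ := y.2
    refine ⟨⟨t⁻¹ * g, ?_⟩, ?_⟩
    · rw [mem_stabilizer_iff, mul_smul, hga, inv_smul_eq_iff, ht]
    · show (t⁻¹ * g) • b = t⁻¹ • (y : Ω)
      rw [mul_smul, hgb]
  · obtain ⟨h, hh⟩ := z.2
    refine ⟨t * (h : G), ?_, ?_⟩
    · rw [mul_smul, mem_stabilizer_iff.1 h.2, ht]
    · rw [mul_smul]
      exact congrArg (t • ·) hh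
  · intro y; exact Subtype.ext (smul_inv_smul t (y : Ω))
  · intro z; exact Subtype.ext (inv_smul_smul t (z : Ω))

theorem dvd_subdegree [IsPretransitive G Ω] (f : ℕ)
    (hf : ∀ χ : G → ℂ, IsIrrCharacter G χ → χ ≠ (fun _ => 1) →
      classInner (Char.permChar (G := G) Ω) χ ≠ 0 → ∃ m : ℕ, χ 1 = (f : ℂ) * m)
    (a b : Ω) (hab : b ≠ a) : f ∣ Nat.card (orbit (stabilizer G a) b) := by
  classical
  set d := Nat.card (orbit (stabilizer G a) b) with hd
  let R : Ω → Ω → Prop := fun x y => ∃ g : G, g • a = x ∧ g • b = y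
  let Mz : Matrix Ω Ω ℤ := fun x y => if R x y then 1 else 0
  let M : Matrix Ω Ω ℂ := Mz.map (Int.castRingHom ℂ)
  let A : Module.End ℂ (Ω → ℂ) := Matrix.toLin' M
  set ρ := Char.permRep (G := G) Ω with hρ
  have hAapp : ∀ v x, A v x = ∑ y, if R x y then v y else 0 := by
    intro v x
    simp only [A, Matrix.toLin'_apply, Matrix.mulVec, dotProduct]
    refine Finset.sum_congr rfl fun y _ => ?_
    show ((if R x y then 1 else 0 : ℤ) : ℂ) * v y = _
    split_ifs <;> simp
  have hrho : ∀ (g : G) (v : Ω → ℂ) x, ρ g v x = v (g⁻¹ • x) := fun g v x => rfl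
  have hR : ∀ (g : G) x y, R (g • x) (g • y) ↔ R x y := by
    intro g x y
    constructor
    · rintro ⟨h, h1, h2⟩
      exact ⟨g⁻¹ * h, by rw [mul_smul, h1, inv_smul_smul], by rw [mul_smul, h2, inv_smul_smul]⟩
    · rintro ⟨h, h1, h2⟩
      exact ⟨g * h, by rw [mul_smul, h1], by rw [mul_smul, h2]⟩
  have hcomm : ∀ g, Commute A (ρ g) := by
    intro g
    refine LinearMap.ext fun v => funext fun x => ?_
    show A (ρ g v) x = ρ g (A v) x
    rw [hrho, hAapp, hAapp]
    refine Fintype.sum_equiv (toPerm g⁻¹) _ _ fun y => ?_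
    simp only [toPerm_apply, hrho]
    exact if_congr (hR g⁻¹ x y).symm rfl rfl
  have hrow : ∀ x, (∑ y, if R x y then (1 : ℂ) else 0) = d := by
    intro x
    rw [hd, ← card_orbital_row a b x, Nat.card_eq_fintype_card, Finset.sum_boole,
      Fintype.card_subtype]
  have htr : LinearMap.trace ℂ _ A = 0 := by
    rw [Matrix.trace_toLin'_eq, Matrix.trace]
    refine Finset.sum_eq_zero fun x _ => ?_
    have : ¬ R x x := by
      rintro ⟨g, h1, h2⟩
      exact hab (MulAction.injective g (h2.trans h1.symm))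
    show ((if R x x then 1 else 0 : ℤ) : ℂ) = 0
    rw [if_neg this, Int.cast_zero]
  have hnonempty : Nonempty Ω := ⟨a⟩
  set u : Ω → ℂ := fun _ => 1 with hu
  have hAu : A u = (d : ℂ) • u := funext fun x => by
    rw [hAapp]; simp [hu, hrow x]
  have hfix : ∀ v : Ω → ℂ, (∀ g, ρ g v = v) → v = v a • u := by
    intro v hv
    funext x
    obtain ⟨g, rfl⟩ := exists_smul_eq G a x
    conv_lhs => rw [← hv g]
    simp [hrho, hu]
  have hinv : ∀ g μ, ∀ v ∈ A.maxGenEigenspace μ, ρ g v ∈ A.maxGenEigenspace μ := by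
    intro g μ v hv
    rw [Module.End.mem_maxGenEigenspace] at hv ⊢
    obtain ⟨k, hk⟩ := hv
    refine ⟨k, ?_⟩
    have hc : Commute ((A - μ • 1) ^ k) (ρ g) :=
      ((hcomm g).sub_left ((Commute.one_left (ρ g)).smul_left μ)).pow_left k
    have := LinearMap.congr_fun hc.eq v
    simp only [Module.End.mul_apply] at this
    rw [this, hk, map_zero]
  have hcount : ∀ μ : ℂ, ∃ k : ℕ,
      A.charpoly.roots.count μ = (if μ = (d : ℂ) then 1 else 0) + f * k := by
    intro μ
    let p : Subrepresentation ρ := ⟨A.maxGenEigenspace μ, fun g v hv => hinv g μ v hv⟩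
    obtain ⟨k, hk⟩ := subrep_dim_eq f hf p
    refine ⟨k, ?_⟩
    rw [Polynomial.count_roots, ← LinearMap.finrank_maxGenEigenspace_eq]
    refine hk.trans ?_
    congr 1
    by_cases hμ : μ = (d : ℂ)
    · subst hμ
      rw [if_pos rfl]
      have hmem : u ∈ p.toSubmodule := by
        show u ∈ A.maxGenEigenspace (d : ℂ)
        rw [Module.End.mem_maxGenEigenspace]
        exact ⟨1, by simp [hAu]⟩
      have hfixu : (⟨u, hmem⟩ : p.toSubmodule) ∈ p.toRepresentation.invariants :=
        fun g => Subtype.ext (funext fun x => rfl)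
      refine finrank_eq_one (⟨⟨u, hmem⟩, hfixu⟩ : p.toRepresentation.invariants) (fun h => ?_) ?_
      · have := congrFun (congrArg (fun z : p.toRepresentation.invariants => ((z : p.toSubmodule) : Ω → ℂ)) h) a
        simp [hu] at this
      · intro w
        refine ⟨((w : p.toSubmodule) : Ω → ℂ) a, Subtype.ext (Subtype.ext ?_)⟩
        exact (hfix _ fun g => congrArg Subtype.val (w.2 g)).symm
    · rw [if_neg hμ, Submodule.finrank_eq_zero, Submodule.eq_bot_iff]
      intro w hw
      apply Subtype.ext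
      have hv := hfix (w : Ω → ℂ) fun g => congrArg Subtype.val (hw g)
      have hmem : (w : Ω → ℂ) ∈ A.maxGenEigenspace μ := w.2
      rw [Module.End.mem_maxGenEigenspace] at hmem
      obtain ⟨n, hn⟩ := hmem
      have hpow : ∀ n : ℕ, ((A - μ • 1) ^ n) u = ((d : ℂ) - μ) ^ n • u := by
        intro n
        induction n with
        | zero => simp
        | succ n ih =>
          rw [pow_succ', Module.End.mul_apply, ih, map_smul, LinearMap.sub_apply, LinearMap.smul_apply,
            Module.End.one_apply, hAu, ← sub_smul, smul_smul, pow_succ]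
      rw [hv, map_smul, hpow, smul_smul] at hn
      have hn' := congrFun hn a
      simp only [hu, Pi.smul_apply, smul_eq_mul, mul_one, Pi.zero_apply] at hn'
      rcases mul_eq_zero.1 hn' with h0 | h0
      · rw [hv, h0, zero_smul]; rfl
      · exact absurd (pow_eq_zero_iff'.1 h0).1 (sub_ne_zero.2 (Ne.symm hμ))
  have hd_root : (d : ℂ) ∈ A.charpoly.roots.toFinset := by
    rw [Multiset.mem_toFinset, ← Multiset.count_pos]
    obtain ⟨k, hk⟩ := hcount (d : ℂ)
    rw [hk, if_pos rfl]
    omega
  choose k hk using hcount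
  have hz : (0 : ℂ) = d + f * ∑ μ ∈ A.charpoly.roots.toFinset, (k μ : ℂ) * μ := by
    rw [← htr, Module.End.trace_eq_sum_roots_charpoly_of_splits (IsAlgClosed.splits _),
      Finset.sum_multiset_count]
    simp only [hk, nsmul_eq_mul]
    push_cast
    simp only [add_mul, Finset.sum_add_distrib, ite_mul, one_mul, zero_mul, Finset.sum_ite_eq',
      hd_root, if_true, mul_assoc, ← Finset.mul_sum]
  rcases Nat.eq_zero_or_pos f with hf0 | hf0
  · subst hf0
    rw [Nat.cast_zero, zero_mul, add_zero] at hz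
    have : d = 0 := by exact_mod_cast hz.symm
    rw [this]
  apply Char.dvd_of_isIntegral_div hf0.ne'
  have hdiv : (d : ℂ) / f = -∑ μ ∈ A.charpoly.roots.toFinset, (k μ : ℂ) * μ := by
    rw [div_eq_iff (Nat.cast_ne_zero.2 hf0.ne'), neg_mul, eq_neg_iff_add_eq_zero,
      mul_comm _ (f : ℂ)]
    exact hz.symm
  rw [hdiv]
  refine (IsIntegral.sum _ fun μ hμ => (Char.isIntegral_of_nat _).mul ?_).neg
  rw [Multiset.mem_toFinset] at hμ
  have hroot := (Polynomial.mem_roots'.1 hμ).2
  rw [show A.charpoly = Mz.charpoly.map (Int.castRingHom ℂ) by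
    rw [Matrix.charpoly_toLin', ← Matrix.charpoly_map]] at hroot
  refine ⟨Mz.charpoly, Matrix.charpoly_monic _, ?_⟩
  rwa [Polynomial.IsRoot.def, Polynomial.eval_map] at hroot

end Cfsg.Agent.PermP
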