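import Mathlib
import Cfsg.Agent.PermP.Constituents
import Cfsg.Agent.Perm.Basic

/-!
Multiplicities in transitive permutation characters of small rank.
-/

set_option autoImplicit false
set_option linter.style.haveILetI false

open MulAction
open scoped ComplexConjugate

namespace Cfsg.Agent.PermP

universe u v

variable {G : Type u} [Group G] [Fintype G] {Ω : Type v} [Fintype Ω] [MulAction G Ω]

/-- The multiplicities in a permutation character: degree and rank as sums. -/
theorem exists_coeff [IsPretransitive G Ω] (a : Ω) :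
    ∃ m : IrrCharacter G → ℕ,
      (∀ χ : IrrCharacter G, classInner (Char.permChar (G := G) Ω) (χ : G → ℂ) = m χ) ∧
      m ⟨fun _ => 1, Char.isIrrCharacter_const_one⟩ = 1 ∧
      ((∑ χ : IrrCharacter G, (m χ : ℂ) * (χ : G → ℂ) 1) = Fintype.card Ω) ∧
      (∑ χ : IrrCharacter G, m χ * m χ) = Nat.card (orbitRel.Quotient (stabilizer G a) Ω) := by
  classical
  haveI : Nonempty Ω := ⟨a⟩
  obtain ⟨m, hm, hmi⟩ := Char.isCharacter_exists_coeff (Char.isCharacter_permChar (G := G) Ω)
  refine ⟨m, hmi, ?_, ?_, ?_⟩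
  · have h := hmi ⟨fun _ => 1, Char.isIrrCharacter_const_one⟩
    rw [Char.classInner_permChar_one, Char.card_orbits_eq_one_of_pretransitive] at h
    exact_mod_cast h.symm
  · have h := congrFun hm 1
    simp only [Finset.sum_apply, Pi.smul_apply] at h
    simp only [nsmul_eq_mul, Pi.mul_apply, Pi.natCast_apply] at h
    rw [← h]
    simp [Char.permChar, Nat.card_eq_fintype_card]
  · have h : classInner (Char.permChar (G := G) Ω) (Char.permChar Ω) =
        ∑ χ : IrrCharacter G, (m χ : ℂ) * (m χ : ℂ) := by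
      conv_lhs => arg 2; rw [hm]
      rw [Char.classInner_sum_right]
      refine Finset.sum_congr rfl fun χ _ => ?_
      rw [← Nat.cast_smul_eq_nsmul ℂ, Char.classInner_smul_right, hmi, Complex.conj_natCast]
    rw [Char.classInner_permChar_permChar] at h
    have h' : Nat.card (orbitRel.Quotient G (Ω × Ω)) = ∑ χ : IrrCharacter G, m χ * m χ := by
      exact_mod_cast h
    rw [← h', PermLib.card_orbits_prod a]

theorem suborbit_sum (a : Ω) [Fintype (orbitRel.Quotient (stabilizer G a) Ω)] :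
    Fintype.card Ω = ∑ q : orbitRel.Quotient (stabilizer G a) Ω,
      Nat.card (orbitRel.Quotient.orbit q) := by
  rw [← Nat.card_eq_fintype_card,
    Nat.card_congr (MulAction.selfEquivSigmaOrbits' (stabilizer G a) Ω), Nat.card_sigma]

theorem equal_degree_case [IsPretransitive G Ω] (a : Ω) (f : ℕ)
    (hf : ∀ χ : G → ℂ, IsIrrCharacter G χ → χ ≠ (fun _ => 1) →
      classInner (Char.permChar (G := G) Ω) χ ≠ 0 → χ 1 = f) :
    (∀ χ : G → ℂ, IsIrrCharacter G χ → classInner (Char.permChar (G := G) Ω) χ = 0 ∨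
      classInner (Char.permChar (G := G) Ω) χ = 1) ∧
    ∀ b : Ω, b ≠ a → Nat.card (orbit (stabilizer G a) b) = f := by
  classical
  obtain ⟨m, hmi, hone, hdeg, hrank⟩ := exists_coeff (G := G) a
  set one : IrrCharacter G := ⟨fun _ => 1, Char.isIrrCharacter_const_one⟩ with honedef
  set S := Finset.univ.erase one with hS
  have hdeg' : Fintype.card Ω = 1 + f * ∑ χ ∈ S, m χ := by
    have h : (Fintype.card Ω : ℂ) = ((1 + f * ∑ χ ∈ S, m χ : ℕ) : ℂ) := by
      rw [← hdeg, ← Finset.add_sum_erase Finset.univ _ (Finset.mem_univ one), hone]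
      push_cast
      rw [Finset.mul_sum]
      congr 1
      · simp [honedef]
      · refine Finset.sum_congr rfl fun χ hχ => ?_
        rcases Nat.eq_zero_or_pos (m χ) with h0 | h0
        · rw [h0]; simp
        · rw [hf χ χ.2 (fun e => (Finset.mem_erase.1 hχ).1 (Subtype.ext e))
            (by rw [hmi, Nat.cast_ne_zero]; omega), mul_comm]
    exact_mod_cast h
  have hrank' : Nat.card (orbitRel.Quotient (stabilizer G a) Ω) = 1 + ∑ χ ∈ S, m χ * m χ := by
    rw [← hrank, ← Finset.add_sum_erase Finset.univ _ (Finset.mem_univ one), hone]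
  -- all subdegrees are multiples of `f`
  have hdvd : ∀ b : Ω, b ≠ a → f ∣ Nat.card (orbit (stabilizer G a) b) := fun b hb =>
    dvd_subdegree f (fun χ h1 h2 h3 => ⟨1, by rw [hf χ h1 h2 h3, Nat.cast_one, mul_one]⟩) a b hb
  haveI : Fintype (orbitRel.Quotient (stabilizer G a) Ω) := Fintype.ofFinite _
  set q0 : orbitRel.Quotient (stabilizer G a) Ω := Quotient.mk'' a with hq0
  set T := Finset.univ.erase q0 with hT
  let D : orbitRel.Quotient (stabilizer G a) Ω → ℕ := fun q => Nat.card (orbitRel.Quotient.orbit q)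
  have hD : ∀ b : Ω, D (Quotient.mk'' b) = Nat.card (orbit (stabilizer G a) b) := fun b => by
    show Nat.card _ = _
    rw [orbitRel.Quotient.orbit_mk]
  have hD0 : D q0 = 1 := by
    rw [hq0, hD]
    have : orbit (stabilizer G a) a = {a} := by
      ext x
      constructor
      · rintro ⟨g, rfl⟩; exact g.2
      · rintro rfl; exact mem_orbit_self _
    rw [this, Nat.card_eq_fintype_card]; simp
  have hsum : f * ∑ χ ∈ S, m χ = ∑ q ∈ T, D q := by
    have h := suborbit_sum (G := G) a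
    rw [hdeg', ← Finset.add_sum_erase Finset.univ _ (Finset.mem_univ q0)] at h
    change _ = D q0 + ∑ q ∈ T, D q at h
    omega
  have hge : ∀ q ∈ T, f ≤ D q ∧ 0 < D q := by
    intro q hq
    induction q using Quotient.inductionOn' with
    | _ b =>
      have hb : b ≠ a := fun e => (Finset.mem_erase.1 hq).1 (by rw [e])
      rw [hD]
      have : Nonempty (orbit (stabilizer G a) b) := ⟨⟨b, mem_orbit_self b⟩⟩
      have hpos : 0 < Nat.card (orbit (stabilizer G a) b) := Nat.card_pos
      exact ⟨Nat.le_of_dvd hpos (hdvd b hb), hpos⟩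
  have hTc : T.card = ∑ χ ∈ S, m χ * m χ := by
    rw [hT, Finset.card_erase_of_mem (Finset.mem_univ q0), Finset.card_univ,
      ← Nat.card_eq_fintype_card, hrank']
    omega
  have hmm : ∀ χ ∈ S, m χ ≤ m χ * m χ := fun χ _ => Nat.le_mul_self _
  have h1 : T.card * f ≤ ∑ q ∈ T, D q := by
    calc T.card * f = ∑ q ∈ T, f := by rw [Finset.sum_const, smul_eq_mul]
      _ ≤ _ := Finset.sum_le_sum fun q hq => (hge q hq).1
  rw [hTc, ← hsum, mul_comm] at h1
  have hmle : ∀ χ ∈ S, m χ ≤ 1 := by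
    intro χ hχ
    by_contra h2
    push Not at h2
    have hlt : ∑ χ ∈ S, m χ < ∑ χ ∈ S, m χ * m χ :=
      Finset.sum_lt_sum hmm ⟨χ, hχ, by nlinarith⟩
    have hfpos : 0 < f := by
      obtain ⟨n, hn, hn'⟩ := Char.irr_one_pos χ.2
      have := hf χ χ.2 (fun e => (Finset.mem_erase.1 hχ).1 (Subtype.ext e))
        (by rw [hmi, Nat.cast_ne_zero]; omega)
      rw [hn'] at this
      have h3 : n = f := by exact_mod_cast this
      omega
    have := Nat.mul_lt_mul_of_pos_left hlt hfpos
    omega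
  refine ⟨fun χ hχ => ?_, fun b hb => ?_⟩
  · rw [hmi ⟨χ, hχ⟩]
    have : m ⟨χ, hχ⟩ ≤ 1 := by
      by_cases h : (⟨χ, hχ⟩ : IrrCharacter G) = one
      · rw [h, hone]
      · exact hmle _ (Finset.mem_erase.2 ⟨h, Finset.mem_univ _⟩)
    rcases Nat.le_one_iff_eq_zero_or_eq_one.1 this with h | h <;> simp [h]
  · have hsq : ∑ χ ∈ S, m χ * m χ = ∑ χ ∈ S, m χ := Finset.sum_congr rfl fun χ hχ => by
      rcases Nat.le_one_iff_eq_zero_or_eq_one.1 (hmle χ hχ) with h | h <;> simp [h]
    have heq : ∑ q ∈ T, f = ∑ q ∈ T, D q := by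
      rw [Finset.sum_const, smul_eq_mul, hTc, hsq, ← hsum, mul_comm]
    have := (Finset.sum_eq_sum_iff_of_le fun q hq => (hge q hq).1).1 heq (Quotient.mk'' b)
      (Finset.mem_erase.2 ⟨fun e => hb ?_, Finset.mem_univ _⟩)
    · rw [hD] at this
      exact this.symm
    · obtain ⟨g, hg⟩ := Quotient.eq''.1 e
      exact (show g • a = b from hg).symm.trans g.2

theorem small_rank_multiplicity_free [IsPretransitive G Ω] (a : Ω)
    (hr : Nat.card (orbitRel.Quotient (stabilizer G a) Ω) ≤ 5) :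
    ∀ χ : G → ℂ, IsIrrCharacter G χ → classInner (Char.permChar (G := G) Ω) χ = 0 ∨
      classInner (Char.permChar (G := G) Ω) χ = 1 := by
  classical
  obtain ⟨m, hmi, hone, hdeg, hrank⟩ := exists_coeff (G := G) a
  set one : IrrCharacter G := ⟨fun _ => 1, Char.isIrrCharacter_const_one⟩
  by_cases hle : ∀ χ, m χ ≤ 1
  · intro χ hχ
    rw [hmi ⟨χ, hχ⟩]
    rcases Nat.le_one_iff_eq_zero_or_eq_one.1 (hle ⟨χ, hχ⟩) with h | h <;> simp [h]
  push Not at hle
  obtain ⟨ψ, hψ⟩ := hle
  obtain ⟨n, -, hn⟩ := Char.irr_one_pos ψ.2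
  have honly : ∀ χ : IrrCharacter G, χ ≠ one → χ ≠ ψ → m χ = 0 := by
    intro χ h1 h2
    by_contra h0
    have hne : one ≠ ψ := fun e => by rw [← e, hone] at hψ; omega
    have hsub : ({one, ψ, χ} : Finset (IrrCharacter G)) ⊆ Finset.univ := Finset.subset_univ _
    have h3 := Finset.sum_le_sum_of_subset (f := fun χ => m χ * m χ) hsub
    rw [Finset.sum_insert (by simp [hne, Ne.symm h1]), Finset.sum_pair (Ne.symm h2), hrank, hone] at h3
    have : 1 ≤ m χ * m χ := Nat.one_le_iff_ne_zero.2 (Nat.mul_ne_zero h0 h0)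
    have : 4 ≤ m ψ * m ψ := Nat.mul_le_mul hψ hψ
    omega
  refine (equal_degree_case a n fun χ hχ h1 h0 => ?_).1
  by_cases he : (⟨χ, hχ⟩ : IrrCharacter G) = ψ
  · rw [← hn, ← he]
  · exfalso
    apply h0
    rw [hmi ⟨χ, hχ⟩, honly ⟨χ, hχ⟩ (fun e => h1 (congrArg Subtype.val e)) he, Nat.cast_zero]

end Cfsg.Agent.PermP
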