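import Mathlib

/-!
Sharply quadruply transitive groups.
-/

set_option autoImplicit false

namespace Cfsg.Agent.PermP

open MulAction

variable {G : Type*} [Group G] {Ω : Type*} [MulAction G Ω]

theorem exists_four (h4 : IsMultiplyPretransitive G Ω 4) {a b c d a' b' c' d' : Ω}
    (hs : Function.Injective ![a, b, c, d]) (ht : Function.Injective ![a', b', c', d']) :
    ∃ g : G, g • a = a' ∧ g • b = b' ∧ g • c = c' ∧ g • d = d' := by
  rw [isMultiplyPretransitive_iff] at h4
  obtain ⟨g, hg⟩ := h4 ⟨_, hs⟩ ⟨_, ht⟩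
  exact ⟨g, DFunLike.congr_fun hg 0, DFunLike.congr_fun hg 1, DFunLike.congr_fun hg 2,
    DFunLike.congr_fun hg 3⟩

theorem eq_one_of_four (hsharp : ∀ x : Fin 4 ↪ Ω, stabilizer G x = ⊥) {a b c d : Ω}
    (hs : Function.Injective ![a, b, c, d]) {g : G} (ha : g • a = a) (hb : g • b = b)
    (hc : g • c = c) (hd : g • d = d) : g = 1 := by
  have : g ∈ stabilizer G (⟨_, hs⟩ : Fin 4 ↪ Ω) := by
    rw [mem_stabilizer_iff]
    ext i
    fin_cases i <;> simp [ha, hb, hc, hd]
  rwa [hsharp, Subgroup.mem_bot] at this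

theorem eq_of_four (hsharp : ∀ x : Fin 4 ↪ Ω, stabilizer G x = ⊥) {a b c d : Ω}
    (hs : Function.Injective ![a, b, c, d]) {g h : G} (ha : g • a = h • a) (hb : g • b = h • b)
    (hc : g • c = h • c) (hd : g • d = h • d) : g = h := by
  have := eq_one_of_four hsharp hs (g := h⁻¹ * g) (by rw [mul_smul, ha, inv_smul_smul])
    (by rw [mul_smul, hb, inv_smul_smul]) (by rw [mul_smul, hc, inv_smul_smul])
    (by rw [mul_smul, hd, inv_smul_smul])
  exact (inv_mul_eq_one.1 this).symm

theorem injective_four {a b c d : Ω} (hab : a ≠ b) (hac : a ≠ c) (had : a ≠ d) (hbc : b ≠ c)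
    (hbd : b ≠ d) (hcd : c ≠ d) : Function.Injective ![a, b, c, d] := by
  intro i j
  fin_cases i <;> fin_cases j <;> simp [hab, hac, had, hbc, hbd, hcd, hab.symm, hac.symm,
    had.symm, hbc.symm, hbd.symm, hcd.symm]

theorem sharp_four_bound (h4 : IsMultiplyPretransitive G Ω 4)
    (hsharp : ∀ x : Fin 4 ↪ Ω, stabilizer G x = ⊥) (hne : Nonempty (Fin 4 ↪ Ω)) :
    Finite Ω ∧ Nat.card Ω ≤ 11 ∧ (Even (Nat.card Ω) → Nat.card Ω ≤ 6) := by
  classical
  by_cases hsmall : Finite Ω ∧ Nat.card Ω ≤ 6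
  · exact ⟨hsmall.1, hsmall.2.trans (by norm_num), fun _ => hsmall.2⟩
  obtain ⟨e⟩ := hne
  obtain ⟨f⟩ : Nonempty (Fin 7 ↪ Ω) := by
    cases finite_or_infinite Ω with
    | inl hfin =>
      have := Fintype.ofFinite Ω
      apply Function.Embedding.nonempty_of_card_le
      rw [Fintype.card_fin, ← Nat.card_eq_fintype_card]
      rw [not_and] at hsmall
      have := hsmall hfin
      omega
    | inr hinf => exact ⟨(Fin.valEmbedding).trans (Infinite.natEmbedding Ω)⟩
  have hf : ∀ i j : Fin 7, i ≠ j → f i ≠ f j := fun i j h e => h (f.injective e)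
  have hA := injective_four (hf 0 1 (by decide)) (hf 0 2 (by decide)) (hf 0 3 (by decide))
    (hf 1 2 (by decide)) (hf 1 3 (by decide)) (hf 2 3 (by decide))
  have hA' := injective_four (hf 1 0 (by decide)) (hf 1 2 (by decide)) (hf 1 3 (by decide))
    (hf 0 2 (by decide)) (hf 0 3 (by decide)) (hf 2 3 (by decide))
  obtain ⟨a, ha0, ha1, ha2, ha3⟩ := exists_four h4 hA hA'
  have haa : a * a = 1 := eq_one_of_four hsharp hA (by rw [mul_smul, ha0, ha1])
    (by rw [mul_smul, ha1, ha0]) (by rw [mul_smul, ha2, ha2]) (by rw [mul_smul, ha3, ha3])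
  -- `a` moves a point outside the first four
  obtain ⟨u, hu0, hu1, hu⟩ : ∃ u, u ≠ f 0 ∧ u ≠ f 1 ∧ a • u ≠ u := by
    by_contra hcon
    push Not at hcon
    have h45 := hcon (f 4) (hf 4 0 (by decide)) (hf 4 1 (by decide))
    have h55 := hcon (f 5) (hf 5 0 (by decide)) (hf 5 1 (by decide))
    have := eq_one_of_four hsharp (injective_four (hf 2 3 (by decide)) (hf 2 4 (by decide))
      (hf 2 5 (by decide)) (hf 3 4 (by decide)) (hf 3 5 (by decide)) (hf 4 5 (by decide)))
      ha2 ha3 h45 h55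
    rw [this, one_smul] at ha0
    exact hf 0 1 (by decide) ha0
  have hu0' : a • u ≠ f 0 := fun e => hu1 (by
    rw [← one_smul G u, ← haa, mul_smul, e, ha0])
  have hu1' : a • u ≠ f 1 := fun e => hu0 (by
    rw [← one_smul G u, ← haa, mul_smul, e, ha1])
  set p1 := f 0
  set p2 := f 1
  set p4 := a • u with hp4
  have hp4u : a • p4 = u := by rw [hp4, ← mul_smul, haa, one_smul]
  have hpinj := injective_four (hf 0 1 (by decide)) (Ne.symm hu0) (Ne.symm hu0') (Ne.symm hu1)
    (Ne.symm hu1') (Ne.symm hu)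
  set Fix : Set Ω := {x | a • x = x} with hFix
  have hFixle : ∀ s : Finset Ω, (∀ x ∈ s, a • x = x) → s.card ≤ 3 := by
    intro s hs
    by_contra hlt
    push Not at hlt
    obtain ⟨s', hs', hc⟩ := Finset.exists_subset_card_eq (show 4 ≤ s.card from hlt)
    let g : Fin 4 ↪ Ω := ((Finset.equivFinOfCardEq hc).symm.toEmbedding).trans
      (Function.Embedding.subtype _)
    have hfixg : ∀ i, a • g i = g i := fun i => hs _ (hs' ((Finset.equivFinOfCardEq hc).symm i).2)
    have : a = 1 := by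
      have h : a ∈ stabilizer G g := by
        rw [mem_stabilizer_iff]
        ext i
        exact hfixg i
      rwa [hsharp, Subgroup.mem_bot] at h
    rw [this, one_smul] at ha0
    exact hf 0 1 (by decide) ha0
  have hFixfin : Fix.Finite := by
    by_contra hinf
    obtain ⟨s, hs, hc⟩ := Set.Infinite.exists_subset_card_eq hinf 4
    have := hFixle s fun x hx => hs hx
    omega
  haveI : Fintype Fix := hFixfin.fintype
  have hFix3 : Fintype.card Fix ≤ 3 := by
    have := hFixle Fix.toFinset fun x hx => (Set.mem_toFinset (s := Fix)).1 hx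
    rwa [Set.toFinset_card] at this
  -- every other moved point gives an element of the centraliser of `a`
  let X : Set Ω := {x | x ≠ p1 ∧ x ≠ p2 ∧ a • x ≠ x}
  have hX : ∀ x : X, ∃ h : G, h • p1 = p1 ∧ h • p2 = p2 ∧ h • u = (x : Ω) ∧ h * a = a * h := by
    rintro ⟨x, hx1, hx2, hx3⟩
    have hx4 : a • x ≠ p1 := fun e => hx2 (by rw [← one_smul G x, ← haa, mul_smul, e, ha0])
    have hx5 : a • x ≠ p2 := fun e => hx1 (by rw [← one_smul G x, ← haa, mul_smul, e, ha1])
    obtain ⟨h, h1, h2, h3, h4'⟩ := exists_four h4 hpinj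
      (injective_four (hf 0 1 (by decide)) (Ne.symm hx1) (Ne.symm hx4) (Ne.symm hx2) (Ne.symm hx5)
        (Ne.symm hx3))
    refine ⟨h, h1, h2, h3, ?_⟩
    apply eq_of_four hsharp hpinj
    · rw [mul_smul, mul_smul, h1, ha0, h2]
    · rw [mul_smul, mul_smul, h2, ha1, h1]
    · rw [mul_smul, mul_smul, h3, ← hp4, h4']
    · rw [mul_smul, mul_smul, hp4u, h3, h4', ← mul_smul, haa, one_smul]
  choose h hh1 hh2 hh3 hhc using hX
  have hmem : ∀ x y, (h x) • y ∈ Fix ↔ y ∈ Fix := by
    intro x y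
    show a • (h x) • y = (h x) • y ↔ a • y = y
    rw [← mul_smul, ← hhc, mul_smul, smul_left_cancel_iff]
  let ψ : X → Equiv.Perm Fix := fun x => (MulAction.toPerm (h x)).subtypePerm (hmem x)
  have h2fix : ∀ x : X, Function.Injective ![p1, p2, f 2, f 3] := fun _ => hA
  have hψ : Function.Injective ψ := by
    intro x y hxy
    have h2' : h x • f 2 = h y • f 2 := congrArg Subtype.val (DFunLike.congr_fun hxy (⟨f 2, ha2⟩ : Fix))
    have h3' : h x • f 3 = h y • f 3 := congrArg Subtype.val (DFunLike.congr_fun hxy (⟨f 3, ha3⟩ : Fix))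
    have := eq_of_four hsharp hA (g := h x) (h := h y) (by rw [hh1, hh1]) (by rw [hh2, hh2]) h2' h3'
    exact Subtype.ext (by rw [← hh3 x, this, hh3 y])
  have hXfin : Finite X := Finite.of_injective ψ hψ
  have hcover : (Set.univ : Set Ω) = Fix ∪ {p1, p2} ∪ X := by
    ext y
    simp only [Set.mem_univ, Set.mem_union, Set.mem_insert_iff, Set.mem_singleton_iff, true_iff]
    by_cases h0 : a • y = y
    · exact Or.inl (Or.inl h0)
    by_cases h1 : y = p1
    · exact Or.inl (Or.inr (Or.inl h1))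
    by_cases h2 : y = p2
    · exact Or.inl (Or.inr (Or.inr h2))
    exact Or.inr ⟨h1, h2, h0⟩
  have hΩ : Finite Ω := by
    rw [← Set.finite_univ_iff, hcover]
    exact (hFixfin.union (Set.toFinite _)).union (Set.finite_coe_iff.1 hXfin)
  have := Fintype.ofFinite Ω
  have hXcard : X.ncard ≤ (Fintype.card Fix).factorial := by
    rw [← Nat.card_coe_set_eq]
    refine (Nat.card_le_card_of_injective ψ hψ).trans ?_
    rw [Nat.card_perm, Nat.card_eq_fintype_card]
  have hFixn : Fix.ncard = Fintype.card Fix := by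
    rw [← Nat.card_coe_set_eq, Nat.card_eq_fintype_card]
  have hn : Nat.card Ω ≤ Fintype.card Fix + 2 + (Fintype.card Fix).factorial := by
    rw [← Set.ncard_univ, hcover]
    refine (Set.ncard_union_le _ _).trans (Nat.add_le_add ((Set.ncard_union_le _ _).trans ?_) hXcard)
    rw [hFixn]
    exact Nat.add_le_add_left ((Set.ncard_insert_le _ _).trans (by rw [Set.ncard_singleton])) _
  have hfact : (Fintype.card Fix).factorial ≤ 6 :=
    (Nat.factorial_le hFix3).trans (by decide)
  refine ⟨hΩ, by omega, fun heven => ?_⟩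
  by_cases hc : Fintype.card Fix ≤ 2
  · have : (Fintype.card Fix).factorial ≤ 2 := (Nat.factorial_le hc).trans (by decide)
    omega
  -- an involution moves an even number of points
  exfalso
  haveI : Fact (Nat.Prime 2) := ⟨Nat.prime_two⟩
  have hP : IsPGroup 2 (Subgroup.zpowers a) := by
    rintro ⟨x, i, rfl⟩
    refine ⟨1, Subtype.ext ?_⟩
    show (a ^ i) ^ (2 ^ 1) = 1
    rw [pow_one, sq, ← (Commute.refl a).mul_zpow, haa, one_zpow]
  have hmod := hP.card_modEq_card_fixedPoints Ω
  have hfp : Nat.card (fixedPoints (Subgroup.zpowers a) Ω) = Fintype.card Fix := by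
    rw [← Nat.card_eq_fintype_card]
    refine Nat.card_congr (Equiv.subtypeEquivRight fun y => ?_)
    refine ⟨fun hy => hy ⟨a, Subgroup.mem_zpowers a⟩, fun hy => ?_⟩
    rintro ⟨x, i, rfl⟩
    have hm : a ∈ stabilizer G y := hy
    exact zpow_mem hm i
  rw [hfp] at hmod
  obtain ⟨r, hr⟩ := heven
  rw [Nat.ModEq, hr] at hmod
  omega

end Cfsg.Agent.PermP
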