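import Mathlib

/-!
Centralisers of transitive permutation groups.
-/

set_option autoImplicit false

namespace Cfsg.Agent.PermP

open MulAction

variable {α : Type*}

/-- A permutation commuting with a transitive set of permutations is determined by one value. -/
theorem eq_one_of_commute_of_transitive {M : Set (Equiv.Perm α)}
    (ht : ∀ a b : α, ∃ m ∈ M, m a = b) {c : Equiv.Perm α}
    (hc : ∀ m ∈ M, m * c = c * m) {a : α} (ha : c a = a) : c = 1 := by
  ext b
  obtain ⟨m, hm, rfl⟩ := ht a b
  have := DFunLike.congr_fun (hc m hm) a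
  simp only [Equiv.Perm.mul_apply, ha] at this
  simp [← this]

/-- Two permutations commuting with a transitive set agree as soon as they agree at a point. -/
theorem eq_of_commute_of_transitive {M : Set (Equiv.Perm α)}
    (ht : ∀ a b : α, ∃ m ∈ M, m a = b) {c d : Equiv.Perm α}
    (hc : ∀ m ∈ M, m * c = c * m) (hd : ∀ m ∈ M, m * d = d * m) {a : α} (ha : c a = d a) :
    c = d := by
  ext b
  obtain ⟨m, hm, rfl⟩ := ht a b
  have h1 := DFunLike.congr_fun (hc m hm) a
  have h2 := DFunLike.congr_fun (hd m hm) a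
  simp only [Equiv.Perm.mul_apply] at h1 h2
  rw [← h1, ← h2, ha]

theorem transitive_of_isPretransitive (G : Subgroup (Equiv.Perm α)) [IsPretransitive G α] :
    ∀ a b : α, ∃ m ∈ (G : Set (Equiv.Perm α)), m a = b := by
  intro a b
  obtain ⟨g, hg⟩ := exists_smul_eq G a b
  exact ⟨g, g.2, hg⟩

theorem isPretransitive_map_subtype {G : Subgroup (Equiv.Perm α)} (M : Subgroup G)
    [IsPretransitive M α] : IsPretransitive (M.map G.subtype : Subgroup (Equiv.Perm α)) α := by
  constructor
  intro a b
  obtain ⟨m, hm⟩ := exists_smul_eq M a b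
  exact ⟨⟨((m : G) : Equiv.Perm α), ⟨(m : G), m.2, rfl⟩⟩, hm⟩

theorem mem_centralizer_map_subtype {G : Subgroup (Equiv.Perm α)} {M : Subgroup G} {c : Equiv.Perm α} :
    c ∈ Subgroup.centralizer ((M.map G.subtype : Subgroup (Equiv.Perm α)) : Set (Equiv.Perm α)) ↔
      ∀ m ∈ M, (m : Equiv.Perm α) * c = c * m := by
  rw [Subgroup.mem_centralizer_iff]
  constructor
  · intro h m hm
    exact h _ ⟨m, hm, rfl⟩
  · rintro h _ ⟨m, hm, rfl⟩
    exact h m hm

theorem commute_of_normal_inf_eq_bot {G : Type*} [Group G] {M N : Subgroup G} [M.Normal] [N.Normal]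
    (h : M ⊓ N = ⊥) {m n : G} (hm : m ∈ M) (hn : n ∈ N) : m * n = n * m :=
  Subgroup.commute_of_normal_of_disjoint M N ‹_› ‹_› (disjoint_iff.2 h) m n hm hn

theorem inf_eq_bot_of_minimal {G : Type*} [Group G] {M L : Subgroup G} [M.Normal] [L.Normal]
    (hM : M ≠ ⊥) (hMmin : ∀ K : Subgroup G, K.Normal → K ≤ M → K = ⊥ ∨ K = M)
    (hLmin : ∀ K : Subgroup G, K.Normal → K ≤ L → K = ⊥ ∨ K = L) (hne : M ≠ L) : M ⊓ L = ⊥ := by
  rcases hMmin (M ⊓ L) inferInstance inf_le_left with h | h
  · exact h
  · exfalso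
    have hle : M ≤ L := h ▸ inf_le_right
    rcases hLmin M ‹_› hle with h' | h'
    · exact hM h'
    · exact hne h'

theorem eq_map_of_centralizes {G : Subgroup (Equiv.Perm α)} {M N : Subgroup G}
    [IsPretransitive M α] [IsPretransitive N α]
    (hcomm : ∀ m ∈ M, ∀ n ∈ N, m * n = n * m) (a : α) :
    Subgroup.centralizer ((M.map G.subtype : Subgroup (Equiv.Perm α)) : Set (Equiv.Perm α))
      = N.map G.subtype := by
  have ht : ∀ a b : α, ∃ m ∈ ((M.map G.subtype : Subgroup (Equiv.Perm α)) : Set (Equiv.Perm α)),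
      m a = b := by
    have := isPretransitive_map_subtype M
    exact transitive_of_isPretransitive _
  apply le_antisymm
  · intro c hc
    rw [Subgroup.mem_centralizer_iff] at hc
    obtain ⟨n, hn⟩ := exists_smul_eq N a (c a)
    refine ⟨(n : G), n.2, ?_⟩
    refine eq_of_commute_of_transitive ht ?_ hc (a := a) hn
    rintro _ ⟨m, hm, rfl⟩
    exact congrArg Subtype.val (hcomm m hm n n.2)
  · rintro _ ⟨n, hn, rfl⟩
    rw [mem_centralizer_map_subtype]
    intro m hm
    exact congrArg Subtype.val (hcomm m hm n hn)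

theorem stabilizer_eq_bot_of_centralizes {G : Subgroup (Equiv.Perm α)} {M N : Subgroup G}
    [IsPretransitive M α] (hcomm : ∀ m ∈ M, ∀ n ∈ N, m * n = n * m) (a : α) :
    stabilizer N a = ⊥ := by
  rw [eq_bot_iff]
  intro n hn
  have := eq_one_of_commute_of_transitive (M := ((M.map G.subtype : Subgroup (Equiv.Perm α)) :
      Set (Equiv.Perm α)))
    (by have := isPretransitive_map_subtype M; exact transitive_of_isPretransitive _)
    (c := ((n : G) : Equiv.Perm α))
    (by rintro _ ⟨m, hm, rfl⟩; exact congrArg Subtype.val (hcomm m hm n n.2)) (a := a) hn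
  rw [Subgroup.mem_bot]
  exact Subtype.ext (Subtype.ext this)

end Cfsg.Agent.PermP
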