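import Mathlib

/-!
Elements of small support in multiply transitive groups.
-/

set_option autoImplicit false

namespace Cfsg.Agent.PermP

open MulAction Equiv.Perm

variable {α : Type*} [Fintype α] [DecidableEq α]

theorem agree_of_pretransitive {G : Subgroup (Equiv.Perm α)} {k : ℕ} (hkn : k ≤ Fintype.card α)
    (hG : IsMultiplyPretransitive G α k) {T : Finset α} (hT : T.card ≤ k) (π : Equiv.Perm α) :
    ∃ x ∈ G, ∀ y ∈ T, x y = π y := by
  obtain ⟨T', hTT', hT'⟩ := Finset.exists_superset_card_eq hT hkn
  let e : Fin k ↪ α := ((Finset.equivFinOfCardEq hT').symm.toEmbedding).trans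
    (Function.Embedding.subtype _)
  rw [isMultiplyPretransitive_iff] at hG
  obtain ⟨x, hx⟩ := hG e (e.trans π.toEmbedding)
  refine ⟨x, x.2, fun y hy => ?_⟩
  have := DFunLike.congr_fun hx (Finset.equivFinOfCardEq hT' ⟨y, hTT' hy⟩)
  simpa [e, Subgroup.smul_def] using this

/-- The points of `S` sent by `g` outside `S`. -/
def breaks (g : Equiv.Perm α) (S : Finset α) : Finset α := S.filter fun y => g y ∉ S

theorem exists_chain (g : Equiv.Perm α) : ∀ j ≤ g.support.card,
    ∃ S ⊆ g.support, S.card = j ∧ (breaks g S).card ≤ 1 := by
  intro j
  induction j with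
  | zero => exact fun _ => ⟨∅, Finset.empty_subset _, rfl, by simp [breaks]⟩
  | succ j ih =>
    intro hj
    obtain ⟨S, hS, hSc, hb⟩ := ih (by omega)
    rcases Finset.eq_empty_or_nonempty (breaks g S) with he | ⟨y, hy⟩
    · obtain ⟨z, hz, hzS⟩ := Finset.exists_mem_notMem_of_card_lt_card
        (show S.card < g.support.card by omega)
      refine ⟨insert z S, Finset.insert_subset hz hS, by rw [Finset.card_insert_of_notMem hzS, hSc],
        (Finset.card_le_card (t := {z}) fun v hv => ?_).trans (Finset.card_singleton z).le⟩
      rw [breaks, Finset.mem_filter, Finset.mem_insert] at hv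
      rcases hv.1 with rfl | hvS
      · exact Finset.mem_singleton_self _
      · exfalso
        have : v ∈ breaks g S := Finset.mem_filter.2 ⟨hvS, fun h => hv.2 (Finset.mem_insert_of_mem h)⟩
        rw [he] at this
        exact Finset.notMem_empty _ this
    · have hy' := Finset.mem_filter.1 hy
      refine ⟨insert (g y) S, Finset.insert_subset (apply_mem_support.2 (hS hy'.1)) hS,
        by rw [Finset.card_insert_of_notMem hy'.2, hSc],
        (Finset.card_le_card (t := {g y}) fun v hv => ?_).trans (Finset.card_singleton _).le⟩
      rw [breaks, Finset.mem_filter, Finset.mem_insert] at hv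
      rcases hv.1 with rfl | hvS
      · exact Finset.mem_singleton_self _
      · exfalso
        have hvb : v ∈ breaks g S := Finset.mem_filter.2 ⟨hvS, fun h => hv.2 (Finset.mem_insert_of_mem h)⟩
        obtain rfl := Finset.card_le_one.1 hb v hvb y hy
        exact hv.2 (Finset.mem_insert_self _ _)

theorem support_conj_quotient (g x : Equiv.Perm α) (S : Finset α) (hx : ∀ y ∈ S, x y = y) :
    (g⁻¹ * (x * g * x⁻¹)).support ⊆
      (g.support ∪ g.support.map x.toEmbedding) \ (S.filter fun y => g y ∈ S) := by
  intro v hv
  rw [mem_support] at hv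
  rw [Finset.mem_sdiff, Finset.mem_union]
  constructor
  · by_contra h
    rw [not_or] at h
    apply hv
    have h2 : x.symm v ∉ g.support := fun h' => h.2 (Finset.mem_map.2 ⟨_, h', x.apply_symm_apply v⟩)
    show g.symm (x (g (x.symm v))) = v
    rw [notMem_support.1 h2, Equiv.apply_symm_apply, Equiv.symm_apply_eq, notMem_support.1 h.1]
  · intro h
    rw [Finset.mem_filter] at h
    apply hv
    show g.symm (x (g (x.symm v))) = v
    rw [show x.symm v = v from Equiv.symm_apply_eq _ |>.2 (hx v h.1).symm, hx _ h.2,
      Equiv.symm_apply_apply]

theorem alternatingGroup_le_of_small_support (G : Subgroup (Equiv.Perm α)) {k : ℕ} (hk : 3 ≤ k)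
    (hkn : k ≤ Fintype.card α) (hG : IsMultiplyPretransitive G α k) :
    ∀ (m : ℕ) (g : Equiv.Perm α), g ∈ G → g ≠ 1 → g.support.card = m → m < 2 * k - 2 →
      alternatingGroup α ≤ G := by
  intro m
  induction m using Nat.strong_induction_on with
  | _ m ih =>
    intro g hg hg1 hgm hm
    rcases Nat.lt_or_ge (Fintype.card α) 5 with hn | hn
    · have h : IsMultiplyPretransitive G α (Nat.card α - 1) := by
        have := hG
        exact isMultiplyPretransitive_of_le (show Nat.card α - 1 ≤ k by
          rw [Nat.card_eq_fintype_card]; omega) (by rwa [Nat.card_eq_fintype_card])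
      rw [Equiv.Perm.eq_top_of_isMultiplyPretransitive h]
      exact le_top
    rcases Nat.lt_or_ge k m with hkm | hkm
    swap
    · have hcl : Subgroup.normalClosure {g} ≤ G := by
        rw [Subgroup.normalClosure, Subgroup.closure_le]
        intro u hu
        rw [Group.mem_conjugatesOfSet_iff] at hu
        obtain ⟨a, ha, hau⟩ := hu
        rw [Set.mem_singleton_iff] at ha
        subst ha
        obtain ⟨π, rfl⟩ := isConj_iff.1 hau
        obtain ⟨x, hx, hxπ⟩ := agree_of_pretransitive hkn hG (T := a.support) (by omega) π
        have : π * a * π⁻¹ = x * a * x⁻¹ := by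
          have h : (x⁻¹ * π) * a = a * (x⁻¹ * π) := by
            have hfix : ∀ y ∈ a.support, (x⁻¹ * π) y = y := fun y hy => by
              show x.symm (π y) = y
              rw [Equiv.symm_apply_eq, hxπ y hy]
            ext y
            simp only [Equiv.Perm.mul_apply] at hfix ⊢
            by_cases hy : y ∈ a.support
            · rw [hfix y hy, hfix _ (apply_mem_support.2 hy)]
            · rw [notMem_support.1 hy]
              refine (notMem_support.1 fun h => hy ?_).symm
              have := hfix _ h
              rwa [(x⁻¹ * π).injective this] at h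
          calc π * a * π⁻¹ = x * ((x⁻¹ * π) * a) * π⁻¹ := by simp [mul_assoc]
            _ = x * a * x⁻¹ := by rw [h]; simp [mul_assoc]
        rw [SetLike.mem_coe, this]
        exact G.mul_mem (G.mul_mem hx hg) (G.inv_mem hx)
      refine le_trans ?_ hcl
      apply Equiv.Perm.alternatingGroup_le_of_normal (by rw [Nat.card_eq_fintype_card]; exact hn)
      rw [Subgroup.nontrivial_iff_ne_bot]
      intro h
      have := Subgroup.subset_normalClosure (s := {g}) rfl
      rw [h] at this
      exact hg1 (Subgroup.mem_bot.1 this)
    -- produce an element of smaller support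
    suffices ∃ h ∈ G, h ≠ 1 ∧ h.support.card < m by
      obtain ⟨h, hh, hh1, hlt⟩ := this
      exact ih _ hlt h hh hh1 rfl (by omega)
    have key : ∀ (S : Finset α), S ⊆ g.support → S.card = k - 1 → ∀ (z w : α), z ∉ S → w ∉ S →
        (∀ x : Equiv.Perm α, (∀ y ∈ S, x y = y) → x z = w → x * g ≠ g * x) →
        ((g.support ∪ {w}).card + (g.support.card - S.card) -
          (if z ∈ g.support then 1 else 0) - (S.filter fun y => g y ∈ S).card < m ∨
         Fintype.card α - (S.filter fun y => g y ∈ S).card < m) →
        ∃ h ∈ G, h ≠ 1 ∧ h.support.card < m := by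
      intro S hS hSc z w hzS hwS hne hcard
      obtain ⟨x, hx, hxa⟩ := agree_of_pretransitive hkn hG (T := insert z S)
        (by rw [Finset.card_insert_of_notMem hzS, hSc]; omega) (Equiv.swap z w)
      have hxS : ∀ y ∈ S, x y = y := fun y hy => by
        rw [hxa y (Finset.mem_insert_of_mem hy), Equiv.swap_apply_of_ne_of_ne
          (fun e : y = z => hzS (e ▸ hy)) (fun e : y = w => hwS (e ▸ hy))]
      have hxz : x z = w := by rw [hxa z (Finset.mem_insert_self _ _), Equiv.swap_apply_left]
      refine ⟨g⁻¹ * (x * g * x⁻¹), G.mul_mem (G.inv_mem hg)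
        (G.mul_mem (G.mul_mem hx hg) (G.inv_mem hx)), ?_, ?_⟩
      · intro h
        rw [inv_mul_eq_one, eq_mul_inv_iff_mul_eq] at h
        exact hne x hxS hxz h.symm
      refine lt_of_le_of_lt (Finset.card_le_card (support_conj_quotient g x S hxS)) ?_
      set P := S.filter fun y => g y ∈ S with hP
      set U := g.support ∪ g.support.map x.toEmbedding with hU
      have hPU : P ⊆ U := fun y hy => Finset.mem_union_left _ (hS (Finset.mem_filter.1 hy).1)
      rw [Finset.card_sdiff_of_subset hPU]
      have hUn : U.card ≤ Fintype.card α := Finset.card_le_univ U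
      rcases hcard with hcard | hcard
      swap
      · omega
      have hUle : U.card ≤ (g.support ∪ {w}).card + (g.support.card - S.card) -
          (if z ∈ g.support then 1 else 0) := by
        have hsub : U ⊆ (g.support ∪ {w}) ∪
            ((g.support \ S).erase z).map x.toEmbedding := by
          intro v hv
          rw [hU, Finset.mem_union, Finset.mem_map] at hv
          rcases hv with hv | ⟨y, hy, rfl⟩
          · exact Finset.mem_union_left _ (Finset.mem_union_left _ hv)
          · by_cases hyS : y ∈ S
            · refine Finset.mem_union_left _ (Finset.mem_union_left _ ?_)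
              show x y ∈ g.support
              rw [hxS y hyS]; exact hy
            by_cases hyz : y = z
            · subst hyz
              refine Finset.mem_union_left _ (Finset.mem_union_right _ ?_)
              exact Finset.mem_singleton.2 hxz
            exact Finset.mem_union_right _ (Finset.mem_map.2
              ⟨y, Finset.mem_erase.2 ⟨hyz, Finset.mem_sdiff.2 ⟨hy, hyS⟩⟩, rfl⟩)
        refine (Finset.card_le_card hsub).trans ((Finset.card_union_le _ _).trans ?_)
        rw [Finset.card_map]
        have h2 : (g.support \ S).card = g.support.card - S.card := Finset.card_sdiff_of_subset hS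
        have h3 : S.card ≤ g.support.card := Finset.card_le_card hS
        split_ifs with hz
        · rw [Finset.card_erase_of_mem (Finset.mem_sdiff.2 ⟨hz, hzS⟩)]
          have : 0 < (g.support \ S).card :=
            Finset.card_pos.2 ⟨z, Finset.mem_sdiff.2 ⟨hz, hzS⟩⟩
          omega
        · rw [Finset.erase_eq_of_notMem (fun h => hz (Finset.mem_sdiff.1 h).1)]
          omega
      omega
    have hpartition : ∀ S : Finset α,
        (S.filter fun y => g y ∈ S).card + (breaks g S).card = S.card :=
      fun S => Finset.card_filter_add_card_filter_not _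
    -- a set with a point leaving it
    have withBreak : ∀ S : Finset α, S ⊆ g.support → S.card = k - 1 → ∀ y ∈ breaks g S,
        (m - (k - 1) + m - 1 - (S.filter fun y => g y ∈ S).card < m ∨
          Fintype.card α - (S.filter fun y => g y ∈ S).card < m) →
        ∃ h ∈ G, h ≠ 1 ∧ h.support.card < m := by
      intro S hS hSc y hy hcard
      rw [breaks, Finset.mem_filter] at hy
      have hzsupp : g y ∈ g.support := apply_mem_support.2 (hS hy.1)
      obtain ⟨w, hw, hwi⟩ := Finset.exists_mem_notMem_of_card_lt_card
        (show (insert (g y) S).card < g.support.card by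
          rw [Finset.card_insert_of_notMem hy.2]; omega)
      rw [Finset.mem_insert, not_or] at hwi
      refine key S hS hSc (g y) w hy.2 hwi.2 (fun x hxS hxz hcomm => hwi.1 ?_) ?_
      · have := DFunLike.congr_fun hcomm y
        rw [Equiv.Perm.mul_apply, Equiv.Perm.mul_apply, hxS y hy.1, hxz] at this
        exact this
      · rw [Finset.union_singleton, Finset.insert_eq_of_mem hw, if_pos hzsupp]
        rcases hcard with h | h
        · exact Or.inl (by omega)
        · exact Or.inr h
    by_cases hfull : g.support.card < Fintype.card α
    · obtain ⟨S, hS, hSc, hb⟩ := exists_chain g (k - 1) (by omega)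
      have hp := hpartition S
      rcases Finset.eq_empty_or_nonempty (breaks g S) with he | ⟨y, hy⟩
      · obtain ⟨z, hz, hzS⟩ := Finset.exists_mem_notMem_of_card_lt_card
          (show S.card < g.support.card by omega)
        obtain ⟨w, -, hw⟩ := Finset.exists_mem_notMem_of_card_lt_card
          (show g.support.card < (Finset.univ : Finset α).card by rw [Finset.card_univ]; exact hfull)
        refine key S hS hSc z w hzS (fun h => hw (hS h)) (fun x hxS hxz hcomm => ?_) (Or.inl ?_)
        · have := DFunLike.congr_fun hcomm z
          rw [Equiv.Perm.mul_apply, Equiv.Perm.mul_apply, hxz, notMem_support.1 hw, ← hxz] at this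
          exact mem_support.1 hz (x.injective this)
        · rw [Finset.union_singleton, Finset.card_insert_of_notMem hw, if_pos hz]
          rw [he, Finset.card_empty] at hp
          omega
      · exact withBreak S hS hSc y hy (Or.inl (by
          have : 0 < (breaks g S).card := Finset.card_pos.2 ⟨y, hy⟩
          omega))
    · have huniv : g.support = Finset.univ := Finset.eq_univ_of_card _
        (le_antisymm (Finset.card_le_univ _) (by omega))
      obtain ⟨y, hy⟩ : ∃ y, y ∈ g.support := Finset.card_pos.1 (by omega)
      obtain ⟨v, -, hv⟩ := Finset.exists_mem_notMem_of_card_lt_card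
        (show ({y, g y} : Finset α).card < (Finset.univ : Finset α).card by
          have := Finset.card_le_two (a := y) (b := g y)
          rw [Finset.card_univ]; omega)
      simp only [Finset.mem_insert, Finset.mem_singleton, not_or] at hv
      have hvu : g.symm v ≠ v := fun h => by
        have h1 : v ∈ g.support := by rw [huniv]; exact Finset.mem_univ v
        rw [Equiv.symm_apply_eq] at h
        exact mem_support.1 h1 h.symm
      obtain ⟨S, hS₁, hS₂, hSc⟩ := Finset.exists_subsuperset_card_eq
        (s := ({y, g y, g.symm v} : Finset α)) (t := Finset.univ.erase v) (n := k - 1)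
        (by
          intro u hu
          simp only [Finset.mem_insert, Finset.mem_singleton] at hu
          refine Finset.mem_erase.2 ⟨?_, Finset.mem_univ _⟩
          rcases hu with rfl | rfl | rfl
          · exact Ne.symm hv.1
          · exact Ne.symm hv.2
          · exact hvu)
        (Finset.card_le_three.trans (by omega))
        (by rw [Finset.card_erase_of_mem (Finset.mem_univ v), Finset.card_univ]; omega)
      have hbr : g.symm v ∈ breaks g S := Finset.mem_filter.2 ⟨hS₁ (by simp), by
        rw [Equiv.apply_symm_apply]
        exact fun h => Finset.notMem_erase v Finset.univ (hS₂ h)⟩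
      refine withBreak S (huniv ▸ Finset.subset_univ S) hSc _ hbr (Or.inr ?_)
      have hpos : 0 < (S.filter fun u => g u ∈ S).card := Finset.card_pos.2
        ⟨y, Finset.mem_filter.2 ⟨hS₁ (by simp), hS₁ (by simp)⟩⟩
      omega

theorem exists_small_of_alternatingGroup_le (G : Subgroup (Equiv.Perm α))
    (hn : 3 ≤ Fintype.card α) (h : alternatingGroup α ≤ G) :
    ∃ x : Equiv.Perm α, x ∈ G ∧ x ≠ 1 ∧ x.support.card ≤ 3 := by
  obtain ⟨a, b, c, hab, hac, hbc⟩ := Fintype.two_lt_card_iff.1 hn
  have h3 := isThreeCycle_swap_mul_swap_same hab hac hbc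
  refine ⟨_, h h3.mem_alternatingGroup, ?_, h3.card_support.le⟩
  intro e
  have := h3.card_support
  rw [e, Equiv.Perm.support_one, Finset.card_empty] at this
  omega

end Cfsg.Agent.PermP
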