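import Mathlib
import Cfsg.Prelude.Def_Perm
import Cfsg.Agent.Perm.Modules

/-!
Submodules of the natural permutation module of an alternating group.
-/

set_option autoImplicit false

namespace Cfsg.Agent.PermP

open MulAction

variable {α : Type*} [Fintype α] [DecidableEq α] {K : Type*} [Field K]

theorem permRep_single {G : Type*} [Group G] [MulAction G α] (g : G) (x : α) :
    Cfsg.permRep K G α g (Pi.single x 1) = Pi.single (g • x) 1 := by
  funext y
  rw [PermLib.permRep_apply, Pi.single_apply, Pi.single_apply]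
  simp only [inv_smul_eq_iff]

theorem alt_move (hα : 5 ≤ Fintype.card α) {a b c a' b' c' : α} (hab : a ≠ b) (hac : a ≠ c)
    (hbc : b ≠ c) (hab' : a' ≠ b') (hac' : a' ≠ c') (hbc' : b' ≠ c') :
    ∃ g : alternatingGroup α, g • a = a' ∧ g • b = b' ∧ g • c = c' := by
  have := alternatingGroup.isMultiplyPretransitive α
  have h3 : IsMultiplyPretransitive (alternatingGroup α) α 3 :=
    isMultiplyPretransitive_of_le (show 3 ≤ Nat.card α - 2 by rw [Nat.card_eq_fintype_card]; omega)
      (Nat.sub_le _ _)
  exact PermLib.three_pretransitive_iff.1 h3 a b c a' b' c' hab hac hbc hab' hac' hbc'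

theorem alt_submodule_classify (hα : 5 ≤ Fintype.card α)
    (W : Subrepresentation (Cfsg.permRep K (alternatingGroup α) α)) :
    W.toSubmodule = ⊥ ∨ W = Cfsg.permConstants K (alternatingGroup α) α ∨
      W = Cfsg.permSumZero K (alternatingGroup α) α ∨ W.toSubmodule = ⊤ := by
  classical
  set S := W.toSubmodule with hS
  have hinv : ∀ (g : alternatingGroup α), ∀ v ∈ S, Cfsg.permRep K (alternatingGroup α) α g v ∈ S :=
    fun g v hv => W.apply_mem_toSubmodule g hv
  by_cases hconst : ∀ f ∈ S, ∀ x y : α, f x = f y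
  · by_cases hbot : S = ⊥
    · exact Or.inl hbot
    refine Or.inr (Or.inl (Subrepresentation.toSubmodule_injective ?_))
    obtain ⟨v, hv, hv0⟩ := S.exists_mem_ne_zero_of_ne_bot hbot
    obtain ⟨x₀⟩ : Nonempty α := Fintype.card_pos_iff.1 (by omega)
    refine le_antisymm (fun f hf => PermLib.mem_permConstants.2 ⟨f x₀, fun x => hconst f hf x x₀⟩)
      (fun f hf => ?_)
    obtain ⟨c, hc⟩ := PermLib.mem_permConstants.1 hf
    have hvx : v x₀ ≠ 0 := fun h => hv0 (funext fun x => by rw [hconst v hv x x₀, h]; rfl)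
    have : f = (c * (v x₀)⁻¹) • v := funext fun x => by
      simp [hc x, hconst v hv x x₀, mul_assoc, inv_mul_cancel₀ hvx]
    rw [this]
    exact S.smul_mem _ hv
  push Not at hconst
  obtain ⟨f, hf, a, b, hfab⟩ := hconst
  have hab : a ≠ b := fun h => hfab (by rw [h])
  let e : α → (α → K) := fun x => Pi.single x 1
  have hmove : ∀ (g : alternatingGroup α) x, Cfsg.permRep K (alternatingGroup α) α g (e x) = e (g • x) :=
    fun g x => permRep_single g x
  -- some difference of two basis vectors lies in `S`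
  have hdiff : ∃ u v : α, u ≠ v ∧ e u - e v ∈ S := by
    have hrest : 3 ≤ (Finset.univ \ ({a, b} : Finset α)).card := by
      rw [Finset.card_sdiff_of_subset (Finset.subset_univ _), Finset.card_pair hab, Finset.card_univ]
      omega
    obtain ⟨c, d, x, hc, hd, hx, hcd, hcx, hdx⟩ := Finset.two_lt_card_iff.1 hrest
    simp only [Finset.mem_sdiff, Finset.mem_univ, true_and, Finset.mem_insert,
      Finset.mem_singleton, not_or] at hc hd hx
    let g₁ : alternatingGroup α := ⟨Equiv.swap a b * Equiv.swap c d, by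
      simp [Equiv.Perm.mem_alternatingGroup, Equiv.Perm.sign_swap hab, Equiv.Perm.sign_swap hcd]⟩
    set δ := f a - f b with hδ
    set ε := f c - f d with hε
    have hδ0 : δ ≠ 0 := sub_ne_zero.2 hfab
    have hd₁ : δ • (e a - e b) + ε • (e c - e d) ∈ S := by
      have heq : δ • (e a - e b) + ε • (e c - e d) =
          f - Cfsg.permRep K (alternatingGroup α) α g₁ f := by
        funext y
        have hsm : g₁⁻¹ • y = Equiv.swap c d (Equiv.swap a b y) := rfl
        simp only [Pi.add_apply, Pi.smul_apply, Pi.sub_apply, smul_eq_mul, e, Pi.single_apply,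
          PermLib.permRep_apply, hsm, hδ, hε]
        rcases eq_or_ne y a with rfl | hya
        · rw [Equiv.swap_apply_left, Equiv.swap_apply_of_ne_of_ne (Ne.symm hc.2) (Ne.symm hd.2)]
          simp [hab, Ne.symm hc.1, Ne.symm hd.1]
        rcases eq_or_ne y b with rfl | hyb
        · rw [Equiv.swap_apply_right, Equiv.swap_apply_of_ne_of_ne (Ne.symm hc.1) (Ne.symm hd.1)]
          simp [Ne.symm hab, Ne.symm hc.2, Ne.symm hd.2]
        rw [Equiv.swap_apply_of_ne_of_ne hya hyb]
        rcases eq_or_ne y c with rfl | hyc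
        · simp [hya, hyb, hcd]
        rcases eq_or_ne y d with rfl | hyd
        · simp [hya, hyb, Ne.symm hcd]
        simp [hya, hyb, hyc, hyd, Equiv.swap_apply_of_ne_of_ne hyc hyd]
      rw [heq]
      exact S.sub_mem hf (hinv _ f hf)
    rcases eq_or_ne ε 0 with hε0 | hε0
    · refine ⟨a, b, hab, ?_⟩
      rw [hε0, zero_smul, add_zero] at hd₁
      exact (S.smul_mem_iff hδ0).1 hd₁
    let k : alternatingGroup α := ⟨Equiv.swap a x * Equiv.swap c d, by
      simp [Equiv.Perm.mem_alternatingGroup, Equiv.Perm.sign_swap (Ne.symm hx.1),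
        Equiv.Perm.sign_swap hcd]⟩
    have hka : k • a = x := by
      show Equiv.swap a x (Equiv.swap c d a) = x
      rw [Equiv.swap_apply_of_ne_of_ne (Ne.symm hc.1) (Ne.symm hd.1), Equiv.swap_apply_left]
    have hkb : k • b = b := by
      show Equiv.swap a x (Equiv.swap c d b) = b
      rw [Equiv.swap_apply_of_ne_of_ne (Ne.symm hc.2) (Ne.symm hd.2),
        Equiv.swap_apply_of_ne_of_ne (Ne.symm hab) (Ne.symm hx.2)]
    have hkc : k • c = d := by
      show Equiv.swap a x (Equiv.swap c d c) = d
      rw [Equiv.swap_apply_left, Equiv.swap_apply_of_ne_of_ne hd.1 hdx]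
    have hkd : k • d = c := by
      show Equiv.swap a x (Equiv.swap c d d) = c
      rw [Equiv.swap_apply_right, Equiv.swap_apply_of_ne_of_ne hc.1 hcx]
    have hd₂ := S.add_mem hd₁ (hinv k _ hd₁)
    simp only [map_add, map_smul, map_sub, hmove, hka, hkb, hkc, hkd] at hd₂
    have hu : e a + e x - (2 : K) • e b ∈ S := by
      have : δ • (e a + e x - (2 : K) • e b) ∈ S := by
        convert hd₂ using 1
        funext y
        simp only [Pi.add_apply, Pi.smul_apply, Pi.sub_apply, smul_eq_mul]
        ring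
      exact (S.smul_mem_iff hδ0).1 this
    have hall : ∀ p q r : α, p ≠ q → p ≠ r → q ≠ r → e p + e q - (2 : K) • e r ∈ S := by
      intro p q r hpq hpr hqr
      obtain ⟨g, h1, h2, h3⟩ := alt_move hα (Ne.symm hx.1) hab hx.2 hpq hpr hqr
      have := hinv g _ hu
      simpa only [map_add, map_smul, map_sub, hmove, h1, h2, h3] using this
    refine ⟨x, b, hx.2, ?_⟩
    have h3 : (3 : K) • (e x - e b) ∈ S := by
      have := S.sub_mem hu (hall a b x hab (Ne.symm hx.1) (Ne.symm hx.2))
      convert this using 1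
      funext y
      simp only [Pi.add_apply, Pi.smul_apply, Pi.sub_apply, smul_eq_mul]
      ring
    have h2 : (2 : K) • (e x - e b) ∈ S := by
      have := S.sub_mem (hall a c b (Ne.symm hc.1) hab hc.2) (hall a c x (Ne.symm hc.1) (Ne.symm hx.1) hcx)
      convert this using 1
      funext y
      simp only [Pi.add_apply, Pi.smul_apply, Pi.sub_apply, smul_eq_mul]
      ring
    have h1 := S.sub_mem h3 h2
    rw [← sub_smul] at h1
    norm_num at h1
    exact h1
  obtain ⟨u, v, huv, huvS⟩ := hdiff
  have hallpairs : ∀ p q : α, e p - e q ∈ S := by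
    intro p q
    rcases eq_or_ne p q with rfl | hpq
    · rw [sub_self]; exact S.zero_mem
    obtain ⟨w, hw⟩ : ∃ w, w ∈ Finset.univ \ ({u, v} : Finset α) := Finset.card_pos.1 (by
      rw [Finset.card_sdiff_of_subset (Finset.subset_univ _), Finset.card_pair huv, Finset.card_univ]
      omega)
    obtain ⟨w', hw'⟩ : ∃ w, w ∈ Finset.univ \ ({p, q} : Finset α) := Finset.card_pos.1 (by
      rw [Finset.card_sdiff_of_subset (Finset.subset_univ _), Finset.card_pair hpq, Finset.card_univ]
      omega)
    simp only [Finset.mem_sdiff, Finset.mem_univ, true_and, Finset.mem_insert,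
      Finset.mem_singleton, not_or] at hw hw'
    obtain ⟨g, h1, h2, -⟩ := alt_move hα huv (Ne.symm hw.1) (Ne.symm hw.2) hpq (Ne.symm hw'.1)
      (Ne.symm hw'.2)
    have := hinv g _ huvS
    simpa only [map_sub, hmove, h1, h2] using this
  have hsz : (Cfsg.permSumZero K (alternatingGroup α) α).toSubmodule ≤ S := by
    intro f hf
    rw [PermLib.mem_permSumZero] at hf
    obtain ⟨x₀⟩ : Nonempty α := Fintype.card_pos_iff.1 (by omega)
    have : f = ∑ x, f x • (e x - e x₀) := by
      simp only [smul_sub, Finset.sum_sub_distrib, ← Finset.sum_smul, hf, zero_smul, sub_zero]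
      exact pi_eq_sum_univ' f
    rw [this]
    exact S.sum_mem fun x _ => S.smul_mem _ (hallpairs x x₀)
  by_cases heq : S ≤ (Cfsg.permSumZero K (alternatingGroup α) α).toSubmodule
  · exact Or.inr (Or.inr (Or.inl (Subrepresentation.toSubmodule_injective (le_antisymm heq hsz))))
  right; right; right
  rw [eq_top_iff]
  intro g _
  obtain ⟨h, hh, hh'⟩ := SetLike.not_le_iff_exists.1 heq
  rw [PermLib.mem_permSumZero] at hh'
  have hgs : g - ((∑ x, g x) / ∑ x, h x) • h ∈
      (Cfsg.permSumZero K (alternatingGroup α) α).toSubmodule := by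
    rw [PermLib.mem_permSumZero]
    simp [Finset.sum_sub_distrib, ← Finset.mul_sum, div_mul_cancel₀ _ hh']
  have := S.add_mem (hsz hgs) (S.smul_mem ((∑ x, g x) / ∑ x, h x) hh)
  rwa [sub_add_cancel] at this

end Cfsg.Agent.PermP
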