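import Mathlib
import Cfsg.Agent.CharInd.Frobenius
import Cfsg.Agent.Perm.Regular

/-!
Burnside's theorem on the minimal normal subgroup of a doubly transitive group.
-/

set_option autoImplicit false
set_option linter.style.haveILetI false

namespace Cfsg.Agent.PermP

open MulAction Cfsg.Agent.PermLib
open scoped Pointwise

universe u v

theorem dvd_card_of_stabilizer_const {H : Type u} [Group H] [Finite H] {S : Type v}
    [MulAction H S] [Finite S] {t w : ℕ} (hw : w ≠ 0) (hH : Nat.card H = t * w)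
    (hs : ∀ s : S, Nat.card (stabilizer H s) = w) : t ∣ Nat.card S := by
  classical
  haveI : Fintype (orbitRel.Quotient H S) := Fintype.ofFinite _
  rw [Nat.card_congr (MulAction.selfEquivSigmaOrbits' H S), Nat.card_sigma]
  refine Finset.dvd_sum fun q _ => ?_
  induction q using Quotient.inductionOn' with
  | _ s =>
    rw [orbitRel.Quotient.orbit_mk]
    have h := Nat.card_congr (MulAction.orbitProdStabilizerEquivGroup H s)
    rw [Nat.card_prod, hs, hH] at h
    exact ⟨1, by rw [mul_one]; exact Nat.eq_of_mul_eq_mul_right (Nat.pos_of_ne_zero hw) h⟩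

variable {G : Type u} [Group G] [Finite G] {α : Type v} [Finite α] [MulAction G α]
  [FaithfulSMul G α]

omit [FaithfulSMul G α] [Finite G] [Finite α] in
theorem card_two_point_eq (h2 : IsMultiplyPretransitive G α 2) (N : Subgroup G) [N.Normal]
    {a b c d : α} (hab : a ≠ b) (hcd : c ≠ d) :
    Nat.card ↥(stabilizer N a ⊓ stabilizer N b : Subgroup N) =
      Nat.card ↥(stabilizer N c ⊓ stabilizer N d : Subgroup N) := by
  obtain ⟨g, hga, hgb⟩ := is_two_pretransitive_iff.1 h2 hab hcd
  have key : ∀ (x y : α), g • x = y → ∀ n : N,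
      (MulAut.conjNormal g n) • y = y ↔ n • x = x := by
    intro x y hxy n
    show ((MulAut.conjNormal g n : N) : G) • y = y ↔ (n : G) • x = x
    rw [MulAut.conjNormal_apply, ← hxy, mul_smul, mul_smul, inv_smul_smul, smul_left_cancel_iff]
  refine Nat.card_congr ⟨fun n => ⟨MulAut.conjNormal g n, ?_⟩,
    fun n => ⟨(MulAut.conjNormal g).symm n, ?_⟩, fun n => ?_, fun n => ?_⟩
  · exact ⟨(key a c hga _).2 n.2.1, (key b d hgb _).2 n.2.2⟩
  · refine ⟨(key a c hga _).1 ?_, (key b d hgb _).1 ?_⟩
    · rw [MulEquiv.apply_symm_apply]; exact n.2.1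
    · rw [MulEquiv.apply_symm_apply]; exact n.2.2
  · exact Subtype.ext (MulEquiv.symm_apply_apply _ _)
  · exact Subtype.ext (MulEquiv.apply_symm_apply _ _)

omit [FaithfulSMul G α] [Finite α] in
theorem frobenius_not_minimal (N : Subgroup G) [N.Normal] [IsPretransitive N α] {a b : α}
    (hab : a ≠ b) (hne : stabilizer N a ≠ ⊥)
    (hsemi : ∀ x y : α, x ≠ y → ∀ n : N, n • x = x → n • y = y → n = 1)
    (hmin : ∀ M : Subgroup G, M.Normal → M ≤ N → M = ⊥ ∨ M = N) : False := by
  obtain ⟨K, -, hmem, hK⟩ := CharInd.frobenius_kernel (stabilizer N a) (by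
    intro g hg x hx hgx
    refine hsemi (g⁻¹ • a) a ?_ x ?_ hx
    · intro e
      exact hg (inv_mem_iff.1 (e : g⁻¹ ∈ stabilizer N a))
    · rw [mem_stabilizer_iff, mul_smul, mul_smul] at hgx
      rwa [smul_eq_iff_eq_inv_smul] at hgx)
  have hmem' : ∀ g : N, g ∈ K ↔ ∀ x : α, g • x = x → g = 1 := by
    intro g
    rw [hmem]
    constructor
    · intro h x hx
      obtain ⟨t, rfl⟩ := exists_smul_eq N a x
      have := h t (by rw [mem_stabilizer_iff, mul_smul, mul_smul, hx, inv_smul_smul])
      rwa [mul_assoc, inv_mul_eq_iff_eq_mul, mul_one, mul_eq_right] at this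
    · intro h t ht
      rw [mem_stabilizer_iff, mul_smul, mul_smul, inv_smul_eq_iff] at ht
      rw [h _ ht, mul_one, inv_mul_cancel]
  set L := K.map N.subtype with hL
  have hLn : L.Normal := by
    constructor
    rintro _ ⟨k, hk, rfl⟩ g
    refine ⟨MulAut.conjNormal g k, (hmem' _).2 fun x hx => ?_, MulAut.conjNormal_apply g k⟩
    have hx' : ((MulAut.conjNormal g k : N) : G) • x = x := hx
    rw [MulAut.conjNormal_apply, mul_smul, mul_smul, smul_eq_iff_eq_inv_smul] at hx'
    rw [(hmem' k).1 hk (g⁻¹ • x) hx', map_one]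
  rcases hmin L hLn (Subgroup.map_subtype_le K) with h | h
  · have hKb : K = ⊥ := by
      rw [hL, ← Subgroup.map_bot N.subtype] at h
      exact Subgroup.map_injective N.subtype_injective h
    obtain ⟨n, hn⟩ := exists_smul_eq N a b
    have htop := hK.sup_eq_top
    rw [hKb, bot_sup_eq] at htop
    have : n ∈ stabilizer N a := htop ▸ Subgroup.mem_top n
    exact hab (this.symm.trans hn)
  · obtain ⟨⟨x, hx⟩, hx1⟩ := (Subgroup.ne_bot_iff_exists_ne_one).1 hne
    have : (x : G) ∈ L := h.symm ▸ x.2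
    obtain ⟨k, hk, hkx⟩ := this
    obtain rfl : k = x := Subtype.ext hkx
    exact hx1 (Subtype.ext ((hmem' k).1 hk a hx))

theorem preprimitive_of_minimal (h2 : IsMultiplyPretransitive G α 2) (N : Subgroup G) [N.Normal]
    [IsPretransitive N α] (hne : ∀ a : α, stabilizer N a ≠ ⊥)
    (hmin : ∀ M : Subgroup G, M.Normal → M ≤ N → M = ⊥ ∨ M = N) : IsPreprimitive N α := by
  classical
  refine { isTrivialBlock_of_isBlock := ?_ }
  intro B hB
  by_contra hBt
  rw [IsTrivialBlock, not_or, Set.not_subsingleton_iff] at hBt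
  obtain ⟨⟨a, ha, b, hb, hab⟩, hBu⟩ := hBt
  obtain ⟨d, hd⟩ := (Set.ne_univ_iff_exists_notMem B).1 hBu
  set w := Nat.card ↥(stabilizer N a ⊓ stabilizer N b : Subgroup N) with hw
  have hwxy : ∀ x y : α, x ≠ y → Nat.card ↥(stabilizer N x ⊓ stabilizer N y : Subgroup N) = w :=
    fun x y hxy => card_two_point_eq h2 N hxy hab
  have hwpos : w ≠ 0 := Nat.card_pos.ne'
  -- the stabiliser of `x` moves the points of an invariant set in orbits of a fixed length
  have horb : ∀ (H : Subgroup N) (x : α) (S : Set α), H ≤ stabilizer N x → x ∉ S →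
      (∀ h ∈ H, ∀ y ∈ S, h • y ∈ S) → (∀ y ∈ S, stabilizer N x ⊓ stabilizer N y ≤ H) →
      ∀ t, Nat.card H = t * w → t ∣ Nat.card S := by
    intro H x S hHx hxS hinv hle t ht
    let S' : SubMulAction H α :=
      { carrier := S, smul_mem' := fun h y hy => hinv h h.2 y hy }
    refine dvd_card_of_stabilizer_const (H := H) (S := S') hwpos ht fun s => ?_
    rw [← hwxy x (s : α) (fun e => hxS (e ▸ s.2)),
      ← Subgroup.card_map_of_injective (f := H.subtype) H.subtype_injective]
    congr 2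
    ext n
    constructor
    · rintro ⟨h, hh, rfl⟩
      exact ⟨hHx h.2, congrArg (fun z : S' => (z : α)) hh⟩
    · intro hn
      exact ⟨⟨n, hle _ s.2 hn⟩, Subtype.ext hn.2, rfl⟩
  obtain ⟨t, ht⟩ : w ∣ Nat.card (stabilizer N a) := Subgroup.card_dvd_of_le inf_le_left
  rw [mul_comm] at ht
  -- `t` divides `|B| - 1`
  have hBa : ∀ h ∈ stabilizer N a, h • B = B := fun h hh =>
    hB.smul_eq_of_mem ha ((mem_stabilizer_iff.1 hh).symm ▸ ha)
  have htB : t ∣ Nat.card ↥(B \ {a} : Set α) := by
    refine horb _ a _ le_rfl (fun h => h.2 rfl) ?_ (fun _ _ => inf_le_left) t ht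
    intro h hh y hy
    refine ⟨hBa h hh ▸ Set.smul_mem_smul_set hy.1, fun e => hy.2 ?_⟩
    rw [Set.mem_singleton_iff] at e ⊢
    rw [← mem_stabilizer_iff.1 hh] at e
    exact smul_left_cancel h e
  -- the block through `d`
  obtain ⟨g, hg⟩ := exists_smul_eq N a d
  set D := g • B with hD
  have hDblock : IsBlock N D := hB.translate g
  have hdD : d ∈ D := hg ▸ Set.smul_mem_smul_set ha
  have haD : a ∉ D := by
    intro haD
    have : D = B := by
      by_contra hne'
      exact Set.disjoint_left.1 (hB.disjoint_smul_of_ne hne') haD ha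
    exact hd (this ▸ hdD)
  have hfixD : ∀ x : α, x ∉ D → stabilizer N x ⊓ stabilizer N D ≤ stabilizer N x := fun _ _ =>
    inf_le_left
  set R : Subgroup N := stabilizer N a ⊓ stabilizer N D with hR
  have hsub : ∀ y ∈ D, stabilizer N a ⊓ stabilizer N y ≤ R := fun y hy n hn =>
    ⟨hn.1, hDblock.smul_eq_of_mem hy ((mem_stabilizer_iff.1 hn.2).symm ▸ hy)⟩
  obtain ⟨u, hu⟩ : w ∣ Nat.card R := hwxy a d (fun e => haD (e ▸ hdD)) ▸ Subgroup.card_dvd_of_le (hsub d hdD)
  rw [mul_comm] at hu
  have huD : u ∣ Nat.card D := horb R a D inf_le_left haD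
    (fun h hh y hy => (mem_stabilizer_iff.1 hh.2) ▸ Set.smul_mem_smul_set hy) hsub u hu
  have hut : u ∣ t := by
    have h1 : Nat.card R ∣ Nat.card (stabilizer N a) := Subgroup.card_dvd_of_le inf_le_left
    rw [hu, ht] at h1
    exact Nat.dvd_of_mul_dvd_mul_right (Nat.pos_of_ne_zero hwpos) h1
  have hu1 : u = 1 := by
    have hc : Nat.card ↥(B \ {a} : Set α) + 1 = Nat.card D := by
      rw [Nat.card_coe_set_eq, Nat.card_coe_set_eq, hD, Set.ncard_smul_set,
        Set.ncard_sdiff_singleton_add_one ha (Set.toFinite _)]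
    rw [← hc] at huD
    exact Nat.dvd_one.1 ((Nat.dvd_add_right (hut.trans htB)).1 huD)
  rw [hu1, one_mul] at hu
  -- two-point stabilisers fix everything
  have heq : ∀ y ∈ D, stabilizer N a ⊓ stabilizer N y = R := fun y hy =>
    Subgroup.eq_of_le_of_card_ge (hsub y hy) (by rw [hu, hwxy a y (fun e => haD (e ▸ hy))])
  obtain ⟨d', hd'D, hdd'⟩ : ∃ d' ∈ D, d' ≠ d := by
    by_cases h : g • b = d
    · exact ⟨g • a, Set.smul_mem_smul_set ha,
        fun e => hab (smul_left_cancel g (e.trans h.symm))⟩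
    · exact ⟨g • b, Set.smul_mem_smul_set hb, h⟩
  have hall : ∀ x : α, x ∉ D → ∀ y ∈ D, ∀ n ∈ stabilizer N d' ⊓ stabilizer N d,
      n • x = x ∧ n • y = y := by
    intro x hx y hy
    set Rx : Subgroup N := stabilizer N x ⊓ stabilizer N D with hRx
    have hsubx : ∀ z ∈ D, stabilizer N x ⊓ stabilizer N z ≤ Rx := fun z hz n hn =>
      ⟨hn.1, hDblock.smul_eq_of_mem hz ((mem_stabilizer_iff.1 hn.2).symm ▸ hz)⟩
    obtain ⟨v, hv⟩ : w ∣ Nat.card Rx :=
      hwxy x d (fun e => hx (e ▸ hdD)) ▸ Subgroup.card_dvd_of_le (hsubx d hdD)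
    rw [mul_comm] at hv
    have hvD : v ∣ Nat.card D := horb Rx x D inf_le_left hx
      (fun h hh z hz => (mem_stabilizer_iff.1 hh.2) ▸ Set.smul_mem_smul_set hz) hsubx v hv
    obtain ⟨k, hk⟩ := exists_smul_eq N a x
    have htx : Nat.card (stabilizer N x) = t * w := by
      rw [← ht, ← hk, stabilizer_smul_eq_stabilizer_map_conj]
      exact Subgroup.card_map_of_injective (MulEquiv.injective _)
    have hvt : v ∣ t := by
      have h1 : Nat.card Rx ∣ Nat.card (stabilizer N x) := Subgroup.card_dvd_of_le inf_le_left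
      rw [hv, htx] at h1
      exact Nat.dvd_of_mul_dvd_mul_right (Nat.pos_of_ne_zero hwpos) h1
    have hv1 : v = 1 := by
      have hc : Nat.card ↥(B \ {a} : Set α) + 1 = Nat.card D := by
        rw [Nat.card_coe_set_eq, Nat.card_coe_set_eq, hD, Set.ncard_smul_set,
          Set.ncard_sdiff_singleton_add_one ha (Set.toFinite _)]
      rw [← hc] at hvD
      exact Nat.dvd_one.1 ((Nat.dvd_add_right (hvt.trans htB)).1 hvD)
    rw [hv1, one_mul] at hv
    have heqx : ∀ z ∈ D, stabilizer N x ⊓ stabilizer N z = Rx := fun z hz =>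
      Subgroup.eq_of_le_of_card_ge (hsubx z hz) (by rw [hv, hwxy x z (fun e => hx (e ▸ hz))])
    have hle : Rx ≤ stabilizer N d' ⊓ stabilizer N d :=
      le_inf ((heqx d' hd'D).ge.trans inf_le_right) ((heqx d hdD).ge.trans inf_le_right)
    have hRd : Rx = stabilizer N d' ⊓ stabilizer N d :=
      Subgroup.eq_of_le_of_card_ge hle (by rw [hv, hwxy d' d hdd'])
    intro n hn
    rw [← hRd] at hn
    exact ⟨hn.1, ((heqx y hy).ge hn).2⟩
  have hw1 : w = 1 := by
    rw [← hwxy d' d hdd', Subgroup.card_eq_one, Subgroup.eq_bot_iff_forall]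
    intro n hn
    refine Subtype.ext (FaithfulSMul.eq_of_smul_eq_smul (α := α) fun y => ?_)
    show (n : G) • y = (1 : G) • y
    rw [one_smul]
    by_cases hy : y ∈ D
    · exact (hall a haD y hy n hn).2
    · exact (hall y hy d hdD n hn).1
  refine frobenius_not_minimal N hab (hne a) (fun x y hxy n hnx hny => ?_) hmin
  have hn : n ∈ stabilizer N x ⊓ stabilizer N y := ⟨hnx, hny⟩
  have h1 := hwxy x y hxy
  rw [hw1, Subgroup.card_eq_one] at h1
  rwa [h1, Subgroup.mem_bot] at hn

theorem exists_minimal_normal_le {H : Type*} [Group H] [Finite H] (L : Subgroup H) [L.Normal]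
    (hL : L ≠ ⊥) : ∃ M : Subgroup H, M.Normal ∧ M ≤ L ∧ M ≠ ⊥ ∧
      ∀ K : Subgroup H, K.Normal → K ≤ M → K = ⊥ ∨ K = M := by
  obtain ⟨M, hM⟩ := (Set.toFinite {K : Subgroup H | K.Normal ∧ K ≤ L ∧ K ≠ ⊥}).exists_minimal
    ⟨L, ‹_›, le_rfl, hL⟩
  obtain ⟨⟨h1, h2, h3⟩, hmin⟩ := hM
  refine ⟨M, h1, h2, h3, fun K hK hle => or_iff_not_imp_left.2 fun hne => ?_⟩
  exact le_antisymm hle (hmin ⟨hK, hle.trans h2, hne⟩ hle)

theorem simple_of_minimal (h2 : IsMultiplyPretransitive G α 2) [Nontrivial α] (N : Subgroup G)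
    [N.Normal] (hN : N ≠ ⊥) [IsPreprimitive N α] (hne : ∀ a : α, stabilizer N a ≠ ⊥)
    (hmin : ∀ M : Subgroup G, M.Normal → M ≤ N → M = ⊥ ∨ M = N) : IsSimpleGroup N := by
  classical
  haveI : Nontrivial N := (Subgroup.nontrivial_iff_ne_bot N).2 hN
  refine ⟨fun L hL => ?_⟩
  rcases eq_or_ne L ⊥ with hLb | hLb
  · exact Or.inl hLb
  right
  haveI := hL
  obtain ⟨M, hMn, hML, hM, hMmin⟩ := exists_minimal_normal_le L hLb
  suffices M = ⊤ from top_le_iff.1 (this ▸ hML)
  haveI := hMn
  by_contra hMtop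
  let φ : G → Subgroup N := fun g => M.map (MulAut.conjNormal g).toMonoidHom
  have hφn : ∀ g, (φ g).Normal := fun g => hMn.map _ (MulEquiv.surjective _)
  have hφ0 : ∀ g, φ g ≠ ⊥ := fun g h =>
    hM (Subgroup.map_injective (MulEquiv.injective (MulAut.conjNormal g : MulAut N))
      (h.trans (Subgroup.map_bot _).symm))
  have hφcard : ∀ g, Nat.card (φ g) = Nat.card M := fun g =>
    Subgroup.card_map_of_injective (MulEquiv.injective (MulAut.conjNormal g : MulAut N))
  have hφmin : ∀ g, ∀ K : Subgroup N, K.Normal → K ≤ φ g → K = ⊥ ∨ K = φ g := by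
    intro g K hK hle
    have hsurj : Function.Surjective (MulAut.conjNormal g : MulAut N).toMonoidHom :=
      MulEquiv.surjective _
    rcases hMmin (K.comap (MulAut.conjNormal g : MulAut N).toMonoidHom) (hK.comap _) (by
      intro x hx
      obtain ⟨y, hy, hyx⟩ := hle hx
      exact (MulEquiv.injective (MulAut.conjNormal g : MulAut N) hyx) ▸ hy) with h | h
    · left
      rw [← Subgroup.map_comap_eq_self_of_surjective hsurj K, h, Subgroup.map_bot]
    · right
      rw [← Subgroup.map_comap_eq_self_of_surjective hsurj K, h]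
  -- some conjugate differs from `M`
  obtain ⟨g, hg⟩ : ∃ g, φ g ≠ M := by
    by_contra hcon
    push Not at hcon
    have hn : (M.map N.subtype).Normal := by
      constructor
      rintro _ ⟨m, hm, rfl⟩ g
      refine ⟨MulAut.conjNormal g m, ?_, MulAut.conjNormal_apply g m⟩
      rw [← hcon g]
      exact ⟨m, hm, rfl⟩
    rcases hmin _ hn (Subgroup.map_subtype_le M) with h | h
    · exact hM (Subgroup.map_injective N.subtype_injective (h.trans (Subgroup.map_bot _).symm))
    · refine hMtop (Subgroup.map_injective N.subtype_injective (h.trans ?_))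
      rw [← MonoidHom.range_eq_map, Subgroup.range_subtype]
  set M' := φ g
  haveI := hφn g
  have hMt : IsPretransitive M α := isPretransitive_of_normal_ne_bot hM
  have hMt' : IsPretransitive M' α := isPretransitive_of_normal_ne_bot (hφ0 g)
  have hinf : M ⊓ M' = ⊥ := by
    rcases hMmin (M ⊓ M') inferInstance inf_le_left with h | h
    · exact h
    · exfalso
      have hle : M ≤ M' := h ▸ inf_le_right
      exact hg (Subgroup.eq_of_le_of_card_ge hle (hφcard g).le).symm
  have hcomm : ∀ m ∈ M, ∀ m' ∈ M', m * m' = m' * m := fun m hm m' hm' =>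
    Subgroup.commute_of_normal_of_disjoint M M' hMn (hφn g) (disjoint_iff.2 hinf) m m' hm hm'
  obtain ⟨a, b, hab⟩ := exists_pair_ne α
  -- every element centralising `M` lies in `M'`
  have hcent : ∀ c : N, (∀ m ∈ M, c * m = m * c) → c ∈ M' := by
    intro c hc
    obtain ⟨m', hm'⟩ := exists_smul_eq M' a (c • a)
    have : c = (m' : N) := by
      refine FaithfulSMul.eq_of_smul_eq_smul (α := α) fun x => ?_
      obtain ⟨m, rfl⟩ := exists_smul_eq M a x
      show c • (m : N) • a = (m' : N) • (m : N) • a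
      rw [← mul_smul, hc m m.2, ← mul_smul, ← hcomm m m.2 m' m'.2, mul_smul, mul_smul]
      exact congrArg ((m : N) • ·) hm'.symm
    rw [this]; exact m'.2
  have hreg : stabilizer M a = ⊥ := by
    rw [Subgroup.eq_bot_iff_forall]
    intro m hm
    refine Subtype.ext (FaithfulSMul.eq_of_smul_eq_smul (α := α) fun x => ?_)
    obtain ⟨m', rfl⟩ := exists_smul_eq M' a x
    show (m : N) • (m' : N) • a = (1 : N) • (m' : N) • a
    rw [one_smul, ← mul_smul, hcomm m m.2 m' m'.2, mul_smul]
    exact congrArg ((m' : N) • ·) (mem_stabilizer_iff.1 hm)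
  have hMcard : Nat.card M = Nat.card α := card_eq_of_regular hreg
  -- `N` is the product of `M` and `M'`
  have hsup : M ⊔ M' = ⊤ := by
    have hclosed : ∀ h, φ h ≤ M ⊔ M' := by
      intro h
      haveI := hφn h
      by_cases e : φ h = M
      · rw [e]; exact le_sup_left
      refine le_trans ?_ (le_sup_right (a := M))
      intro x hx
      apply hcent
      intro m hm
      have hi : M ⊓ φ h = ⊥ := by
        rcases hMmin (M ⊓ φ h) inferInstance inf_le_left with hh | hh
        · exact hh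
        · exact absurd (Subgroup.eq_of_le_of_card_ge (hh ▸ inf_le_right) (hφcard h).le).symm e
      exact (Subgroup.commute_of_normal_of_disjoint M (φ h) hMn (hφn h) (disjoint_iff.2 hi) m x hm hx).symm
    have hn : ((M ⊔ M').map N.subtype).Normal := by
      constructor
      rintro _ ⟨m, hm, rfl⟩ h
      refine ⟨MulAut.conjNormal h m, ?_, MulAut.conjNormal_apply h m⟩
      have himg : (M ⊔ M').map (MulAut.conjNormal h).toMonoidHom ≤ M ⊔ M' := by
        rw [Subgroup.map_sup]
        refine sup_le (hclosed h) ?_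
        have e2 : M'.map (MulAut.conjNormal h).toMonoidHom = φ (h * g) := by
          rw [Subgroup.map_map]
          congr 1
          ext x
          simp [MulAut.mul_apply]
        rw [e2]
        exact hclosed _
      exact himg ⟨m, hm, rfl⟩
    rcases hmin _ hn (Subgroup.map_subtype_le _) with h | h
    · exact absurd (le_bot_iff.1 ((le_sup_left (b := M')).trans
        (Subgroup.map_injective N.subtype_injective (h.trans (Subgroup.map_bot _).symm)).le)) hM
    · exact Subgroup.map_injective N.subtype_injective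
        (h.trans (by rw [← MonoidHom.range_eq_map, Subgroup.range_subtype]))
  have hNcard : Nat.card N = Nat.card M * Nat.card M := by
    conv_rhs => arg 2; rw [← hφcard g]
    rw [← Nat.card_prod]
    refine (Nat.card_congr (Equiv.ofBijective (fun q : M × M' => ((q.1 : N) * (q.2 : N))) ⟨?_, ?_⟩)).symm
    · intro q r h
      have h' : (q.1 : N) * (q.2 : N) = (r.1 : N) * (r.2 : N) := h
      have h1 : (r.1 : N)⁻¹ * (q.1 : N) = (r.2 : N) * (q.2 : N)⁻¹ := by
        rw [eq_mul_inv_iff_mul_eq, mul_assoc, h', inv_mul_cancel_left]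
      have hm : (r.1 : N)⁻¹ * (q.1 : N) ∈ M ⊓ M' :=
        ⟨M.mul_mem (M.inv_mem r.1.2) q.1.2, h1 ▸ M'.mul_mem r.2.2 (M'.inv_mem q.2.2)⟩
      rw [hinf, Subgroup.mem_bot] at hm
      have e1 : r.1 = q.1 := Subtype.ext (inv_mul_eq_one.1 hm)
      have e2 : r.2 = q.2 := by
        rw [h1, mul_inv_eq_one] at hm
        exact Subtype.ext hm
      exact Prod.ext e1.symm e2.symm
    · intro x
      obtain ⟨m, hm, m', hm', rfl⟩ := Subgroup.mem_sup_of_normal_left.1
        (show x ∈ M ⊔ M' by rw [hsup]; trivial)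
      exact ⟨(⟨m, hm⟩, ⟨m', hm'⟩), rfl⟩
  have horbit := Nat.card_congr (MulAction.orbitProdStabilizerEquivGroup N a)
  rw [Nat.card_prod, hNcard, hMcard, MulAction.orbit_eq_univ, Nat.card_univ] at horbit
  haveI : Nonempty α := ⟨a⟩
  have hst : Nat.card (stabilizer N a) = Nat.card α :=
    Nat.eq_of_mul_eq_mul_left Nat.card_pos horbit
  set w := Nat.card ↥(stabilizer N a ⊓ stabilizer N b : Subgroup N) with hw
  obtain ⟨t, ht⟩ : w ∣ Nat.card (stabilizer N a) := Subgroup.card_dvd_of_le inf_le_left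
  rw [mul_comm] at ht
  let S : SubMulAction (stabilizer N a) α :=
    { carrier := {a}ᶜ
      smul_mem' := fun h y hy e => hy (by
        have e' : (h : N) • y = a := e
        have h2 : (h : N) • a = a := h.2
        exact smul_left_cancel (h : N) (e'.trans h2.symm)) }
  have hdvd : t ∣ Nat.card S := by
    refine dvd_card_of_stabilizer_const (H := stabilizer N a) (S := S) Nat.card_pos.ne' ht fun s => ?_
    rw [← card_two_point_eq h2 N (fun e : a = (s : α) => s.2 e.symm) hab,
      ← Subgroup.card_map_of_injective (f := (stabilizer N a).subtype) (Subgroup.subtype_injective _)]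
    congr 2
    ext n
    constructor
    · rintro ⟨h, hh, rfl⟩
      exact ⟨h.2, congrArg (fun z : S => (z : α)) hh⟩
    · intro hn
      exact ⟨⟨n, hn.1⟩, Subtype.ext hn.2, rfl⟩
  have hS : Nat.card S + 1 = Nat.card α := by
    have h1 : Nat.card S = ({a}ᶜ : Set α).ncard := rfl
    rw [h1, ← Set.ncard_singleton a, add_comm, Set.ncard_add_ncard_compl]
  have hta : t ∣ Nat.card α := ⟨w, by rw [← hst, ht]⟩
  have ht1 : t = 1 := by
    rw [← hS] at hta
    exact Nat.dvd_one.1 ((Nat.dvd_add_right hdvd).1 hta)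
  rw [ht1, one_mul] at ht
  refine hne a ((Subgroup.eq_bot_iff_forall _).2 fun n hn => ?_)
  refine Subtype.ext (FaithfulSMul.eq_of_smul_eq_smul (α := α) fun y => ?_)
  show (n : G) • y = (1 : G) • y
  rw [one_smul]
  by_cases hy : y = a
  · rw [hy]; exact hn
  · have hyw : Nat.card ↥(stabilizer N a ⊓ stabilizer N y : Subgroup N) = w :=
      card_two_point_eq h2 N (Ne.symm hy) hab
    have heq : stabilizer N a ⊓ stabilizer N y = stabilizer N a :=
      Subgroup.eq_of_le_of_card_ge inf_le_left (by rw [hyw, ht])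
    exact ((heq.ge) hn).2

end Cfsg.Agent.PermP
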