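import Mathlib

/-!
Certificates for subgroups of `GL(2, p)` acting regularly on non-zero vectors.
-/

set_option autoImplicit false

namespace Cfsg.Agent.PermP

open Matrix

variable {p : ℕ} [Fact p.Prime]

/-- The matrix with the entries of a quadruple. -/
def quadMat (t : ZMod p × ZMod p × ZMod p × ZMod p) : Matrix (Fin 2) (Fin 2) (ZMod p) :=
  !![t.1, t.2.1; t.2.2.1, t.2.2.2]

/-- The product of two quadruples, read as matrices. -/
def quadMul (s t : ZMod p × ZMod p × ZMod p × ZMod p) : ZMod p × ZMod p × ZMod p × ZMod p :=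
  (s.1 * t.1 + s.2.1 * t.2.2.1, s.1 * t.2.1 + s.2.1 * t.2.2.2,
    s.2.2.1 * t.1 + s.2.2.2 * t.2.2.1, s.2.2.1 * t.2.1 + s.2.2.2 * t.2.2.2)

/-- The quadruple of a word in the generators. -/
def quadEval (T : List (ZMod p × ZMod p × ZMod p × ZMod p)) :
    List ℕ → ZMod p × ZMod p × ZMod p × ZMod p
  | [] => (1, 0, 0, 1)
  | i :: w => quadMul (T.getD i (1, 0, 0, 1)) (quadEval T w)

theorem quadMat_mul (s t : ZMod p × ZMod p × ZMod p × ZMod p) :
    quadMat (quadMul s t) = quadMat s * quadMat t := by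
  simp [quadMat, quadMul, Matrix.mul_fin_two]

theorem quadMat_one : quadMat (p := p) (1, 0, 0, 1) = 1 := by
  simp [quadMat, Matrix.one_fin_two]

theorem quadMat_injective : Function.Injective (quadMat (p := p)) := by
  rintro ⟨a, b, c, d⟩ ⟨a', b', c', d'⟩ h
  have h00 := congrFun (congrFun h 0) 0
  have h01 := congrFun (congrFun h 0) 1
  have h10 := congrFun (congrFun h 1) 0
  have h11 := congrFun (congrFun h 1) 1
  simp [quadMat] at h00 h01 h10 h11
  simp [h00, h01, h10, h11]

theorem exists_word (gs : List (Matrix.GeneralLinearGroup (Fin 2) (ZMod p)))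
    (T : List (ZMod p × ZMod p × ZMod p × ZMod p))
    (hT : gs.map (fun g : Matrix.GeneralLinearGroup (Fin 2) (ZMod p) =>
      (g : Matrix (Fin 2) (Fin 2) (ZMod p))) = T.map quadMat)
    (words : List (List ℕ))
    (hnil : (1, 0, 0, 1) ∈ words.map (quadEval T))
    (hclosed : (T.all fun s => words.all fun w =>
      decide (quadMul s (quadEval T w) ∈ words.map (quadEval T))) = true)
    (g : Matrix.GeneralLinearGroup (Fin 2) (ZMod p))
    (hg : g ∈ Subgroup.closure {x | x ∈ gs}) :
    ∃ w ∈ words, (g : Matrix (Fin 2) (Fin 2) (ZMod p)) = quadMat (quadEval T w) := by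
  rw [← Subgroup.mem_toSubmonoid, Subgroup.closure_toSubmonoid_of_finite] at hg
  induction hg using Submonoid.closure_induction_left with
  | one =>
    obtain ⟨w, hw, hwe⟩ := List.mem_map.1 hnil
    exact ⟨w, hw, by rw [hwe, quadMat_one]; rfl⟩
  | mul_left x hx y _ ih =>
    obtain ⟨w, hw, hwy⟩ := ih
    have hxm : (x : Matrix (Fin 2) (Fin 2) (ZMod p)) ∈ T.map quadMat := hT ▸ List.mem_map_of_mem hx
    obtain ⟨s, hs, hsx⟩ := List.mem_map.1 hxm
    rw [List.all_eq_true] at hclosed
    have h2 := hclosed s hs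
    rw [List.all_eq_true] at h2
    obtain ⟨w', hw', hwe⟩ := List.mem_map.1 (of_decide_eq_true (h2 w hw))
    exact ⟨w', hw', by rw [Units.val_mul, ← hsx, hwy, hwe, quadMat_mul]⟩

/-- The element named by a word. -/
def wordElem (gs : List (Matrix.GeneralLinearGroup (Fin 2) (ZMod p))) :
    List ℕ → Matrix.GeneralLinearGroup (Fin 2) (ZMod p)
  | [] => 1
  | i :: w => gs.getD i 1 * wordElem gs w

theorem wordElem_val (gs : List (Matrix.GeneralLinearGroup (Fin 2) (ZMod p)))
    (T : List (ZMod p × ZMod p × ZMod p × ZMod p))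
    (hT : gs.map (fun g : Matrix.GeneralLinearGroup (Fin 2) (ZMod p) =>
      (g : Matrix (Fin 2) (Fin 2) (ZMod p))) = T.map quadMat) (w : List ℕ) :
    (wordElem gs w : Matrix (Fin 2) (Fin 2) (ZMod p)) = quadMat (quadEval T w) := by
  induction w with
  | nil => exact quadMat_one.symm
  | cons i w ih =>
    rw [wordElem, quadEval, Units.val_mul, ih, quadMat_mul]
    congr 1
    have hlen : gs.length = T.length := by simpa using congrArg List.length hT
    rcases Nat.lt_or_ge i gs.length with hi | hi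
    · have hiT : i < T.length := hlen ▸ hi
      rw [List.getD_eq_getElem _ _ hi, List.getD_eq_getElem _ _ hiT]
      have := List.getElem_of_eq hT (show i < (gs.map (fun g : Matrix.GeneralLinearGroup (Fin 2) (ZMod p) =>
        (g : Matrix (Fin 2) (Fin 2) (ZMod p)))).length by rw [List.length_map]; exact hi)
      rwa [List.getElem_map, List.getElem_map] at this
    · rw [List.getD_eq_default _ _ hi, List.getD_eq_default _ _ (hlen ▸ hi), quadMat_one]
      rfl

theorem wordElem_mem (gs : List (Matrix.GeneralLinearGroup (Fin 2) (ZMod p))) (w : List ℕ) :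
    wordElem gs w ∈ Subgroup.closure {x | x ∈ gs} := by
  induction w with
  | nil => exact one_mem _
  | cons i w ih =>
    refine mul_mem ?_ ih
    rcases Nat.lt_or_ge i gs.length with hi | hi
    · rw [List.getD_eq_getElem _ _ hi]
      exact Subgroup.subset_closure (List.getElem_mem hi)
    · rw [List.getD_eq_default _ _ hi]
      exact one_mem _

/-- A certificate for regularity on non-zero vectors, with a scalar generator allowed. -/
theorem regular_of_certificate (gs : List (Matrix.GeneralLinearGroup (Fin 2) (ZMod p)))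
    (z : Matrix.GeneralLinearGroup (Fin 2) (ZMod p))
    (T : List (ZMod p × ZMod p × ZMod p × ZMod p)) (c : ZMod p)
    (hT : gs.map (fun g : Matrix.GeneralLinearGroup (Fin 2) (ZMod p) =>
      (g : Matrix (Fin 2) (Fin 2) (ZMod p))) = T.map quadMat)
    (hz : (z : Matrix (Fin 2) (Fin 2) (ZMod p)) = quadMat (c, 0, 0, c))
    (words : List (List ℕ)) (k : ℕ)
    (hnil : (1, 0, 0, 1) ∈ words.map (quadEval T))
    (hclosed : (T.all fun s => words.all fun w =>
      decide (quadMul s (quadEval T w) ∈ words.map (quadEval T))) = true)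
    (hfree : (words.all fun w => decide ((quadEval T w).2.2.1 = 0 → (quadEval T w).1 ^ k = 1 →
      quadEval T w = (1, 0, 0, 1))) = true)
    (hnodup : (words.map (quadEval T)).Nodup)
    (hk : 0 < k) (hck : c ^ k = 1) (hcord : ((List.range k).all fun i => decide (c ^ i = 1 → i = 0)) = true)
    (hcount : k * words.length + 1 = p ^ 2)
    (S : Set (Matrix.GeneralLinearGroup (Fin 2) (ZMod p))) (hS : ∀ x, x ∈ S → x ∈ gs ∨ x = z)
    (hgs : ∀ x ∈ gs, x ∈ Subgroup.closure S) (hzS : z ∈ Subgroup.closure S) :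
    Nat.card (Subgroup.closure S) = k * words.length ∧
      ∀ v w : Fin 2 → ZMod p, v ≠ 0 → w ≠ 0 → ∃! h : Subgroup.closure S,
        ((h : Matrix.GeneralLinearGroup (Fin 2) (ZMod p)) : Matrix (Fin 2) (Fin 2) (ZMod p)) *ᵥ v
          = w := by
  classical
  set H := Subgroup.closure S
  rw [List.all_eq_true] at hfree hcord
  have hfree' : ∀ w ∈ words, (quadEval T w).2.2.1 = 0 → (quadEval T w).1 ^ k = 1 →
      quadEval T w = (1, 0, 0, 1) := fun w hw => of_decide_eq_true (hfree w hw)
  have hcord' : ∀ i < k, c ^ i = 1 → i = 0 := fun i hi =>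
    of_decide_eq_true (hcord i (List.mem_range.2 hi))
  have hscal : ∀ i : ℕ, ((z ^ i : (Matrix.GeneralLinearGroup (Fin 2) (ZMod p))) : Matrix (Fin 2) (Fin 2) (ZMod p)) = quadMat (c ^ i, 0, 0, c ^ i) := by
    intro i
    induction i with
    | zero => simp [quadMat_one]
    | succ i ih =>
      rw [pow_succ, Units.val_mul, ih, hz, ← quadMat_mul]
      simp [quadMul, pow_succ]
  have hzc : ∀ g : (Matrix.GeneralLinearGroup (Fin 2) (ZMod p)), z * g = g * z := by
    intro g
    apply Units.ext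
    rw [Units.val_mul, Units.val_mul, hz]
    have : quadMat (p := p) (c, 0, 0, c) = c • (1 : Matrix (Fin 2) (Fin 2) (ZMod p)) := by
      simp [quadMat, Matrix.one_fin_two]
    rw [this, Matrix.smul_mul, Matrix.mul_smul, one_mul, mul_one]
  have hzk : z ^ k = 1 := Units.ext (by rw [hscal, hck, quadMat_one]; rfl)
  -- every element is a scalar times a word
  have hform : ∀ g ∈ H, ∃ i < k, ∃ u ∈ Subgroup.closure {x | x ∈ gs}, g = z ^ i * u := by
    intro g hg
    rw [← Subgroup.mem_toSubmonoid, Subgroup.closure_toSubmonoid_of_finite] at hg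
    induction hg using Submonoid.closure_induction_left with
    | one => exact ⟨0, hk, 1, one_mem _, by simp⟩
    | mul_left x hx y _ ih =>
      obtain ⟨i, hi, u, hu, rfl⟩ := ih
      rcases hS x hx with hxg | rfl
      · refine ⟨i, hi, x * u, mul_mem (Subgroup.subset_closure hxg) hu, ?_⟩
        have hc : x * z ^ i = z ^ i * x := ((show Commute z x from hzc x).pow_left i).eq.symm
        rw [← mul_assoc, hc, mul_assoc]
      · refine ⟨(i + 1) % k, Nat.mod_lt _ hk, u, hu, ?_⟩
        rw [← mul_assoc, ← pow_succ']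
        congr 1
        exact pow_eq_pow_mod _ hzk
  let e1 : Fin 2 → ZMod p := ![1, 0]
  have he1 : ∀ t, quadMat (p := p) t *ᵥ e1 = ![t.1, t.2.2.1] := by
    intro t
    funext i
    fin_cases i <;> simp [quadMat, e1, Matrix.mulVec, dotProduct]
  have hkey : ∀ i < k, ∀ u ∈ Subgroup.closure {x | x ∈ gs},
      ((z ^ i * u : (Matrix.GeneralLinearGroup (Fin 2) (ZMod p))) : Matrix (Fin 2) (Fin 2) (ZMod p)) *ᵥ e1 = e1 → i = 0 ∧ u = 1 := by
    intro i hi u hu hfix
    obtain ⟨w, hw, hwu⟩ := exists_word gs T hT words hnil hclosed u hu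
    rw [Units.val_mul, hscal, hwu, ← quadMat_mul, he1] at hfix
    have h0 := congrFun hfix 0
    have h1 := congrFun hfix 1
    simp [quadMul, e1] at h0 h1
    have hci : c ^ i ≠ 0 := fun h => by rw [h, zero_mul] at h0; exact zero_ne_one h0
    have hlow : (quadEval T w).2.2.1 = 0 := h1.resolve_left (fun h => hci (by rw [h.1, zero_pow h.2]))
    have hdiag : (quadEval T w).1 ^ k = 1 := by
      have := congrArg (· ^ k) h0
      simp only [mul_pow, one_pow, ← pow_mul, mul_comm i k] at this
      rwa [pow_mul, hck, one_pow, one_mul] at this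
    have heq := hfree' w hw hlow hdiag
    have hu1 : u = 1 := Units.ext (by rw [hwu, heq, quadMat_one]; rfl)
    rw [heq, mul_one] at h0
    exact ⟨hcord' i hi h0, hu1⟩
  have hne : ∀ g : (Matrix.GeneralLinearGroup (Fin 2) (ZMod p)), (g : Matrix (Fin 2) (Fin 2) (ZMod p)) *ᵥ e1 ≠ 0 := by
    intro g h
    have := congrArg (fun v => ((g⁻¹ : (Matrix.GeneralLinearGroup (Fin 2) (ZMod p))) : Matrix (Fin 2) (Fin 2) (ZMod p)) *ᵥ v) h
    simp only [Matrix.mulVec_mulVec, Matrix.mulVec_zero, ← Units.val_mul, inv_mul_cancel,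
      Units.val_one, Matrix.one_mulVec] at this
    exact one_ne_zero (congrFun this 0)
  let φ : H → {v : Fin 2 → ZMod p // v ≠ 0} := fun h => ⟨_, hne (h : (Matrix.GeneralLinearGroup (Fin 2) (ZMod p)))⟩
  have hinj : Function.Injective φ := by
    intro a b hab
    have h : ((a : (Matrix.GeneralLinearGroup (Fin 2) (ZMod p))) : Matrix (Fin 2) (Fin 2) (ZMod p)) *ᵥ e1 =
        ((b : (Matrix.GeneralLinearGroup (Fin 2) (ZMod p))) : Matrix (Fin 2) (Fin 2) (ZMod p)) *ᵥ e1 := congrArg Subtype.val hab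
    obtain ⟨i, hi, u, hu, hiu⟩ := hform ((b⁻¹ * a : H) : (Matrix.GeneralLinearGroup (Fin 2) (ZMod p))) (b⁻¹ * a : H).2
    have hfix : (((b⁻¹ * a : H) : (Matrix.GeneralLinearGroup (Fin 2) (ZMod p))) : Matrix (Fin 2) (Fin 2) (ZMod p)) *ᵥ e1 = e1 := by
      rw [Subgroup.coe_mul, Units.val_mul, ← Matrix.mulVec_mulVec, h, Matrix.mulVec_mulVec,
        ← Units.val_mul, Subgroup.coe_inv, inv_mul_cancel, Units.val_one, Matrix.one_mulVec]
    rw [hiu] at hfix
    obtain ⟨rfl, rfl⟩ := hkey i hi u hu hfix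
    rw [pow_zero, one_mul] at hiu
    exact (inv_mul_eq_one.1 (Subtype.ext hiu)).symm
  have hV : Nat.card {v : Fin 2 → ZMod p // v ≠ 0} + 1 = p ^ 2 := by
    have h := Fintype.card_subtype_compl (fun v : Fin 2 → ZMod p => v = 0)
    rw [Fintype.card_subtype_eq, Fintype.card_fun, ZMod.card, Fintype.card_fin] at h
    rw [Nat.card_eq_fintype_card, h]
    have : 0 < p ^ 2 := pow_pos (Fact.out : p.Prime).pos 2
    omega
  let ψ : Fin k × Fin words.length → H := fun q =>
    ⟨z ^ (q.1 : ℕ) * wordElem gs (words[(q.2 : ℕ)]),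
      mul_mem (pow_mem hzS _) ((Subgroup.closure_le H).2 (fun x hx => hgs x hx) (wordElem_mem gs _))⟩
  have hψ : Function.Injective ψ := by
    rintro ⟨i, a⟩ ⟨j, b⟩ h
    have h' : z ^ (i : ℕ) * wordElem gs (words[(a : ℕ)]) = z ^ (j : ℕ) * wordElem gs (words[(b : ℕ)]) :=
      congrArg Subtype.val h
    set u := wordElem gs (words[(a : ℕ)]) * (wordElem gs (words[(b : ℕ)]))⁻¹ with hu
    have humem : u ∈ Subgroup.closure {x | x ∈ gs} :=
      mul_mem (wordElem_mem _ _) (inv_mem (wordElem_mem _ _))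
    have h2 : z ^ (((i : ℕ) + (k - (j : ℕ))) % k) * u = 1 := by
      rw [← pow_eq_pow_mod _ hzk, hu, add_comm, pow_add, mul_assoc, ← mul_assoc (z ^ (i : ℕ)), h',
        mul_assoc, mul_inv_cancel, mul_one, ← pow_add,
        Nat.sub_add_cancel j.2.le, hzk]
    obtain ⟨h3, h4⟩ := hkey _ (Nat.mod_lt _ hk) u humem (by rw [h2, Units.val_one, Matrix.one_mulVec])
    have hab : a = b := by
      have he : wordElem gs (words[(a : ℕ)]) = wordElem gs (words[(b : ℕ)]) := mul_inv_eq_one.1 h4
      have he' := congrArg (fun g : (Matrix.GeneralLinearGroup (Fin 2) (ZMod p)) => (g : Matrix (Fin 2) (Fin 2) (ZMod p))) he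
      simp only [wordElem_val gs T hT] at he'
      have := quadMat_injective he'
      have hget : (words.map (quadEval T))[(a : ℕ)]'(by simp) = (words.map (quadEval T))[(b : ℕ)]'(by simp) := by
        simpa using this
      exact Fin.ext ((hnodup.getElem_inj_iff).1 hget)
    subst hab
    have hij : (i : ℕ) = j := by
      obtain ⟨t, ht⟩ := Nat.dvd_of_mod_eq_zero h3
      rcases Nat.lt_or_ge t 1 with ht0 | ht1
      · interval_cases t; omega
      rcases Nat.lt_or_ge t 2 with ht2 | ht2
      · interval_cases t; omega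
      · have : k * 2 ≤ k * t := Nat.mul_le_mul_left k ht2
        omega
    exact Prod.ext (Fin.ext hij) rfl
  have hle : k * words.length ≤ Nat.card H := by
    have := Nat.card_le_card_of_injective ψ hψ
    simpa [Nat.card_prod, Nat.card_eq_fintype_card] using this
  have hge : Nat.card H ≤ Nat.card {v : Fin 2 → ZMod p // v ≠ 0} :=
    Nat.card_le_card_of_injective φ hinj
  have hcardH : Nat.card H = k * words.length := by omega
  refine ⟨hcardH, ?_⟩
  have hbij : Function.Bijective φ :=
    (Nat.bijective_iff_injective_and_card φ).2 ⟨hinj, by omega⟩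
  intro v w hv hw
  obtain ⟨g, hg⟩ := hbij.2 ⟨v, hv⟩
  obtain ⟨g', hg'⟩ := hbij.2 ⟨w, hw⟩
  have hgv : ((g : (Matrix.GeneralLinearGroup (Fin 2) (ZMod p))) : Matrix (Fin 2) (Fin 2) (ZMod p)) *ᵥ e1 = v := congrArg Subtype.val hg
  have hgw : ((g' : (Matrix.GeneralLinearGroup (Fin 2) (ZMod p))) : Matrix (Fin 2) (Fin 2) (ZMod p)) *ᵥ e1 = w := congrArg Subtype.val hg'
  refine ⟨g' * g⁻¹, ?_, ?_⟩
  · show (((g' * g⁻¹ : H) : (Matrix.GeneralLinearGroup (Fin 2) (ZMod p))) : Matrix (Fin 2) (Fin 2) (ZMod p)) *ᵥ v = w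
    rw [← hgv, ← hgw, Matrix.mulVec_mulVec, ← Units.val_mul, ← Subgroup.coe_mul, inv_mul_cancel_right]
  · intro h hh
    have h2 : φ (h * g) = φ g' := Subtype.ext (by
      show (((h * g : H) : (Matrix.GeneralLinearGroup (Fin 2) (ZMod p))) : Matrix (Fin 2) (Fin 2) (ZMod p)) *ᵥ e1 = _
      rw [Subgroup.coe_mul, Units.val_mul, ← Matrix.mulVec_mulVec, hgv]
      exact hh.trans hgw.symm)
    rw [← hinj h2, mul_inv_cancel_right]

end Cfsg.Agent.PermP
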