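import Mathlib

/-!
Generously transitive permutation groups.
-/

set_option autoImplicit false

namespace Cfsg.Agent.PermP

open MulAction

variable {α : Type*} [Fintype α] [DecidableEq α]

omit [Fintype α] [DecidableEq α] in
theorem generous_agree {G : Subgroup (Equiv.Perm α)} {k : ℕ}
    (hgen : ∀ s : Finset α, s.card = k + 1 → ∀ σ : Equiv.Perm ↥s, ∃ g ∈ G, ∀ x : ↥s, g (x : α) = σ x)
    {T : Finset α} (hT : T.card = k + 1) (π : Equiv.Perm α) (hπ : ∀ x, π x ∈ T ↔ x ∈ T) :
    ∃ g ∈ G, ∀ x ∈ T, g x = π x := by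
  obtain ⟨g, hg, h⟩ := hgen T hT (π.subtypePerm hπ)
  exact ⟨g, hg, fun x hx => h ⟨x, hx⟩⟩

theorem generous_transitive {G : Subgroup (Equiv.Perm α)} {k : ℕ} (hk : k < Fintype.card α)
    (hgen : ∀ s : Finset α, s.card = k + 1 → ∀ σ : Equiv.Perm ↥s, ∃ g ∈ G, ∀ x : ↥s, g (x : α) = σ x) :
    IsMultiplyPretransitive G α k := by
  have key : ∀ (π : Equiv.Perm α) (f : Fin k ↪ α), ∃ g : G, ∀ i, (g : Equiv.Perm α) (f i) = π (f i) := by
    intro π
    induction π using Equiv.Perm.swap_induction_on with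
    | one => exact fun f => ⟨1, fun i => rfl⟩
    | swap_mul π x y hxy ih =>
      intro f
      obtain ⟨g', hg'⟩ := ih f
      let S := (Finset.univ.map f).map π.toEmbedding
      have hS : S.card = k := by simp [S]
      have hmem : ∀ i, π (f i) ∈ S := fun i => by simp [S]
      by_cases h : x ∈ S ∨ y ∈ S
      · have hc : (S ∪ {x, y}).card ≤ k + 1 := by
          rcases h with h | h
          · calc (S ∪ {x, y}).card = (insert y S).card := by congr 1; ext z; simp; grind
              _ ≤ k + 1 := (Finset.card_insert_le _ _).trans (by omega)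
          · calc (S ∪ {x, y}).card = (insert x S).card := by congr 1; ext z; simp; grind
              _ ≤ k + 1 := (Finset.card_insert_le _ _).trans (by omega)
        obtain ⟨T, hsub, hT⟩ := Finset.exists_superset_card_eq hc (by omega)
        have hxT : x ∈ T := hsub (by simp)
        have hyT : y ∈ T := hsub (by simp)
        obtain ⟨g, hg, hgT⟩ := generous_agree hgen hT (Equiv.swap x y) (fun z => by
          rcases eq_or_ne z x with rfl | hzx
          · simp [hxT, hyT]
          rcases eq_or_ne z y with rfl | hzy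
          · simp [hxT, hyT]
          rw [Equiv.swap_apply_of_ne_of_ne hzx hzy])
        refine ⟨⟨g, hg⟩ * g', fun i => ?_⟩
        show g ((g' : Equiv.Perm α) (f i)) = Equiv.swap x y (π (f i))
        rw [hg' i]
        exact hgT _ (hsub (Finset.mem_union_left _ (hmem i)))
      · rw [not_or] at h
        refine ⟨g', fun i => ?_⟩
        show _ = Equiv.swap x y (π (f i))
        rw [hg' i, Equiv.swap_apply_of_ne_of_ne]
        · exact fun e => h.1 (e ▸ hmem i)
        · exact fun e => h.2 (e ▸ hmem i)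
  rw [isMultiplyPretransitive_iff]
  intro f f'
  obtain ⟨π, hπ⟩ := Equiv.Perm.exists_smul_eq_embedding f f'
  obtain ⟨g, hg⟩ := key π f
  exact ⟨g, Function.Embedding.ext fun i =>
    (hg i).trans (DFunLike.congr_fun hπ i)⟩

theorem generous_setwise_orbit {G : Subgroup (Equiv.Perm α)} {k : ℕ}
    (hgen : ∀ s : Finset α, s.card = k + 1 → ∀ σ : Equiv.Perm ↥s, ∃ g ∈ G, ∀ x : ↥s, g (x : α) = σ x)
    {s : Finset α} (hs : s.card = k) {g : Equiv.Perm α} (hg : g ∈ G) (hgs : ∀ x, g x ∈ s ↔ x ∈ s)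
    {a : α} (ha : a ∉ s) : ∃ g' ∈ G, (∀ x ∈ s, g' x = x) ∧ g' a = g a := by
  have hb : g a ∉ s := fun h => ha ((hgs a).1 h)
  let π : Equiv.Perm α := Equiv.Perm.ofSubtype (g.subtypePerm hgs)⁻¹
  have hπs : ∀ x ∈ s, π (g x) = x := by
    intro x hx
    show Equiv.Perm.ofSubtype (g.subtypePerm hgs)⁻¹ (g x) = x
    rw [Equiv.Perm.ofSubtype_apply_of_mem _ ((hgs x).2 hx)]
    have : (⟨g x, (hgs x).2 hx⟩ : {y // y ∈ s}) = g.subtypePerm hgs ⟨x, hx⟩ := rfl
    rw [this, Equiv.Perm.inv_def, Equiv.symm_apply_apply]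
  have hπb : π (g a) = g a := Equiv.Perm.ofSubtype_apply_of_not_mem _ hb
  have hπ : ∀ x, π x ∈ insert (g a) s ↔ x ∈ insert (g a) s := by
    intro x
    by_cases hx : x ∈ s
    · have : π x = ((g.subtypePerm hgs)⁻¹ ⟨x, hx⟩ : {y // y ∈ s}) :=
        Equiv.Perm.ofSubtype_apply_of_mem _ hx
      rw [this]
      exact iff_of_true (Finset.mem_insert_of_mem (Subtype.prop _)) (Finset.mem_insert_of_mem hx)
    · have : π x = x := Equiv.Perm.ofSubtype_apply_of_not_mem _ hx
      rw [this]
  obtain ⟨h, hh, hhT⟩ := generous_agree hgen (T := insert (g a) s)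
    (by rw [Finset.card_insert_of_notMem hb, hs]) π hπ
  refine ⟨h * g, G.mul_mem hh hg, fun x hx => ?_, ?_⟩
  · show h (g x) = x
    rw [hhT _ (Finset.mem_insert_of_mem ((hgs x).2 hx)), hπs x hx]
  · show h (g a) = g a
    rw [hhT _ (Finset.mem_insert_self _ _), hπb]

end Cfsg.Agent.PermP
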