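import Mathlib
import Cfsg.Agent.PermP.Generous

/-!
Orbit lengths in generously transitive groups.
-/

set_option autoImplicit false

namespace Cfsg.Agent.PermP

open MulAction Pointwise

variable {α : Type*} [Fintype α] [DecidableEq α]

/-- The elements of `G` stabilising `Γ` and fixing `Γ'` pointwise. -/
def setStab (G : Subgroup (Equiv.Perm α)) (Γ Γ' : Finset α) : Subgroup G where
  carrier := {g | (∀ x, (g : Equiv.Perm α) x ∈ Γ ↔ x ∈ Γ) ∧ ∀ x ∈ Γ', (g : Equiv.Perm α) x = x}
  one_mem' := ⟨fun _ => Iff.rfl, fun _ _ => rfl⟩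
  mul_mem' {g h} hg hh := ⟨fun x => (hg.1 _).trans (hh.1 x), fun x hx => by
    show (g : Equiv.Perm α) ((h : Equiv.Perm α) x) = x
    rw [hh.2 x hx, hg.2 x hx]⟩
  inv_mem' {g} hg := ⟨fun x => by
      conv_rhs => rw [← Equiv.apply_symm_apply (g : Equiv.Perm α) x, hg.1]
      rfl,
    fun x hx => by
      show (g : Equiv.Perm α).symm x = x
      rw [Equiv.symm_apply_eq, hg.2 x hx]⟩

theorem generous_orbit_dvd {G : Subgroup (Equiv.Perm α)} {k : ℕ} (hk : k < Fintype.card α)
    (hgen : ∀ s : Finset α, s.card = k + 1 → ∀ σ : Equiv.Perm ↥s, ∃ g ∈ G, ∀ x : ↥s, g (x : α) = σ x)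
    {p : ℕ} (hp : p.Prime) (hpk : p ≤ k) (Γ : Finset α) (hΓ : Γ.card = k) (f : Fin p → α)
    (hf : ∀ i, f i ∉ Γ)
    (hdist : ∀ i j, i ≠ j → f j ∉ orbit (fixingSubgroup G (Γ : Set α)) (f i)) :
    ∃ i, p ∣ Nat.card (orbit (fixingSubgroup G (Γ : Set α)) (f i)) := by
  haveI := Fact.mk hp
  by_contra hcon
  rw [not_exists] at hcon
  obtain ⟨Δ, hΔ, hΔc⟩ := Finset.exists_subset_card_eq (show p ≤ Γ.card by omega)
  set K := setStab G Γ (Γ \ Δ) with hKdef
  let res : K →* Equiv.Perm {x // x ∈ Γ} :=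
    MonoidHom.mk' (fun g => ((g : G) : Equiv.Perm α).subtypePerm g.2.1) fun g h => by
      ext x; rfl
  set P := fixingSubgroup G (Γ : Set α) with hPdef
  have hker : res.ker = P.subgroupOf K := by
    ext g
    rw [MonoidHom.mem_ker, Subgroup.mem_subgroupOf, hPdef, mem_fixingSubgroup_iff]
    constructor
    · intro h x hx
      exact congrArg Subtype.val (DFunLike.congr_fun h ⟨x, hx⟩)
    · intro h
      ext x
      exact h x x.2
  have hPK : P ≤ K := by
    intro g hg
    rw [hPdef, mem_fixingSubgroup_iff] at hg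
    refine ⟨fun x => ⟨fun h => ?_, fun h => ?_⟩, fun x hx => hg x (Finset.mem_sdiff.1 hx).1⟩
    · have : g • ((g : Equiv.Perm α) x) = g • x := hg _ h
      rw [smul_left_cancel_iff] at this
      exact this ▸ h
    · show g • x ∈ Γ
      rw [hg x h]; exact h
  -- an element of order `p` in the image
  obtain ⟨T, hΓT, hT⟩ := Finset.exists_superset_card_eq (show Γ.card ≤ k + 1 by omega)
    (show k + 1 ≤ Fintype.card α by omega)
  obtain ⟨σ, hσ⟩ := exists_prime_orderOf_dvd_card' (G := Equiv.Perm {x // x ∈ Δ}) p (by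
    rw [Nat.card_perm, Nat.card_eq_fintype_card, Fintype.card_coe, hΔc]
    exact Nat.dvd_factorial hp.pos le_rfl)
  have hmemΔ : ∀ x, (Equiv.Perm.ofSubtype σ) x ∈ Δ ↔ x ∈ Δ := by
    intro x
    by_cases hx : x ∈ Δ
    · rw [Equiv.Perm.ofSubtype_apply_of_mem _ hx]; simp [hx]
    · rw [Equiv.Perm.ofSubtype_apply_of_not_mem _ hx]
  have hmem : ∀ S : Finset α, Δ ⊆ S → ∀ x, (Equiv.Perm.ofSubtype σ) x ∈ S ↔ x ∈ S := by
    intro S hS x
    by_cases hx : x ∈ Δ
    · exact iff_of_true (hS ((hmemΔ x).2 hx)) (hS hx)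
    · rw [Equiv.Perm.ofSubtype_apply_of_not_mem _ hx]
  obtain ⟨g, hg, hgT⟩ := generous_agree hgen hT (Equiv.Perm.ofSubtype σ) (hmem T (hΔ.trans hΓT))
  have hgK : (⟨g, hg⟩ : G) ∈ K := by
    constructor
    · intro x
      show g x ∈ Γ ↔ _
      refine ⟨fun h => ?_, fun h => ?_⟩
      · have h1 : (Equiv.Perm.ofSubtype σ).symm (g x) ∈ Γ := by
          rw [← hmem Γ hΔ, Equiv.apply_symm_apply]; exact h
        have h2 := hgT _ (hΓT h1)
        rw [Equiv.apply_symm_apply] at h2
        rwa [← g.injective h2]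
      · rw [hgT x (hΓT h), hmem Γ hΔ]; exact h
    · intro x hx
      rw [Finset.mem_sdiff] at hx
      show g x = x
      rw [hgT x (hΓT hx.1), Equiv.Perm.ofSubtype_apply_of_not_mem _ hx.2]
  have hres : res ⟨_, hgK⟩ = (Equiv.Perm.ofSubtype σ).subtypePerm (hmem Γ hΔ) := by
    ext x
    exact hgT x (hΓT x.2)
  have hord : orderOf (res ⟨_, hgK⟩) = p := by
    rw [hres]
    apply orderOf_eq_prime
    · rw [Equiv.Perm.subtypePerm_pow]
      ext x
      have : σ ^ p = 1 := hσ ▸ pow_orderOf_eq_one σ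
      simp [Equiv.Perm.subtypePerm_apply, ← map_pow, this]
    · intro h
      have hσ1 : σ = 1 := by
        ext ⟨x, hx⟩
        have := congrArg Subtype.val (DFunLike.congr_fun h ⟨x, hΔ hx⟩)
        simp only [Equiv.Perm.subtypePerm_apply, Equiv.Perm.one_apply] at this
        rw [Equiv.Perm.ofSubtype_apply_of_mem _ hx] at this
        exact this
      rw [hσ1, orderOf_one] at hσ
      exact hp.one_lt.ne hσ
  have hdvd : p * Nat.card P ∣ Nat.card K := by
    have h1 : p ∣ Nat.card res.range :=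
      hord ▸ Subgroup.orderOf_dvd_natCard res.range ⟨_, rfl⟩
    have h2 := Subgroup.card_eq_card_quotient_mul_card_subgroup res.ker
    rw [Nat.card_congr (QuotientGroup.quotientKerEquivRange res).toEquiv, hker,
      Nat.card_congr (Subgroup.subgroupOfEquivOfLe hPK).toEquiv] at h2
    rw [h2]
    exact Nat.mul_dvd_mul_right h1 _
  obtain ⟨Q⟩ := (inferInstance : Nonempty (Sylow p K))
  -- a fixed point of `Q` in each orbit
  have hinv : ∀ (g : K) (x : α), x ∉ Γ → g • x ∈ orbit P x := by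
    intro g x hx
    obtain ⟨g', h1, h2, h3⟩ := generous_setwise_orbit hgen hΓ (g : G).2 g.2.1 hx
    refine ⟨⟨⟨g', h1⟩, ?_⟩, h3⟩
    rw [hPdef, mem_fixingSubgroup_iff]
    exact h2
  have horb : ∀ i, ∀ x ∈ orbit P (f i), x ∉ Γ := by
    rintro i _ ⟨g, rfl⟩ hx
    have h1 := (hPK g.2).1 (f i)
    exact hf i (h1.1 hx)
  have hfix : ∀ i, ∃ e ∈ orbit P (f i), ∀ q ∈ (Q : Subgroup K), (q : K) • e = e := by
    intro i
    let S : SubMulAction (Q : Subgroup K) α :=
      { carrier := orbit P (f i)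
        smul_mem' := fun q x hx => by
          show (q : K) • x ∈ orbit P (f i)
          rw [← orbit_eq_iff.2 hx]
          exact hinv _ _ (horb i x hx) }
    have hS : ¬ p ∣ Nat.card S := hcon i
    obtain ⟨e, he⟩ := Q.isPGroup'.nonempty_fixed_point_of_prime_not_dvd_card S hS
    exact ⟨e, e.2, fun q hq => congrArg Subtype.val (he ⟨q, hq⟩)⟩
  choose e he heQ using hfix
  have he_inj : Function.Injective e := by
    intro i j hij
    by_contra hne
    refine hdist i j hne ?_
    have h1 := orbit_eq_iff.2 (he i)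
    have h2 := orbit_eq_iff.2 (he j)
    rw [hij, h2] at h1
    rw [← h1]
    exact mem_orbit_self _
  set Γ'' : Finset α := (Γ \ Δ) ∪ Finset.univ.image e with hΓ''def
  have hΓ'' : Γ''.card = k := by
    rw [hΓ''def, Finset.card_union_of_disjoint, Finset.card_sdiff_of_subset hΔ,
      Finset.card_image_of_injective _ he_inj, Finset.card_univ, Fintype.card_fin, hΓ, hΔc]
    · omega
    · rw [Finset.disjoint_left]
      intro x hx hx'
      rw [Finset.mem_image] at hx'
      obtain ⟨i, -, rfl⟩ := hx'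
      exact horb i _ (he i) (Finset.mem_sdiff.1 hx).1
  have hQle : (Q : Subgroup K).map K.subtype ≤ fixingSubgroup G (Γ'' : Set α) := by
    rintro _ ⟨q, hq, rfl⟩
    rw [mem_fixingSubgroup_iff]
    intro x hx
    rw [Finset.mem_coe, hΓ''def, Finset.mem_union, Finset.mem_image] at hx
    rcases hx with hx | ⟨i, -, rfl⟩
    · exact q.2.2 x hx
    · exact heQ i q hq
  -- conjugate the two fixing subgroups
  have hcard : Nat.card (fixingSubgroup G (Γ'' : Set α)) = Nat.card P := by
    have htr := generous_transitive hk hgen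
    rw [isMultiplyPretransitive_iff] at htr
    let f1 : Fin k ↪ α := ((Finset.equivFinOfCardEq hΓ).symm.toEmbedding).trans
      (Function.Embedding.subtype _)
    let f2 : Fin k ↪ α := ((Finset.equivFinOfCardEq hΓ'').symm.toEmbedding).trans
      (Function.Embedding.subtype _)
    obtain ⟨g, hg⟩ := htr f1 f2
    have hr : ∀ (S : Finset α) (hS : S.card = k), Set.range (((Finset.equivFinOfCardEq hS).symm.toEmbedding).trans
      (Function.Embedding.subtype _) : Fin k ↪ α) = (S : Set α) := by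
      intro S hS
      ext x
      constructor
      · rintro ⟨i, rfl⟩; exact ((Finset.equivFinOfCardEq hS).symm i).2
      · intro hx; exact ⟨Finset.equivFinOfCardEq hS ⟨x, hx⟩, by simp⟩
    have hset : g • (Γ : Set α) = (Γ'' : Set α) := by
      rw [← hr Γ hΓ, ← hr Γ'' hΓ'', ← Set.range_smul]
      congr 1
      funext i
      exact DFunLike.congr_fun hg i
    exact (Nat.card_congr (SubMulAction.fixingSubgroupEquivFixingSubgroup hset).toEquiv).symm
  have h1 : Nat.card (Q : Subgroup K) ∣ Nat.card P := by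
    rw [← hcard, ← Subgroup.card_map_of_injective (f := K.subtype) K.subtype_injective]
    exact Subgroup.card_dvd_of_le hQle
  rw [Q.card_eq_multiplicity] at h1
  have hK0 : Nat.card K ≠ 0 := Nat.card_pos.ne'
  have hP0 : Nat.card P ≠ 0 := Nat.card_pos.ne'
  have h2 := (Nat.Prime.pow_dvd_iff_le_factorization hp hP0).1 h1
  have h3 := (Nat.factorization_le_iff_dvd (by simp [hp.ne_zero, hP0]) hK0).2 hdvd p
  rw [Nat.factorization_mul hp.ne_zero hP0, Finsupp.add_apply, hp.factorization_self] at h3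
  omega

end Cfsg.Agent.PermP
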