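import Mathlib
import Cfsg.Agent.Perm.Regular

/-!
Regular normal subgroups of multiply primitive groups.
-/

set_option autoImplicit false

namespace Cfsg.Agent.PermP

open MulAction Cfsg.Agent.PermLib
open scoped Pointwise

variable {G X : Type*} [Group G] [MulAction G X]

theorem isBlock_pair {M Y : Type*} [Group M] [MulAction M Y] (x y : Y)
    (h : ∀ g : M, (g • x = x ∨ g • x = y → g • y = x ∨ g • y = y) ∧
      (g • y = x ∨ g • y = y → g • x = x ∨ g • x = y)) :
    IsBlock M ({x, y} : Set Y) := by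
  rw [isBlock_iff_smul_eq_of_mem]
  intro g z hz hgz
  have hx : g • x ∈ ({x, y} : Set Y) ∧ g • y ∈ ({x, y} : Set Y) := by
    rcases hz with rfl | hz
    · exact ⟨hgz, (h g).1 hgz⟩
    · rw [Set.mem_singleton_iff] at hz
      subst hz
      exact ⟨(h g).2 hgz, hgz⟩
  refine Set.eq_of_subset_of_ncard_le ?_ ?_ (Set.toFinite _)
  · rintro _ ⟨w, hw, rfl⟩
    rcases hw with rfl | hw
    · exact hx.1
    · rw [Set.mem_singleton_iff] at hw
      subst hw
      exact hx.2
  · rw [Set.ncard_smul_set]

theorem natCard_le_of_univ_eq_pair {Y : Type*} {x y : Y} (h : ({x, y} : Set Y) = Set.univ) :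
    Nat.card Y ≤ 2 := by
  rw [← Set.ncard_univ, ← h]
  exact (Set.ncard_insert_le x {y}).trans (by rw [Set.ncard_singleton])

theorem two_preprimitive_regular [Finite X] (hX : 2 ≤ Nat.card X)
    (h2 : IsMultiplyPreprimitive G X 2) {N : Subgroup G} [N.Normal] [IsPretransitive N X]
    (hreg : ∀ x : X, stabilizer N x = ⊥) :
    Nat.card X = 3 ∨ (IsMulCommutative N ∧ (∀ n ∈ N, n ^ 2 = 1) ∧ ∃ m : ℕ, Nat.card X = 2 ^ m) := by
  have : Nonempty X := ⟨(Classical.choice (Nat.card_pos_iff.1 (show 0 < Nat.card X by omega)).1)⟩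
  obtain ⟨a⟩ := this
  have h2' : IsMultiplyPretransitive G X 2 := h2.isMultiplyPretransitive
  have htG : IsPretransitive G X := isPretransitive_of_is_two_pretransitive
  have hP : IsPreprimitive (stabilizer G a) (SubMulAction.ofStabilizer G a) := by
    rw [← is_one_preprimitive_iff]
    exact isMultiplyPreprimitive_ofStabilizer G X
  have hbij := smul_bijective_of_regular (hreg a)
  have hne : ∀ z : N, z ≠ 1 → (z : G) • a ∈ SubMulAction.ofStabilizer G a := by
    intro z hz e
    exact hz ((Subgroup.eq_bot_iff_forall _).1 (hreg a) z e)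
  by_cases hall : ∀ z : N, z * z = 1
  · right
    have hexp : ∀ n ∈ N, n ^ 2 = 1 := fun n hn => by
      rw [sq]; exact congrArg Subtype.val (hall ⟨n, hn⟩)
    refine ⟨⟨⟨fun x y => ?_⟩⟩, hexp, ?_⟩
    · have hi : ∀ w : N, w⁻¹ = w := fun w => inv_eq_of_mul_eq_one_right (hall w)
      calc x * y = (x * y)⁻¹ := (hi _).symm
        _ = y * x := by rw [mul_inv_rev, hi, hi]
    have : Finite N := Finite.of_injective _ hbij.1
    haveI : Fact (Nat.Prime 2) := ⟨Nat.prime_two⟩
    have hP2 : IsPGroup 2 N := fun x => ⟨1, by rw [pow_one, sq]; exact hall x⟩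
    obtain ⟨m, hm⟩ := IsPGroup.iff_card.1 hP2
    exact ⟨m, by rw [← card_eq_of_regular (hreg a), hm]⟩
  · left
    push Not at hall
    obtain ⟨z, hz⟩ := hall
    have hz1 : z ≠ 1 := fun e => hz (by rw [e, one_mul])
    have hzinv : z⁻¹ ≠ 1 := inv_ne_one.2 hz1
    have hzne : z ≠ z⁻¹ := fun e => hz (by nth_rw 2 [e]; rw [mul_inv_cancel])
    set x : SubMulAction.ofStabilizer G a := ⟨_, hne z hz1⟩ with hx
    set y : SubMulAction.ofStabilizer G a := ⟨_, hne z⁻¹ hzinv⟩ with hy
    have hxy : x ≠ y := fun e => hzne (hbij.1 (congrArg Subtype.val e))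
    have hconj : ∀ (g : stabilizer G a) (w : N) (hw : w ≠ 1) (v : N) (hv : v ≠ 1),
        g • (⟨_, hne w hw⟩ : SubMulAction.ofStabilizer G a) = ⟨_, hne v hv⟩ ↔
          MulAut.conjNormal (g : G) w = v := by
      intro g w hw v hv
      rw [← hbij.1.eq_iff, Subtype.ext_iff]
      show (g : G) • (w : G) • a = (v : G) • a ↔
        ((MulAut.conjNormal (g : G) w : N) : G) • a = (v : G) • a
      rw [MulAut.conjNormal_apply, conj_smul_of_mem_stabilizer g.2]
    have hblock : IsBlock (stabilizer G a) ({x, y} : Set (SubMulAction.ofStabilizer G a)) := by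
      refine isBlock_pair x y fun g => ?_
      simp only [hx, hy]
      rw [hconj g z hz1 z hz1, hconj g z hz1 z⁻¹ hzinv, hconj g z⁻¹ hzinv z hz1,
        hconj g z⁻¹ hzinv z⁻¹ hzinv, map_inv]
      constructor
      · rintro (e | e)
        · exact Or.inr (by rw [e])
        · exact Or.inl (by rw [e, inv_inv])
      · rintro (e | e)
        · exact Or.inr (inv_eq_iff_eq_inv.1 e)
        · exact Or.inl (inv_injective e)
    rcases hP.isTrivialBlock_of_isBlock hblock with h | h
    · exact absurd (h (Set.mem_insert _ _) (Set.mem_insert_of_mem _ rfl)) hxy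
    · have hle := natCard_le_of_univ_eq_pair h
      have hge : 2 ≤ Nat.card (SubMulAction.ofStabilizer G a) := by
        rw [← Set.ncard_univ, ← h, Set.ncard_pair hxy]
      have := SubMulAction.nat_card_ofStabilizer_add_one_eq (G := G) a
      omega

theorem three_preprimitive_regular [Finite X] (hX : 3 ≤ Nat.card X)
    (h3 : IsMultiplyPreprimitive G X 3) {N : Subgroup G} [N.Normal] [IsPretransitive N X]
    (hreg : ∀ x : X, stabilizer N x = ⊥) : Nat.card X = 3 ∨ Nat.card X = 4 := by
  have hle : ((3 : ℕ) : ℕ∞) ≤ ENat.card X := by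
    rw [ENat.card_eq_coe_natCard]; exact_mod_cast hX
  have h2 := isMultiplyPreprimitive_of_le G X h3 (show 2 ≤ 3 by norm_num) hle
  rcases two_preprimitive_regular (by omega) h2 hreg with h | ⟨-, hexp, -⟩
  · exact Or.inl h
  right
  have : Nonempty X := ⟨(Classical.choice (Nat.card_pos_iff.1 (show 0 < Nat.card X by omega)).1)⟩
  obtain ⟨a⟩ := this
  have hbij := smul_bijective_of_regular (hreg a)
  obtain ⟨b, hb⟩ : ∃ b, b ≠ a := by
    by_contra h
    push Not at h
    have : Subsingleton X := ⟨fun u v => (h u).trans (h v).symm⟩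
    have := Finite.card_le_one_iff_subsingleton.2 this
    omega
  obtain ⟨z, rfl⟩ := exists_smul_eq N a b
  have hz1 : z ≠ 1 := fun e => hb (by rw [e, one_smul])
  set s : Set X := {a, z • a} with hs
  have hs2 : s.ncard = 2 := Set.ncard_pair (Ne.symm hb)
  have hP : IsPreprimitive (fixingSubgroup G s) (SubMulAction.ofFixingSubgroup G s) :=
    IsMultiplyPreprimitive.isPreprimitive_ofFixingSubgroup G 3 (by
      rw [← (Set.toFinite s).cast_ncard_eq, hs2]; rfl)
  have hmem : ∀ w : N, w • a ∈ SubMulAction.ofFixingSubgroup G s ↔ w ≠ 1 ∧ w ≠ z := by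
    intro w
    show w • a ∉ s ↔ _
    rw [hs, Set.mem_insert_iff, Set.mem_singleton_iff, not_or]
    refine and_congr (Iff.not ?_) (Iff.not hbij.1.eq_iff)
    conv_lhs => rhs; rw [← one_smul N a]
    exact hbij.1.eq_iff
  obtain ⟨c, hca, hcb⟩ : ∃ c, c ≠ a ∧ c ≠ z • a := by
    by_contra h
    push Not at h
    have h' : ({a, z • a} : Set X) = Set.univ := Set.eq_univ_of_forall fun c => by
      by_cases hc : c = a
      · exact Or.inl hc
      · exact Or.inr (h c hc)
    have := natCard_le_of_univ_eq_pair h'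
    omega
  obtain ⟨w, rfl⟩ := exists_smul_eq N a c
  have hw : w ≠ 1 ∧ w ≠ z := ⟨fun e => hca (by rw [e, one_smul]), fun e => hcb (by rw [e])⟩
  have hz2 : ∀ v : N, z * (z * v) = v := fun v => by
    rw [← mul_assoc, ← sq, show z ^ 2 = 1 from Subtype.ext (hexp z z.2), one_mul]
  have hzw : z * w ≠ 1 ∧ z * w ≠ z := by
    refine ⟨fun e => hw.2 ?_, fun e => hw.1 ?_⟩
    · have := congrArg (z * ·) e
      simpa [hz2] using this
    · have := congrArg (z * ·) e
      simp only [hz2] at this
      rw [this, ← sq]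
      exact Subtype.ext (hexp z z.2)
  set x : SubMulAction.ofFixingSubgroup G s := ⟨_, (hmem w).2 hw⟩ with hx
  set y : SubMulAction.ofFixingSubgroup G s := ⟨_, (hmem (z * w)).2 hzw⟩ with hy
  have hxy : x ≠ y := fun e => hz1 (by
    have h' : w = z * w := hbij.1 (congrArg Subtype.val e)
    exact right_eq_mul.1 h')
  have hconj : ∀ (g : fixingSubgroup G s) (u : N) (hu : u • a ∈ SubMulAction.ofFixingSubgroup G s)
      (v : N) (hv : v • a ∈ SubMulAction.ofFixingSubgroup G s),
      g • (⟨_, hu⟩ : SubMulAction.ofFixingSubgroup G s) = ⟨_, hv⟩ ↔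
        MulAut.conjNormal (g : G) u = v := by
    intro g u hu v hv
    rw [← hbij.1.eq_iff, Subtype.ext_iff]
    show (g : G) • (u : G) • a = (v : G) • a ↔
      ((MulAut.conjNormal (g : G) u : N) : G) • a = (v : G) • a
    rw [MulAut.conjNormal_apply, conj_smul_of_mem_stabilizer]
    exact (mem_fixingSubgroup_iff G).1 g.2 a (Set.mem_insert _ _)
  have hfix : ∀ g : fixingSubgroup G s, MulAut.conjNormal (g : G) z = z := by
    intro g
    apply hbij.1
    show ((MulAut.conjNormal (g : G) z : N) : G) • a = (z : G) • a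
    rw [MulAut.conjNormal_apply,
      conj_smul_of_mem_stabilizer ((mem_fixingSubgroup_iff G).1 g.2 a (Set.mem_insert _ _))]
    exact (mem_fixingSubgroup_iff G).1 g.2 _ (Set.mem_insert_of_mem _ rfl)
  have hblock : IsBlock (fixingSubgroup G s) ({x, y} : Set (SubMulAction.ofFixingSubgroup G s)) := by
    refine isBlock_pair x y fun g => ?_
    simp only [hx, hy]
    rw [hconj g w _ w, hconj g w _ (z * w), hconj g (z * w) _ w, hconj g (z * w) _ (z * w),
      map_mul, hfix]
    constructor
    · rintro (e | e)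
      · exact Or.inr (by rw [e])
      · exact Or.inl (by rw [e, hz2])
    · rintro (e | e)
      · right; have := congrArg (z * ·) e; simpa [hz2] using this
      · left; exact mul_left_cancel e
  rcases hP.isTrivialBlock_of_isBlock hblock with h | h
  · exact absurd (h (Set.mem_insert _ _) (Set.mem_insert_of_mem _ rfl)) hxy
  · have hle' := natCard_le_of_univ_eq_pair h
    have hcard : Nat.card (SubMulAction.ofFixingSubgroup G s) + 2 = Nat.card X := by
      have h1 : Nat.card (SubMulAction.ofFixingSubgroup G s) = sᶜ.ncard := rfl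
      rw [h1, ← hs2, add_comm, Set.ncard_add_ncard_compl]
    have hge : 2 ≤ Nat.card (SubMulAction.ofFixingSubgroup G s) := by
      rw [← Set.ncard_univ, ← h, Set.ncard_pair hxy]
    omega

end Cfsg.Agent.PermP
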