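import Mathlib
import Cfsg.Agent.Perm.Regular
import Cfsg.Agent.Perm.Sharp
import Cfsg.Agent.PermP.RegularPrim

/-!
Normal subgroups of multiply primitive groups.
-/

set_option autoImplicit false

namespace Cfsg.Agent.PermP

open MulAction Cfsg.Agent.PermLib

universe u v

/-- A `k`-transitive group with `k + 1 ≥ n` induces the full symmetric group. -/
theorem surjective_of_pretransitive {G : Type u} [Group G] {X : Type v} [MulAction G X] [Finite X]
    {k : ℕ} (hk : Nat.card X ≤ k + 1) (hk' : k ≤ Nat.card X)
    (h : IsMultiplyPretransitive G X k) : Function.Surjective (toPermHom G X) := by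
  rw [← MonoidHom.range_eq_top]
  apply Equiv.Perm.eq_top_of_isMultiplyPretransitive
  have h' : IsMultiplyPretransitive G X (Nat.card X - 1) :=
    have := h
    isMultiplyPretransitive_of_le (show Nat.card X - 1 ≤ k by omega) hk'
  rw [isMultiplyPretransitive_iff] at h' ⊢
  intro x y
  obtain ⟨g, hg⟩ := h' x y
  exact ⟨⟨toPermHom G X g, g, rfl⟩, Function.Embedding.ext fun i => DFunLike.congr_fun hg i⟩

theorem stabilizer_eq_bot_of_transitive {G : Type u} [Group G] {X : Type v} [MulAction G X]
    [IsPretransitive G X] {a : X} (h : stabilizer G a = ⊥) (x : X) : stabilizer G x = ⊥ := by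
  obtain ⟨g, rfl⟩ := exists_smul_eq G a x
  rw [stabilizer_smul_eq_stabilizer_map_conj, h, Subgroup.map_bot]

/-- The part of `H` fixing `a`, inside the stabiliser of `a`. -/
abbrev stabPart {G : Type u} [Group G] {X : Type v} [MulAction G X] (H : Subgroup G) (a : X) :
    Subgroup (stabilizer G a) := H.subgroupOf (stabilizer G a)

theorem stabilizer_faithful {G : Type u} [Group G] {X : Type v} [MulAction G X] [FaithfulSMul G X]
    (a : X) : FaithfulSMul (stabilizer G a) (SubMulAction.ofStabilizer G a) := by
  refine ⟨fun {g₁ g₂} h => Subtype.ext (FaithfulSMul.eq_of_smul_eq_smul (α := X) fun x => ?_)⟩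
  by_cases hx : x = a
  · rw [hx, mem_stabilizer_iff.1 g₁.2, mem_stabilizer_iff.1 g₂.2]
  · exact congrArg Subtype.val (h ⟨x, hx⟩)

theorem surjective_of_stabilizer {G : Type u} [Group G] {X : Type v} [MulAction G X]
    [IsPretransitive G X] {a : X}
    (h : Function.Surjective (toPermHom (stabilizer G a) (SubMulAction.ofStabilizer G a))) :
    Function.Surjective (toPermHom G X) := by
  intro π
  obtain ⟨g, hg⟩ := exists_smul_eq G a (π a)
  set π' : Equiv.Perm X := (toPermHom G X g)⁻¹ * π with hπ'
  have ha : π' a = a := by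
    show (toPermHom G X g).symm (π a) = a
    rw [Equiv.symm_apply_eq]; exact hg.symm
  have hne : ∀ x, x ∈ SubMulAction.ofStabilizer G a ↔ π' x ∈ SubMulAction.ofStabilizer G a := by
    intro x
    show x ≠ a ↔ π' x ≠ a
    conv_rhs => rhs; rw [← ha]
    exact π'.injective.ne_iff.symm
  obtain ⟨h', hh'⟩ := h (π'.subtypePerm fun x => (hne x).symm)
  refine ⟨g * (h' : G), ?_⟩
  have : toPermHom G X (h' : G) = π' := by
    ext x
    by_cases hx : x = a
    · rw [hx, ha]; exact h'.2
    · exact congrArg Subtype.val (DFunLike.congr_fun hh' ⟨x, hx⟩)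
  rw [map_mul, this, hπ', mul_inv_cancel_left]

theorem isPretransitive_stabPart {G : Type u} [Group G] {X : Type v} [MulAction G X]
    {H : Subgroup G} {a : X} {k : ℕ}
    (h : IsMultiplyPretransitive (stabPart H a) (SubMulAction.ofStabilizer G a) k) :
    IsMultiplyPretransitive (stabilizer H a) (SubMulAction.ofStabilizer H a) k := by
  rw [isMultiplyPretransitive_iff] at h ⊢
  intro x y
  let e : SubMulAction.ofStabilizer H a ↪ SubMulAction.ofStabilizer G a :=
    ⟨fun z => ⟨z.1, z.2⟩, fun z w h => Subtype.ext (congrArg (fun u => u.1) h :)⟩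
  obtain ⟨g, hg⟩ := h (x.trans e) (y.trans e)
  refine ⟨⟨⟨((g : stabilizer G a) : G), g.2⟩, ((g : stabilizer G a)).2⟩,
    Function.Embedding.ext fun i => Subtype.ext ?_⟩
  exact congrArg Subtype.val (DFunLike.congr_fun hg i)

theorem no_regular_stabPart {G : Type u} [Group G] {X : Type v} [MulAction G X] [FaithfulSMul G X]
    [Finite X] {k : ℕ} (hk2 : 2 ≤ k) (hk : k + 1 ≤ Nat.card X)
    (hG : IsMultiplyPreprimitive G X (k + 1)) (hsur : ¬ Function.Surjective (toPermHom G X))
    (H : Subgroup G) [H.Normal] [IsPretransitive H X] (a : X)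
    [IsPretransitive (stabPart H a) (SubMulAction.ofStabilizer G a)]
    (hreg : ∀ x : SubMulAction.ofStabilizer G a, stabilizer (stabPart H a) x = ⊥) : False := by
  have : Finite G := Finite.of_injective _ (MulAction.toPerm_injective (α := G) (β := X))
  have htG : IsPretransitive G X := IsPretransitive.of_smul_eq (fun g : H => (g : G)) fun {g x} => rfl
  have hle : ((k + 1 : ℕ) : ℕ∞) ≤ ENat.card X := by
    rw [ENat.card_eq_coe_natCard]; exact_mod_cast hk
  have h3 := isMultiplyPreprimitive_of_le G X hG (show 3 ≤ k + 1 by omega) hle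
  have h2s : IsMultiplyPreprimitive (stabilizer G a) (SubMulAction.ofStabilizer G a) 2 :=
    isMultiplyPreprimitive_ofStabilizer G X
  have h3t : IsMultiplyPretransitive G X 3 := h3.isMultiplyPretransitive
  have hcard := SubMulAction.nat_card_ofStabilizer_add_one_eq (G := G) a
  rcases two_preprimitive_regular (N := stabPart H a) (by omega) h2s hreg with h | ⟨hab, -, -⟩
  · exact hsur (surjective_of_pretransitive (k := 3) (by omega) (by omega) h3t)
  -- the sharply two-transitive group `H`
  have hH2 : IsMultiplyPretransitive H X 2 := by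
    rw [SubMulAction.ofStabilizer.isMultiplyPretransitive (a := a)]
    exact isPretransitive_stabPart (is_one_pretransitive_iff.2 inferInstance)
  have hsharp : ∀ x : Fin 2 ↪ X, stabilizer H x = ⊥ := by
    intro x
    rw [Subgroup.eq_bot_iff_forall]
    intro h hh
    obtain ⟨c, hc⟩ := exists_smul_eq H (x 0) a
    have h0 : h • x 0 = x 0 := DFunLike.congr_fun hh 0
    have h1 : h • x 1 = x 1 := DFunLike.congr_fun hh 1
    have hb : c • x 1 ≠ a := by
      rw [← hc, Ne, smul_left_cancel_iff]
      exact fun e => absurd (x.injective e) (by decide)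
    have hst : (((c * h * c⁻¹ : H) : G)) ∈ stabilizer G a := by
      show (c * h * c⁻¹) • a = a
      rw [← hc, mul_smul, mul_smul, inv_smul_smul, h0]
    have hm : (⟨⟨_, hst⟩, (c * h * c⁻¹).2⟩ : stabPart H a) ∈
        stabilizer (stabPart H a) (⟨c • x 1, hb⟩ : SubMulAction.ofStabilizer G a) := by
      apply Subtype.ext
      show (c * h * c⁻¹) • c • x 1 = c • x 1
      rw [mul_smul, mul_smul, inv_smul_smul, h1]
    rw [hreg, Subgroup.mem_bot] at hm
    have h' : c * h * c⁻¹ = 1 := Subtype.ext (congrArg (fun z : stabPart H a => ((z : stabilizer G a) : G)) hm :)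
    exact conj_eq_one_iff.1 h'
  have : Nontrivial X := Finite.one_lt_card_iff_nontrivial.1 (by omega)
  obtain ⟨K, hKn, hKt, hKreg, hKc, -, -⟩ := exists_kernel_of_sharp hH2 hsharp
  -- the point stabiliser of `H` has order at most two
  have hfix : ∀ t : H, t • a = a → ∀ b, b ≠ a → t • b = b → t = 1 := by
    intro t hta b hb htb
    exact eq_one_of_sharp hsharp (Ne.symm hb) hta htb
  have hinv : ∀ t : H, t • a = a → t ≠ 1 → ∀ u ∈ K, t * u * t⁻¹ = u⁻¹ := by
    intro t hta ht1 u hu
    have htt : t * t = 1 := by
      have hst : ((t : G)) ∈ stabilizer G a := hta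
      have := hab.is_comm
      obtain ⟨-, hexp, -⟩ := (two_preprimitive_regular (N := stabPart H a) (by omega) h2s hreg).resolve_left
        (fun h => hsur (surjective_of_pretransitive (k := 3) (by omega) (by omega) h3t))
      have h' := hexp ⟨(t : G), hst⟩ t.2
      rw [sq] at h'
      exact Subtype.ext (congrArg Subtype.val h' :)
    have hti : t⁻¹ = t := inv_eq_of_mul_eq_one_right htt
    have hu' : t * u * t⁻¹ ∈ K := hKn.conj_mem u hu t
    set v := u * (t * u * t⁻¹) with hv
    have hvK : v ∈ K := K.mul_mem hu hu'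
    have hcv : t * v = v * t := by
      have hc : u * (t * u * t⁻¹) = (t * u * t⁻¹) * u :=
        congrArg Subtype.val (hKc.is_comm.comm (⟨u, hu⟩ : K) ⟨_, hu'⟩)
      calc t * v = (t * u * t⁻¹) * (t * t) * u * t⁻¹ := by rw [hv]; simp only [mul_assoc, inv_mul_cancel_left]
        _ = (t * u * t⁻¹) * u * t⁻¹ := by rw [htt, mul_one]
        _ = v * t := by rw [← hc, hv, hti]
    have hva : t • (v • a) = v • a := by rw [← mul_smul, hcv, mul_smul, hta]
    have hv1 : v = 1 := by
      by_contra hne
      refine ht1 (hfix t hta (v • a) (fun e => hne ?_) hva)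
      have : (⟨v, hvK⟩ : K) ∈ stabilizer K a := e
      rw [hKreg, Subgroup.mem_bot] at this
      exact congrArg Subtype.val this
    exact (inv_eq_of_mul_eq_one_right hv1).symm
  have htwo : ∀ t t' : H, t • a = a → t' • a = a → t ≠ 1 → t' ≠ 1 → t = t' := by
    intro t t' ht ht' h1 h1'
    have hc : ∀ u ∈ K, (t'⁻¹ * t) * u = u * (t'⁻¹ * t) := by
      intro u hu
      have e1 := hinv t ht h1 u hu
      have e2 := hinv t' ht' h1' u hu
      rw [← e2] at e1
      have e3 := congrArg (fun z => t'⁻¹ * z * t) e1
      simpa [mul_assoc] using e3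
    have hta : (t'⁻¹ * t) • a = a := by rw [mul_smul, ht, inv_smul_eq_iff, ht']
    have : t'⁻¹ * t = 1 := by
      apply FaithfulSMul.eq_of_smul_eq_smul (α := X)
      intro x
      obtain ⟨u, rfl⟩ := exists_smul_eq K a x
      rw [one_smul]
      show (t'⁻¹ * t) • (u : H) • a = (u : H) • a
      rw [← mul_smul, hc u u.2, mul_smul, hta]
    exact (inv_mul_eq_one.1 this).symm
  have hst : Nat.card (stabilizer H a) ≤ 2 := by
    classical
    by_contra hlt
    push Not at hlt
    haveI : Fintype (stabilizer H a) := Fintype.ofFinite _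
    rw [Nat.card_eq_fintype_card, Fintype.two_lt_card_iff] at hlt
    obtain ⟨x, y, z, hxy, hxz, hyz⟩ := hlt
    have key : ∀ s s' : stabilizer H a, s ≠ 1 → s' ≠ 1 → s = s' := fun s s' h h' =>
      Subtype.ext (htwo s s' s.2 s'.2 (fun e => h (Subtype.ext e)) (fun e => h' (Subtype.ext e)))
    rcases eq_or_ne x 1 with rfl | hx
    · exact hyz (key y z hxy.symm hxz.symm)
    rcases eq_or_ne y 1 with rfl | hy
    · exact hxz (key x z hx hyz.symm)
    · exact hxy (key x y hx hy)
  have := card_stabilizer_of_sharp hH2 hsharp a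
  exact hsur (surjective_of_pretransitive (k := 3) (by omega) (by omega) h3t)

theorem normal_multiplyPretransitive : ∀ (k : ℕ) {G : Type u} [Group G] {X : Type v} [MulAction G X]
    [FaithfulSMul G X] [Finite X] (_ : 1 ≤ k) (_ : k ≤ Nat.card X)
    (_ : IsMultiplyPreprimitive G X k) (_ : k ≤ 2 ∨ ¬ Function.Surjective (toPermHom G X))
    (H : Subgroup G) [H.Normal] (_ : H ≠ ⊥) (_ : k = 1 ∨ ∃ a : X, stabilizer H a ≠ ⊥),
    IsMultiplyPretransitive H X k := by
  intro k
  induction k with
  | zero => intros; omega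
  | succ k ih =>
    intro G _ X _ _ _ _ hkn hG hsur H _ hH hnr
    have hle : ((k + 1 : ℕ) : ℕ∞) ≤ ENat.card X := by
      rw [ENat.card_eq_coe_natCard]; exact_mod_cast hkn
    have : IsPreprimitive G X := (is_one_preprimitive_iff G X).1
      (isMultiplyPreprimitive_of_le G X hG (by omega) hle)
    have hHt : IsPretransitive H X := isPretransitive_of_normal_ne_bot hH
    rcases Nat.eq_zero_or_pos k with rfl | hk
    · exact is_one_pretransitive_iff.2 hHt
    obtain ⟨a, ha⟩ := hnr.resolve_left (by omega)
    rw [SubMulAction.ofStabilizer.isMultiplyPretransitive (a := a)]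
    apply isPretransitive_stabPart
    have := stabilizer_faithful (G := G) a
    have hcard := SubMulAction.nat_card_ofStabilizer_add_one_eq (G := G) a
    have hG' : IsMultiplyPreprimitive (stabilizer G a) (SubMulAction.ofStabilizer G a) k :=
      isMultiplyPreprimitive_ofStabilizer G X
    have hsur' : k ≤ 2 ∨
        ¬ Function.Surjective (toPermHom (stabilizer G a) (SubMulAction.ofStabilizer G a)) := by
      rcases hsur with h | h
      · exact Or.inl (by omega)
      · exact Or.inr fun h' => h (surjective_of_stabilizer h')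
    have hne : stabPart H a ≠ ⊥ := by
      intro h
      apply ha
      rw [Subgroup.eq_bot_iff_forall] at h ⊢
      intro g hg
      have := h ⟨(g : G), hg⟩ g.2
      exact Subtype.ext (congrArg Subtype.val this :)
    refine ih hk (by omega) hG' hsur' (stabPart H a) hne ?_
    by_contra hcon
    push Not at hcon
    have hle' : ((k : ℕ) : ℕ∞) ≤ ENat.card (SubMulAction.ofStabilizer G a) := by
      rw [ENat.card_eq_coe_natCard]; exact_mod_cast (show k ≤ _ by omega)
    have : IsPreprimitive (stabilizer G a) (SubMulAction.ofStabilizer G a) :=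
      (is_one_preprimitive_iff _ _).1 (isMultiplyPreprimitive_of_le _ _ hG' (by omega) hle')
    have := isPretransitive_of_normal_ne_bot (α := SubMulAction.ofStabilizer G a) hne
    exact no_regular_stabPart (by omega) hkn hG (hsur.resolve_left (by omega)) H a hcon.2

end Cfsg.Agent.PermP
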