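import Mathlib
import Cfsg.Agent.PermP.NormalTrans

/-!
Jordan's theorem on normal subgroups of multiply transitive groups.
-/

set_option autoImplicit false

namespace Cfsg.Agent.PermP

open MulAction

theorem jordan_normal {α : Type*} [Fintype α] [DecidableEq α] (G : Subgroup (Equiv.Perm α))
    {k : ℕ} (hk : 1 < k) (hdeg : k < Fintype.card α) (hG : IsMultiplyPretransitive G α k)
    (N : Subgroup G) [N.Normal] (hN : N ≠ ⊥) :
    IsMultiplyPretransitive N α (k - 1) ∨
      (k = 3 ∧ IsMulCommutative N ∧ ∀ n ∈ N, n ^ 2 = 1) := by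
  obtain ⟨j, rfl⟩ := Nat.exists_eq_add_of_le hk
  rw [Nat.card_eq_fintype_card.symm] at hdeg
  have hjsub : 1 + 1 + j - 1 = j + 1 := by omega
  simp only [Nat.succ_eq_add_one, hjsub] at *
  have hle : ((j + 2 : ℕ) : ℕ∞) ≤ ENat.card α := by
    rw [ENat.card_eq_coe_natCard]; exact_mod_cast (show j + 2 ≤ _ by omega)
  have hG' : IsMultiplyPretransitive G α (j + 2) := by
    have e : 1 + 1 + j = j + 2 := by omega
    rwa [e] at hG
  have hprim : IsMultiplyPreprimitive G α (j + 1) :=
    isMultiplyPreprimitive_of_isMultiplyPretransitive_succ G α hle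
  have h1 : IsPreprimitive G α := (is_one_preprimitive_iff G α).1
    (isMultiplyPreprimitive_of_le G α hprim (by omega) (le_trans (by simp) hle))
  have hNt : IsPretransitive N α := PermLib.isPretransitive_of_normal_ne_bot hN
  rcases Nat.eq_zero_or_pos j with rfl | hj
  · exact Or.inl (is_one_pretransitive_iff.2 hNt)
  by_cases hreg : ∀ a : α, stabilizer N a = ⊥
  · rcases Nat.lt_or_ge j 2 with hj2 | hj2
    · obtain rfl : j = 1 := by omega
      rcases two_preprimitive_regular (by omega) hprim hreg with h | ⟨h₁, h₂, -⟩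
      · omega
      · exact Or.inr ⟨rfl, h₁, h₂⟩
    · exfalso
      have h3 := isMultiplyPreprimitive_of_le G α hprim (show 3 ≤ j + 1 by omega)
        (le_trans (by simp) hle)
      rcases three_preprimitive_regular (by omega) h3 hreg with h | h <;> omega
  push Not at hreg
  left
  by_cases hs : j + 1 ≤ 2 ∨ ¬ Function.Surjective (toPermHom G α)
  · exact normal_multiplyPretransitive (j + 1) (by omega) (by omega) hprim hs N hN (Or.inr hreg)
  rw [not_or, not_not] at hs
  obtain ⟨hj3, hsur⟩ := hs
  set M : Subgroup (Equiv.Perm α) := N.map G.subtype with hM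
  have hMn : M.Normal := by
    refine Subgroup.Normal.map inferInstance G.subtype fun π => ?_
    obtain ⟨g, rfl⟩ := hsur π
    exact ⟨g, rfl⟩
  have hA : alternatingGroup α ≤ M := Equiv.Perm.alternatingGroup_le_of_normal (by omega)
    ((Subgroup.nontrivial_iff_ne_bot M).2
      fun h => hN (Subgroup.map_injective G.subtype_injective (h.trans (Subgroup.map_bot _).symm)))
  have hA' := alternatingGroup.isMultiplyPretransitive α
  have hA'' : IsMultiplyPretransitive (alternatingGroup α) α (j + 1) :=
    isMultiplyPretransitive_of_le (show j + 1 ≤ Nat.card α - 2 by omega) (Nat.sub_le _ _)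
  rw [isMultiplyPretransitive_iff] at hA'' ⊢
  intro x y
  obtain ⟨⟨g, hg⟩, hgx⟩ := hA'' x y
  obtain ⟨n, hn, rfl⟩ := hA hg
  exact ⟨⟨n, hn⟩, hgx⟩

end Cfsg.Agent.PermP
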