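import Mathlib
import Cfsg.Agent.Perm.Basic
import Cfsg.Agent.PermP.JordanNormal
import Cfsg.Agent.PermP.GenerousOrbit

/-!
Normal subgroups of triply transitive groups of odd degree.
-/

set_option autoImplicit false

namespace Cfsg.Agent.PermP

open MulAction
open scoped Pointwise

theorem odd_three_normal {α : Type*} [Fintype α] [DecidableEq α] (G : Subgroup (Equiv.Perm α))
    (hodd : Odd (Fintype.card α)) (h5 : 5 ≤ Fintype.card α)
    (hG : IsMultiplyPretransitive G α 3) (N : Subgroup G) [N.Normal] (hN : N ≠ ⊥) :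
    IsMultiplyPretransitive N α 3 := by
  classical
  have hc3 : ((3 : ℕ) : ℕ∞) ≤ ENat.card α := by
    rw [ENat.card_eq_coe_natCard, Nat.card_eq_fintype_card]; exact_mod_cast (show 3 ≤ _ by omega)
  have hG2 : IsMultiplyPretransitive G α 2 :=
    isMultiplyPretransitive_of_le (show 2 ≤ 3 by omega) (by rw [Nat.card_eq_fintype_card]; omega)
  have hN2 : IsMultiplyPretransitive N α 2 := by
    rcases jordan_normal G (k := 3) (by omega) (by omega) hG N hN with h | ⟨-, hab, hexp⟩
    · exact h
    exfalso
    have : IsPreprimitive G α := isPreprimitive_of_is_two_pretransitive hG2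
    have hNt : IsPretransitive N α := PermLib.isPretransitive_of_normal_ne_bot hN
    obtain ⟨a⟩ : Nonempty α := Fintype.card_pos_iff.1 (by omega)
    have hreg := PermLib.stabilizer_eq_bot_of_isMulCommutative hab a
    haveI : Fact (Nat.Prime 2) := ⟨Nat.prime_two⟩
    have hP : IsPGroup 2 N := fun x => ⟨1, by rw [pow_one]; exact Subtype.ext (hexp x x.2)⟩
    obtain ⟨m, hm⟩ := IsPGroup.iff_card.1 hP
    rw [PermLib.card_eq_of_regular hreg, Nat.card_eq_fintype_card] at hm
    rw [hm] at hodd h5
    rcases Nat.eq_zero_or_pos m with rfl | hm0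
    · simp at h5
    · exact Nat.not_even_iff_odd.2 hodd (even_two.pow_of_ne_zero hm0.ne')
  set N' : Subgroup (Equiv.Perm α) := N.map G.subtype with hN'
  have hswap : ∀ a b c : α, a ≠ b → c ≠ a → c ≠ b →
      ∃ g ∈ N', g a = b ∧ g b = a ∧ g c = c := by
    intro a b c hab hca hcb
    obtain ⟨t, hta, htb⟩ := is_two_pretransitive_iff.1 hN2 hab (Ne.symm hab)
    have hm : Odd (orderOf t / 2 ^ (orderOf t).factorization 2) :=
      Nat.odd_iff.2 (Nat.two_dvd_ne_zero.1 (Nat.not_dvd_ordCompl Nat.prime_two (orderOf_pos t).ne'))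
    set m := orderOf t / 2 ^ (orderOf t).factorization 2 with hmdef
    set q := t ^ m with hq
    have hpow : ∀ j : ℕ, (Odd j → t ^ j • a = b ∧ t ^ j • b = a) ∧
        (Even j → t ^ j • a = a ∧ t ^ j • b = b) := by
      intro j
      induction j with
      | zero => simp
      | succ j ih =>
        constructor
        · intro hj
          rw [Nat.odd_add_one, Nat.not_odd_iff_even] at hj
          rw [pow_succ', mul_smul, mul_smul, (ih.2 hj).1, (ih.2 hj).2]
          exact ⟨hta, htb⟩
        · intro hj
          rw [Nat.even_add_one, Nat.not_even_iff_odd] at hj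
          rw [pow_succ', mul_smul, mul_smul, (ih.1 hj).1, (ih.1 hj).2]
          exact ⟨htb, hta⟩
    obtain ⟨hqa, hqb⟩ := (hpow m).1 hm
    haveI : Fact (Nat.Prime 2) := ⟨Nat.prime_two⟩
    have hP : IsPGroup 2 (Subgroup.zpowers q) := by
      rintro ⟨x, i, rfl⟩
      refine ⟨(orderOf t).factorization 2, Subtype.ext ?_⟩
      show (q ^ i) ^ _ = 1
      rw [← zpow_natCast, ← zpow_mul, mul_comm, zpow_mul, zpow_natCast, hq, ← pow_mul, hmdef,
        mul_comm, Nat.mul_div_cancel' (Nat.ordProj_dvd _ _), pow_orderOf_eq_one, one_zpow]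
    obtain ⟨c0, hc0⟩ := hP.nonempty_fixed_point_of_prime_not_dvd_card α
      (by rw [Nat.card_eq_fintype_card]; rw [Nat.odd_iff] at hodd; omega)
    have hq0 : q • c0 = c0 := hc0 ⟨q, Subgroup.mem_zpowers q⟩
    have hc0a : c0 ≠ a := by rintro rfl; exact hab (hq0.symm.trans hqa)
    have hc0b : c0 ≠ b := by rintro rfl; exact hab (hqb.symm.trans hq0)
    obtain ⟨g, hga, hgb, hgc⟩ := PermLib.three_pretransitive_iff.1 hG a b c0 a b c
      hab hc0a.symm hc0b.symm hab (Ne.symm hca) (Ne.symm hcb)
    have hmem : g * (q : G) * g⁻¹ ∈ N := Subgroup.Normal.conj_mem inferInstance _ q.2 g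
    have e : ∀ x : α, g⁻¹ • (g • x) = x := fun x => inv_smul_smul g x
    refine ⟨_, ⟨_, hmem, rfl⟩, ?_, ?_, ?_⟩
    · show (g * (q : G) * g⁻¹) • a = b
      rw [mul_smul, mul_smul, inv_smul_eq_iff.2 hga.symm, show (q : G) • a = b from hqa, hgb]
    · show (g * (q : G) * g⁻¹) • b = a
      rw [mul_smul, mul_smul, inv_smul_eq_iff.2 hgb.symm, show (q : G) • b = a from hqb, hga]
    · show (g * (q : G) * g⁻¹) • c = c
      rw [← hgc, mul_smul, mul_smul, e, show (q : G) • c0 = c0 from hq0]
  have hgen : ∀ s : Finset α, s.card = 2 + 1 → ∀ σ : Equiv.Perm ↥s,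
      ∃ g ∈ N', ∀ x : ↥s, g (x : α) = σ x := by
    intro s hs σ
    induction σ using Equiv.Perm.swap_induction_on with
    | one => exact ⟨1, N'.one_mem, fun _ => rfl⟩
    | swap_mul σ x y hxy ih =>
      obtain ⟨g', hg', hσ⟩ := ih
      obtain ⟨z, hz, hzxy⟩ : ∃ z ∈ s, z ∉ ({(x : α), (y : α)} : Finset α) :=
        Finset.exists_mem_notMem_of_card_lt_card (by
          have := Finset.card_le_two (a := (x : α)) (b := (y : α)); omega)
      simp only [Finset.mem_insert, Finset.mem_singleton, not_or] at hzxy
      obtain ⟨g, hg, hgx, hgy, hgz⟩ := hswap x y z (fun e => hxy (Subtype.ext e)) hzxy.1 hzxy.2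
      refine ⟨g * g', N'.mul_mem hg hg', fun w => ?_⟩
      show g (g' (w : α)) = ((Equiv.swap x y) (σ w) : α)
      rw [hσ w]
      generalize σ w = u
      rcases eq_or_ne u x with rfl | hux
      · rw [Equiv.swap_apply_left]; exact hgx
      rcases eq_or_ne u y with rfl | huy
      · rw [Equiv.swap_apply_right]; exact hgy
      rw [Equiv.swap_apply_of_ne_of_ne hux huy]
      have huz : (u : α) = z := by
        by_contra hne
        have hsub : ({(x : α), (y : α), z, (u : α)} : Finset α) ⊆ s := by
          intro v hv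
          simp only [Finset.mem_insert, Finset.mem_singleton] at hv
          rcases hv with rfl | rfl | rfl | rfl
          · exact x.2
          · exact y.2
          · exact hz
          · exact u.2
        have h4 : ({(x : α), (y : α), z, (u : α)} : Finset α).card = 4 :=
          Finset.card_eq_succ.2 ⟨x, {(y : α), z, (u : α)}, by
            simp only [Finset.mem_insert, Finset.mem_singleton, not_or]
            exact ⟨fun e => hxy (Subtype.ext e), Ne.symm hzxy.1, fun e => hux (Subtype.ext e.symm)⟩,
            rfl, Finset.card_eq_three.2 ⟨y, z, u, Ne.symm hzxy.2,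
              fun e => huy (Subtype.ext e.symm), Ne.symm hne, rfl⟩⟩
        have := Finset.card_le_card hsub
        omega
      rw [huz]; exact hgz
  rw [PermLib.three_pretransitive_iff]
  intro a b c a' b' c' hab hac hbc hab' hac' hbc'
  obtain ⟨t, hta, htb⟩ := is_two_pretransitive_iff.1 hN2 hab hab'
  have hΓ : ({a', b'} : Finset α).card = 2 := Finset.card_pair hab'
  set P := fixingSubgroup N' (({a', b'} : Finset α) : Set α) with hPdef
  have htc : t • c ∉ ({a', b'} : Finset α) := by
    simp only [Finset.mem_insert, Finset.mem_singleton, not_or]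
    rw [← hta, ← htb]
    exact ⟨fun e => hac (smul_left_cancel t e).symm, fun e => hbc (smul_left_cancel t e).symm⟩
  have hfinal : c' ∈ orbit P (t • c) := by
    by_contra hne
    have hc' : c' ∉ ({a', b'} : Finset α) := by
      simp only [Finset.mem_insert, Finset.mem_singleton, not_or]
      exact ⟨Ne.symm hac', Ne.symm hbc'⟩
    obtain ⟨i, hi⟩ := generous_orbit_dvd (G := N') (k := 2) (by omega) hgen Nat.prime_two le_rfl
      {a', b'} hΓ ![t • c, c'] (fun i => by fin_cases i <;> assumption)
      (fun i j hij => by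
        fin_cases i <;> fin_cases j
        · exact absurd rfl hij
        · exact hne
        · intro h
          apply hne
          show c' ∈ orbit P (t • c)
          have h' : t • c ∈ orbit P c' := h
          rw [orbit_eq_iff.2 h']
          exact mem_orbit_self _
        · exact absurd rfl hij)
    -- all these orbits are blocks of a transitive action on an odd number of points
    set s : Set α := (({a', b'} : Finset α) : Set α) with hs
    have hs2 : s.ncard = 2 := by rw [hs, Set.ncard_coe_finset, hΓ]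
    have htr : IsPretransitive (fixingSubgroup G s) (SubMulAction.ofFixingSubgroup G s) :=
      is_one_pretransitive_iff.1
        (SubMulAction.ofFixingSubgroup.isMultiplyPretransitive G (m := 1) (n := 3) s (by omega))
    set x : SubMulAction.ofFixingSubgroup G s := ⟨![t • c, c'] i, by
      fin_cases i <;> assumption⟩ with hx
    set M : Subgroup (fixingSubgroup G s) := N.subgroupOf (fixingSubgroup G s) with hM
    have hB : IsBlock (fixingSubgroup G s) (orbit M x) := IsBlock.orbit_of_normal (N := M) x
    have hdvd := hB.ncard_dvd_card (nonempty_orbit x)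
    have hcardeq : (orbit M x).ncard = Nat.card (orbit P (![t • c, c'] i)) := by
      rw [← Set.ncard_image_of_injective (orbit M x) Subtype.val_injective, Nat.card_coe_set_eq]
      congr 1
      ext v
      constructor
      · rintro ⟨_, ⟨⟨⟨g, hg⟩, hgN⟩, rfl⟩, rfl⟩
        refine ⟨⟨⟨(g : Equiv.Perm α), g, hgN, rfl⟩, ?_⟩, rfl⟩
        rw [hPdef, mem_fixingSubgroup_iff]
        exact fun y hy => (mem_fixingSubgroup_iff G).1 hg y hy
      · rintro ⟨⟨⟨_, g, hgN, rfl⟩, hp⟩, rfl⟩
        have hg : g ∈ fixingSubgroup G s := by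
          rw [mem_fixingSubgroup_iff]
          exact fun y hy => (mem_fixingSubgroup_iff _).1 hp y hy
        exact ⟨_, ⟨⟨⟨g, hg⟩, hgN⟩, rfl⟩, rfl⟩
    have hcard : Nat.card (SubMulAction.ofFixingSubgroup G s) + 2 = Fintype.card α := by
      have h1 : Nat.card (SubMulAction.ofFixingSubgroup G s) = sᶜ.ncard := rfl
      rw [h1, ← hs2, add_comm, Set.ncard_add_ncard_compl, Nat.card_eq_fintype_card]
    have h2 : 2 ∣ Nat.card (SubMulAction.ofFixingSubgroup G s) := by
      rw [hcardeq] at hdvd
      exact dvd_trans hi hdvd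
    rw [Nat.odd_iff] at hodd
    omega
  obtain ⟨⟨⟨_, n, hn, rfl⟩, hp⟩, hpc⟩ := hfinal
  rw [hPdef, mem_fixingSubgroup_iff] at hp
  refine ⟨⟨n, hn⟩ * t, ?_, ?_, ?_⟩
  · rw [mul_smul, hta]; exact hp a' (by simp)
  · rw [mul_smul, htb]; exact hp b' (by simp)
  · rw [mul_smul]; exact hpc

end Cfsg.Agent.PermP
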