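import Mathlib

/-!
The order of `q` modulo `n * (q - 1)`.
-/

set_option autoImplicit false

namespace Cfsg.Agent.PermP

theorem mul_dvd_pow_sub_one : ∀ (n q : ℕ), 2 ≤ q →
    (∀ r : ℕ, r.Prime → r ∣ n → r ∣ q - 1) → n * (q - 1) ∣ q ^ n - 1 := by
  intro n
  induction n using Nat.strong_induction_on with
  | _ n ih =>
    intro q hq h
    rcases Nat.lt_or_ge n 2 with hn | hn
    · interval_cases n <;> simp
    set r := n.minFac with hr
    have hrp : r.Prime := Nat.minFac_prime (by omega)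
    obtain ⟨a, ha⟩ : r ∣ n := Nat.minFac_dvd n
    have ha0 : 0 < a := by rcases Nat.eq_zero_or_pos a with rfl | h0 <;> omega
    have han : a < n := by
      rw [ha]; exact lt_mul_of_one_lt_left ha0 hrp.one_lt
    have hrq : r * (q - 1) ∣ q ^ r - 1 := by
      have hgeom : (q - 1) * ∑ i ∈ Finset.range r, q ^ i = q ^ r - 1 := by
        rw [mul_comm, Nat.geomSum_eq hq, Nat.div_mul_cancel]
        simpa using Nat.sub_dvd_pow_sub_pow q 1 r
      have hsum : r ∣ ∑ i ∈ Finset.range r, q ^ i := by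
        have h1 : (q : ZMod r) = 1 := by
          have h2 : ((q - 1 : ℕ) : ZMod r) = 0 :=
            (ZMod.natCast_eq_zero_iff _ _).2 (h r hrp (ha ▸ dvd_mul_right r a))
          rwa [Nat.cast_sub (by omega), Nat.cast_one, sub_eq_zero] at h2
        rw [← ZMod.natCast_eq_zero_iff]
        push_cast
        simp [h1]
      rw [← hgeom, mul_comm r]
      exact mul_dvd_mul_left _ hsum
    have h2 := ih a han (q ^ r) (le_trans hq (Nat.le_self_pow hrp.pos.ne' q)) (fun s hs hsa =>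
      (h s hs (ha ▸ hsa.mul_left r)).trans (by simpa using Nat.sub_dvd_pow_sub_pow q 1 r))
    rw [← pow_mul, ← ha] at h2
    refine dvd_trans ?_ h2
    rw [ha, mul_comm r a, mul_assoc]
    exact mul_dvd_mul_left a hrq

theorem dvd_pow_mul_sub_one {m a : ℕ} (b : ℕ) {q : ℕ} (h : m ∣ q ^ a - 1) : m ∣ q ^ (a * b) - 1 := by
  refine h.trans ?_
  rw [pow_mul]
  simpa using Nat.sub_dvd_pow_sub_pow (q ^ a) 1 b

/-- Some positive exponent at most `n` works, and a smaller one when some prime of `n` does not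
divide `q - 1`. -/
theorem exists_small_exponent : ∀ (n q : ℕ), 0 < n → 2 ≤ q → Nat.Coprime q n →
    ∃ i, 0 < i ∧ i ≤ n ∧ n * (q - 1) ∣ q ^ i - 1 ∧
      ((∃ r, r.Prime ∧ r ∣ n ∧ ¬ r ∣ q - 1) → i < n) := by
  intro n
  induction n using Nat.strong_induction_on with
  | _ n ih =>
    intro q hn hq hcop
    by_cases hbad : ∃ r, r.Prime ∧ r ∣ n ∧ ¬ r ∣ q - 1
    swap
    · refine ⟨n, hn, le_rfl, mul_dvd_pow_sub_one n q hq fun r hr hrn => ?_, fun h => absurd h hbad⟩
      by_contra h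
      exact hbad ⟨r, hr, hrn, h⟩
    obtain ⟨r, hr, hrn, hrq⟩ := hbad
    set e := n.factorization r with he
    set u := n / r ^ e with hu
    have hmul : r ^ e * u = n := Nat.ordProj_mul_ordCompl_eq_self n r
    have hru : ¬ r ∣ u := Nat.not_dvd_ordCompl hr hn.ne'
    have he0 : 0 < e := hr.factorization_pos_of_dvd hn.ne' hrn
    have hu0 : 0 < u := Nat.ordCompl_pos r hn.ne'
    have hre : 1 < r ^ e := Nat.one_lt_pow he0.ne' hr.one_lt
    have hun : u < n := by
      rw [← hmul]; exact lt_mul_of_one_lt_left hu0 hre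
    obtain ⟨i, hi0, hiu, hidvd, -⟩ := ih u hun q hu0 hq
      (hcop.coprime_dvd_right ⟨r ^ e, by rw [mul_comm, hmul]⟩)
    have htot : r ^ e ∣ q ^ Nat.totient (r ^ e) - 1 := by
      have hc : Nat.Coprime q (r ^ e) := hcop.coprime_dvd_right ⟨u, hmul.symm⟩
      exact (Nat.modEq_iff_dvd' (Nat.one_le_pow _ _ (by omega))).1 (Nat.ModEq.pow_totient hc).symm
    have hlt : Nat.totient (r ^ e) < r ^ e := Nat.totient_lt _ hre
    have hpos : 0 < Nat.totient (r ^ e) := Nat.totient_pos.2 (by omega)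
    have hltn : i * Nat.totient (r ^ e) < n := by
      calc i * Nat.totient (r ^ e) ≤ u * Nat.totient (r ^ e) := Nat.mul_le_mul_right _ hiu
        _ < u * r ^ e := Nat.mul_lt_mul_of_pos_left hlt hu0
        _ = n := by rw [mul_comm, hmul]
    refine ⟨i * Nat.totient (r ^ e), Nat.mul_pos hi0 hpos, hltn.le, ?_, fun _ => hltn⟩
    rw [← hmul, mul_assoc]
    refine Nat.Coprime.mul_dvd_of_dvd_of_dvd ?_ ?_ (dvd_pow_mul_sub_one _ hidvd)
    · exact Nat.Coprime.mul_right
        (Nat.Coprime.pow_left _ (hr.coprime_iff_not_dvd.2 hru))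
        (Nat.Coprime.pow_left _ (hr.coprime_iff_not_dvd.2 hrq))
    · rw [mul_comm i]; exact dvd_pow_mul_sub_one _ htot

theorem order_modulus_iff (q n : ℕ) (hq : 2 ≤ q) (hn : 1 < n) :
    ((∀ r : ℕ, r.Prime → r ∣ n → r ∣ q - 1) ∧ (4 ∣ n → 4 ∣ q - 1)) ↔
      (q ^ n ≡ 1 [MOD n * (q - 1)] ∧
        ∀ i : ℕ, 0 < i → i < n → ¬ q ^ i ≡ 1 [MOD n * (q - 1)]) := by
  set M := n * (q - 1) with hM
  have hmod : ∀ i, q ^ i ≡ 1 [MOD M] ↔ M ∣ q ^ i - 1 := fun i =>
    ⟨fun h => (Nat.modEq_iff_dvd' (Nat.one_le_pow _ _ (by omega))).1 h.symm,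
      fun h => ((Nat.modEq_iff_dvd' (Nat.one_le_pow _ _ (by omega))).2 h).symm⟩
  simp only [hmod]
  constructor
  · rintro ⟨h, h4⟩
    have hn' := mul_dvd_pow_sub_one n q hq h
    refine ⟨hn', fun i hi hin hdvd => ?_⟩
    have hcast : ∀ j, M ∣ q ^ j - 1 ↔ (q : ZMod M) ^ j = 1 := fun j => by
      rw [← ZMod.natCast_eq_zero_iff, Nat.cast_sub (Nat.one_le_pow _ _ (by omega)), sub_eq_zero,
        Nat.cast_pow, Nat.cast_one]
    have hg : M ∣ q ^ Nat.gcd i n - 1 :=
      (hcast _).2 (pow_gcd_eq_one.2 ⟨(hcast i).1 hdvd, (hcast n).1 hn'⟩)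
    obtain ⟨t, ht⟩ := Nat.gcd_dvd_right i n
    have ht1 : t ≠ 1 := fun e => by
      rw [e, mul_one] at ht
      have := Nat.le_of_dvd hi (Nat.gcd_dvd_left i n)
      omega
    obtain ⟨r, hr, hrt⟩ := Nat.exists_prime_and_dvd ht1
    obtain ⟨t', rfl⟩ := hrt
    haveI := Fact.mk hr
    set m := Nat.gcd i n * t' with hm
    have hnm : n = m * r := by rw [ht, hm]; ring
    have hm0 : m ≠ 0 := fun e => by rw [e, zero_mul] at hnm; omega
    have hm1 : m * r * (q - 1) ∣ q ^ m - 1 := by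
      rw [← hnm]; exact dvd_pow_mul_sub_one t' hg
    have hq1 : q - 1 ≠ 0 := by omega
    have hqm : q ^ m - 1 ≠ 0 := Nat.sub_ne_zero_of_lt (Nat.one_lt_pow hm0 (by omega))
    have hv : padicValNat r m + 1 + padicValNat r (q - 1) ≤ padicValNat r (q ^ m - 1) := by
      have hdd := pow_padicValNat_dvd (p := r) (n := m * r * (q - 1))
      have hle := (padicValNat_dvd_iff_le hqm).1 (hdd.trans hm1)
      rwa [padicValNat.mul (Nat.mul_ne_zero hm0 hr.ne_zero) hq1, padicValNat.mul hm0 hr.ne_zero,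
        padicValNat_self] at hle
    have hrq : r ∣ q - 1 := h r hr (hnm ▸ dvd_mul_left r m)
    have hrq' : ¬ r ∣ q := fun hd => by
      have h1 := Nat.dvd_sub hd hrq
      rw [Nat.sub_sub_self (by omega)] at h1
      exact hr.one_lt.ne' (Nat.dvd_one.1 h1)
    rcases hr.eq_two_or_odd' with h2 | hodd
    · subst h2
      rcases Nat.even_or_odd m with hev | hod
      · have h4' : 4 ∣ q - 1 := h4 (by
          obtain ⟨l, hl⟩ := hev
          exact ⟨l, by rw [hnm, hl]; ring⟩)
        have hlte := padicValNat.pow_two_sub_one (x := q) (by omega) hrq' hm0 hev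
        have hq2 : padicValNat 2 (q + 1) = 1 := by
          obtain ⟨l, hl⟩ := h4'
          have he : q + 1 = 2 * (2 * l + 1) := by omega
          rw [he, padicValNat.mul (by omega) (by omega), padicValNat_self,
            padicValNat.eq_zero_of_not_dvd (by omega)]
        omega
      · have hsum : ¬ 2 ∣ ∑ i ∈ Finset.range m, q ^ i := by
          rw [← ZMod.natCast_eq_zero_iff]
          push_cast
          have h1 : (q : ZMod 2) = 1 := ZMod.natCast_eq_one_iff_odd.2 (Nat.odd_iff.2 (by omega))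
          simp only [h1, one_pow, Finset.sum_const, Finset.card_range, nsmul_eq_mul, mul_one]
          rw [ZMod.natCast_eq_one_iff_odd.2 hod]
          decide
        have hgeom : (q - 1) * ∑ i ∈ Finset.range m, q ^ i = q ^ m - 1 := by
          rw [mul_comm, Nat.geomSum_eq hq, Nat.div_mul_cancel]
          simpa using Nat.sub_dvd_pow_sub_pow q 1 m
        have hS0 : ∑ i ∈ Finset.range m, q ^ i ≠ 0 := fun e => hsum (e ▸ dvd_zero 2)
        rw [← hgeom, padicValNat.mul hq1 hS0, padicValNat.eq_zero_of_not_dvd hsum] at hv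
        omega
    · have := padicValNat.pow_sub_pow (p := r) hodd (x := q) (y := 1) (by omega) hrq hrq' hm0
      rw [one_pow] at this
      omega
  · rintro ⟨hn', hmin⟩
    have hcop : Nat.Coprime q n := by
      refine Nat.coprime_of_dvd fun r hr hrq hrn => ?_
      have h1 : r ∣ q ^ n - 1 := (hrn.trans (dvd_mul_right n (q - 1))).trans hn'
      have h2 : r ∣ q ^ n := hrq.trans (dvd_pow_self q (by omega))
      have h3 := Nat.dvd_sub h2 h1
      rw [Nat.sub_sub_self (Nat.one_le_pow _ _ (by omega))] at h3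
      exact hr.one_lt.ne' (Nat.dvd_one.1 h3)
    have hgood : ∀ r : ℕ, r.Prime → r ∣ n → r ∣ q - 1 := by
      intro r hr hrn
      by_contra hrq
      obtain ⟨i, hi0, -, hidvd, hilt⟩ := exists_small_exponent n q (by omega) hq hcop
      exact hmin i hi0 (hilt ⟨r, hr, hrn, hrq⟩) hidvd
    refine ⟨hgood, fun h4 => ?_⟩
    by_contra hq4
    obtain ⟨a, ha⟩ := h4
    obtain ⟨l, hl⟩ := hgood 2 Nat.prime_two ⟨2 * a, by omega⟩
    have h4q : 4 ∣ q + 1 := by omega
    have hsq : q ^ 2 - 1 = (q + 1) * (q - 1) := by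
      simpa using Nat.sq_sub_sq q 1
    have hsq2 : 2 ≤ q ^ 2 := le_trans hq (Nat.le_self_pow (by norm_num) q)
    have h := mul_dvd_pow_sub_one a (q ^ 2) hsq2 (fun r hr hra =>
      (hgood r hr (ha ▸ hra.mul_left 4)).trans (by rw [hsq]; exact dvd_mul_left _ _))
    rw [hsq, ← pow_mul] at h
    refine hmin (2 * a) (by omega) (by omega) (dvd_trans ?_ h)
    rw [hM, ha, mul_comm 4 a, mul_assoc]
    exact mul_dvd_mul_left a (mul_dvd_mul_right h4q _)

end Cfsg.Agent.PermP
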