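import Mathlib
import Cfsg.Agent.Char.FrobeniusSchur
import Cfsg.Agent.Char.Product
import Cfsg.Agent.Char.PermChar
import Cfsg.Agent.PermP.Multiplicity

/-!
Self-paired suborbits and real constituents of multiplicity one.
-/

set_option autoImplicit false
set_option linter.style.haveILetI false

open Module MulAction Matrix
open scoped ComplexConjugate

namespace Cfsg.Agent.PermP

universe u v

variable {G : Type u} [Group G] [Fintype G]

/-- A symmetric invariant form on a representation with only one invariant form up to scalars makes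
the indicator equal to one. -/
theorem fs_one {n : ℕ} (A : G →* Matrix (Fin n) (Fin n) ℂ)
    (h1 : (Nat.card G : ℂ)⁻¹ * ∑ g, Matrix.trace (A g) ^ 2 = 1)
    (U : Matrix (Fin n) (Fin n) ℂ) (hU0 : U ≠ 0) (hsymm : Uᵀ = U)
    (hU : ∀ g, A g * U * (A g)ᵀ = U) :
    (Nat.card G : ℂ)⁻¹ * ∑ g, Matrix.trace (A (g * g)) = 1 := by
  classical
  set τ := Char.formRep A with hτ
  let T : Matrix (Fin n) (Fin n) ℂ →ₗ[ℂ] Matrix (Fin n) (Fin n) ℂ :=
    (Nat.card G : ℂ)⁻¹ • ∑ g, τ g
  have hTinv : ∀ X, T X ∈ τ.invariants := fun X h => by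
    simp only [T, LinearMap.smul_apply, LinearMap.sum_apply, map_smul, map_sum]
    congr 1
    refine Fintype.sum_equiv (Equiv.mulLeft h) _ _ fun g => ?_
    rw [Equiv.coe_mulLeft, map_mul]
    rfl
  have hdim : finrank ℂ τ.invariants = 1 := by
    haveI : Invertible (Nat.card G : ℂ) := invertibleOfNonzero Char.card_ne_zero_complex
    have h := τ.card_inv_mul_sum_char_eq_finrank
    simp only [hτ, Char.formRep_character] at h
    rw [h1] at h
    exact_mod_cast h.symm
  have hUmem : U ∈ τ.invariants := fun g => hU g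
  obtain ⟨⟨U', hU'⟩, -, hspan⟩ := finrank_eq_one_iff'.mp hdim
  obtain ⟨c, hc⟩ := hspan ⟨U, hUmem⟩
  have hc' : c • U' = U := congrArg Subtype.val hc
  have hc0 : c ≠ 0 := fun h => hU0 (by rw [← hc', h, zero_smul])
  have hU'eq : U' = c⁻¹ • U := by rw [← hc', smul_smul, inv_mul_cancel₀ hc0, one_smul]
  have hsym : ∀ X i j, T X i j = T X j i := by
    intro X i j
    obtain ⟨w, hw⟩ := hspan ⟨T X, hTinv X⟩
    have hw' : w • U' = T X := congrArg Subtype.val hw
    rw [← hw', hU'eq]
    have := congrFun (congrFun hsymm i) j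
    rw [Matrix.transpose_apply] at this
    simp [this]
  have hν : (Nat.card G : ℂ)⁻¹ * ∑ s : G, Matrix.trace (A (s * s))
      = ∑ i, ∑ j, T (Matrix.single j i 1) i j := by
    simp only [T, LinearMap.smul_apply, LinearMap.sum_apply, Matrix.smul_apply, Matrix.sum_apply,
      smul_eq_mul, ← Finset.mul_sum]
    congr 1
    rw [Finset.sum_comm_cycle]
    refine Finset.sum_congr rfl fun s _ => ?_
    rw [map_mul, Matrix.trace, hτ]
    refine Finset.sum_congr rfl fun i _ => ?_
    rw [Matrix.diag_apply, Matrix.mul_apply]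
    refine Finset.sum_congr rfl fun j _ => ?_
    simp [Char.formRep_apply, Matrix.mul_apply, Matrix.single_apply, ite_and]
  rw [hν]
  refine Eq.trans ?_ h1
  rw [Finset.sum_congr rfl fun i _ => Finset.sum_congr rfl fun j _ => hsym (Matrix.single j i 1) i j]
  simp only [T, LinearMap.smul_apply, LinearMap.sum_apply, Matrix.smul_apply, Matrix.sum_apply,
    smul_eq_mul, ← Finset.mul_sum]
  congr 1
  rw [Finset.sum_comm_cycle]
  refine Finset.sum_congr rfl fun s _ => ?_
  rw [sq, Matrix.trace, Finset.sum_mul_sum]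
  refine Finset.sum_congr rfl fun i _ => Finset.sum_congr rfl fun j _ => ?_
  simp [hτ, Char.formRep_apply, Matrix.mul_apply, Matrix.single_apply, ite_and, mul_comm]

/-- The representation by a matrix homomorphism. -/
noncomputable def matRep {n : ℕ} (A : G →* Matrix (Fin n) (Fin n) ℂ) :
    Representation ℂ G (Fin n → ℂ) :=
  (Matrix.toLinAlgEquiv' (R := ℂ) (n := Fin n)).toMonoidHom.comp A

omit [Fintype G] in
theorem matRep_apply {n : ℕ} (A : G →* Matrix (Fin n) (Fin n) ℂ) (g : G) (v : Fin n → ℂ) :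
    matRep A g v = A g *ᵥ v := rfl

omit [Fintype G] in
theorem matRep_character {n : ℕ} (A : G →* Matrix (Fin n) (Fin n) ℂ) (g : G) :
    (matRep A).character g = Matrix.trace (A g) := by
  rw [Representation.character]
  exact Matrix.trace_toLin'_eq (A g)

variable {Ω : Type v} [Fintype Ω] [MulAction G Ω] [IsPretransitive G Ω]

/-- Frobenius reciprocity for the stabiliser of a point. -/
theorem dim_fixed_stabilizer {n : ℕ} (A : G →* Matrix (Fin n) (Fin n) ℂ) {χ : G → ℂ}
    (hχ : IsIrrCharacter G χ) (hA : ∀ g, Matrix.trace (A g) = χ g)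
    (hreal : ∀ g, conj (χ g) = χ g)
    (h1 : classInner (Char.permChar (G := G) Ω) χ = 1) (a : Ω) :
    finrank ℂ (Representation.invariants ((matRep A).comp (stabilizer G a).subtype)) = 1 := by
  classical
  haveI : Invertible (Nat.card (stabilizer G a) : ℂ) :=
    invertibleOfNonzero (Nat.cast_ne_zero.mpr Nat.card_pos.ne')
  have h := Representation.card_inv_mul_sum_char_eq_finrank
    (ρ := (matRep A).comp (stabilizer G a).subtype)
  have hchar : ∀ s : stabilizer G a, Representation.character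
      ((matRep A).comp (stabilizer G a).subtype) s = χ s := by
    intro s
    rw [← hA, ← matRep_character A (s : G)]
    rfl
  rw [Finset.sum_congr rfl fun s _ => hchar s] at h
  have hsum : ∀ x : Ω, (∑ g : G, if g • x = x then χ g else 0) =
      ∑ s : stabilizer G a, χ s := by
    intro x
    obtain ⟨t, rfl⟩ := exists_smul_eq G a x
    rw [← Finset.sum_filter]
    refine Finset.sum_bij' (fun g hg => (⟨t⁻¹ * g * t, ?_⟩ : stabilizer G a))
      (fun s _ => t * (s : G) * t⁻¹) (fun _ _ => Finset.mem_univ _) ?_ ?_ ?_ ?_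
    · rw [mem_stabilizer_iff, mul_smul, mul_smul, (Finset.mem_filter.1 hg).2, inv_smul_smul]
    · intro s _
      rw [Finset.mem_filter]
      refine ⟨Finset.mem_univ _, ?_⟩
      rw [mul_smul, mul_smul, inv_smul_smul, mem_stabilizer_iff.1 s.2]
    · intro g _; simp [mul_assoc]
    · intro s _; exact Subtype.ext (by simp [mul_assoc])
    · intro g hg
      have := Char.irr_isClassFunction hχ g t⁻¹
      rw [inv_inv] at this
      exact this.symm
  have hperm : ∀ g : G, Char.permChar (G := G) Ω g = ∑ x : Ω, if g • x = x then 1 else 0 := by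
    intro g
    rw [Char.permChar, Finset.sum_boole, Nat.card_eq_fintype_card, ← Fintype.card_subtype]
    congr 1
  simp only [classInner, hperm, hreal, Finset.sum_mul, ite_mul, one_mul, zero_mul] at h1
  rw [Finset.sum_comm, Finset.sum_congr rfl fun x _ => hsum x, Finset.sum_const, Finset.card_univ,
    nsmul_eq_mul] at h1
  have hcard : (Nat.card G : ℂ) = Fintype.card Ω * Nat.card (stabilizer G a) := by
    rw [← Nat.cast_mul, ← Nat.card_eq_fintype_card, ← PermLib.card_eq_mul_card_stabilizer a]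
  rw [hcard, ← mul_assoc, mul_inv, mul_comm (Fintype.card Ω : ℂ)⁻¹, mul_assoc _ _ (Fintype.card Ω : ℂ),
    inv_mul_cancel₀ (Nat.cast_ne_zero.mpr (Fintype.card_pos_iff.2 ⟨a⟩).ne'), mul_one, h] at h1
  exact_mod_cast h1

theorem fs_one_of_constituent {χ : G → ℂ} (hχ : IsIrrCharacter G χ)
    (hreal : ∀ g, conj (χ g) = χ g)
    (h1 : classInner (Char.permChar (G := G) Ω) χ = 1) (a : Ω) :
    (Nat.card G : ℂ)⁻¹ * ∑ s : G, χ (s * s) = 1 := by
  classical
  obtain ⟨n, ρ, hρ, hρχ⟩ := id hχ
  let A : G →* Matrix (Fin n) (Fin n) ℂ :=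
    (LinearMap.toMatrixAlgEquiv' (R := ℂ) (n := Fin n)).toMonoidHom.comp ρ
  have hA : ∀ g, Matrix.trace (A g) = χ g := fun g => by
    rw [← hρχ, Representation.character, LinearMap.trace_eq_matrix_trace ℂ (Pi.basisFun ℂ (Fin n))]
    rfl
  let A' : G →* Matrix (Fin n) (Fin n) ℂ :=
    ((starRingEnd ℂ).mapMatrix (m := Fin n)).toMonoidHom.comp A
  have hA' : ∀ g, Matrix.trace (A' g) = χ g := fun g => by
    rw [← hreal g, ← hA g, AddMonoidHom.map_trace]
    rfl
  have hchar : (matRep A).character = (matRep A').character := funext fun g => by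
    rw [matRep_character, matRep_character, hA, hA']
  obtain ⟨J⟩ := Char.equiv_of_character_eq (matRep A) (matRep A') hchar
  have hJ : ∀ g v, J.toLinearEquiv (A g *ᵥ v) = A' g *ᵥ J.toLinearEquiv v := fun g v =>
    J.toIntertwiningMap.isIntertwining' g |> fun h => LinearMap.congr_fun h v
  obtain ⟨⟨v₀, hv₀⟩, hv₀0, -⟩ :=
    finrank_eq_one_iff'.mp (dim_fixed_stabilizer A hχ hA hreal h1 a)
  obtain ⟨⟨w₀, hw₀⟩, hw₀0, hspan⟩ :=
    finrank_eq_one_iff'.mp (dim_fixed_stabilizer A' hχ hA' hreal h1 a)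
  have hconjmul : ∀ g (v : Fin n → ℂ), (fun i => conj ((A g *ᵥ v) i)) = A' g *ᵥ fun i => conj (v i) := by
    intro g v
    funext i
    simp [A', Matrix.mulVec, dotProduct, map_sum]
  have hcfix : (fun i => conj (v₀ i)) ∈
      Representation.invariants ((matRep A').comp (stabilizer G a).subtype) := fun s => by
    show A' (s : G) *ᵥ _ = _
    rw [← hconjmul]
    have := hv₀ s
    funext i
    exact congrArg conj (congrFun this i)
  have hJfix : J.toLinearEquiv v₀ ∈
      Representation.invariants ((matRep A').comp (stabilizer G a).subtype) := fun s => by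
    show A' (s : G) *ᵥ _ = _
    rw [← hJ]
    exact congrArg _ (hv₀ s)
  obtain ⟨α, hα⟩ := hspan ⟨_, hcfix⟩
  obtain ⟨β, hβ⟩ := hspan ⟨_, hJfix⟩
  have hα' : α • w₀ = fun i => conj (v₀ i) := congrArg Subtype.val hα
  have hβ' : β • w₀ = J.toLinearEquiv v₀ := congrArg Subtype.val hβ
  have hv₀ne : v₀ ≠ 0 := fun h => hv₀0 (Subtype.ext h)
  have hβ0 : β ≠ 0 := fun h => hv₀ne (J.toLinearEquiv.injective (by rw [← hβ', h, zero_smul, map_zero]))
  choose t ht using fun x => exists_smul_eq G a x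
  let F : Ω → Fin n → ℂ := fun x => A (t x) *ᵥ v₀
  have hF : ∀ (g : G) x, F (g • x) = A g *ᵥ F x := by
    intro g x
    have hs : ((g * t x)⁻¹ * t (g • x)) ∈ stabilizer G a := by
      rw [mem_stabilizer_iff, mul_smul, ht, inv_smul_eq_iff, mul_smul, ht]
    have hfix : A ((g * t x)⁻¹ * t (g • x)) *ᵥ v₀ = v₀ := hv₀ ⟨_, hs⟩
    show A (t (g • x)) *ᵥ v₀ = A g *ᵥ (A (t x) *ᵥ v₀)
    rw [Matrix.mulVec_mulVec, ← map_mul]
    conv_rhs => rw [← hfix, Matrix.mulVec_mulVec, ← map_mul, mul_inv_cancel_left]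
  set c := α / β with hc
  have hconjF : ∀ x, (fun i => conj (F x i)) = c • J.toLinearEquiv (F x) := by
    intro x
    have hv : (fun i => conj (v₀ i)) = c • J.toLinearEquiv v₀ := by
      rw [← hα', ← hβ', smul_smul, hc, div_mul_cancel₀ _ hβ0]
    show (fun i => conj ((A (t x) *ᵥ v₀) i)) = c • J.toLinearEquiv (A (t x) *ᵥ v₀)
    rw [hconjmul, hv, hJ, Matrix.mulVec_smul]
  let U : Matrix (Fin n) (Fin n) ℂ := fun i j => ∑ x, F x i * F x j
  have hsymm : Uᵀ = U := by
    ext i j
    exact Finset.sum_congr rfl fun x _ => mul_comm _ _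
  have hUinv : ∀ g, A g * U * (A g)ᵀ = U := by
    intro g
    have hvec : U = ∑ x, Matrix.vecMulVec (F x) (F x) := by
      ext i j
      simp [U, Matrix.sum_apply, Matrix.vecMulVec_apply]
    rw [hvec, Matrix.mul_sum, Matrix.sum_mul]
    refine Fintype.sum_equiv (toPerm g) _ _ fun x => ?_
    rw [toPerm_apply, hF, Matrix.mul_vecMulVec, Matrix.vecMulVec_mul, Matrix.vecMul_transpose]
  have hU0 : U ≠ 0 := by
    intro hU
    apply hv₀ne
    let Jm := LinearMap.toMatrix' (J.toLinearEquiv : (Fin n → ℂ) →ₗ[ℂ] (Fin n → ℂ))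
    have hJm : ∀ v, J.toLinearEquiv v = Jm *ᵥ v := fun v => (LinearMap.toMatrix'_mulVec _ v).symm
    have hzero : ∀ i, ∑ x, F x i * conj (F x i) = 0 := by
      intro i
      simp_rw [fun x => congrFun (hconjF x) i, Pi.smul_apply, hJm, smul_eq_mul, Matrix.mulVec,
        dotProduct, Finset.mul_sum]
      rw [Finset.sum_comm]
      refine Finset.sum_eq_zero fun j _ => ?_
      have h0 : ∑ x, F x i * F x j = 0 := congrFun (congrFun hU i) j
      calc ∑ x, F x i * (c * (Jm i j * F x j)) = c * Jm i j * ∑ x, F x i * F x j := by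
            rw [Finset.mul_sum]; exact Finset.sum_congr rfl fun x _ => by ring
        _ = 0 := by rw [h0, mul_zero]
    funext i
    have h := hzero i
    simp only [Complex.mul_conj] at h
    rw [← Complex.ofReal_sum, Complex.ofReal_eq_zero,
      Finset.sum_eq_zero_iff_of_nonneg fun x _ => Complex.normSq_nonneg _] at h
    have hFa : F a = v₀ := by
      show A (t a) *ᵥ v₀ = v₀
      exact hv₀ ⟨t a, ht a⟩
    have := Complex.normSq_eq_zero.1 (h a (Finset.mem_univ a))
    rw [hFa] at this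
    exact this
  have hsq : (Nat.card G : ℂ)⁻¹ * ∑ g, Matrix.trace (A g) ^ 2 = 1 := by
    rw [← Char.classInner_irr_self hχ]
    simp only [classInner, hA, hreal, sq]
  have := fs_one A hsq U hU0 hsymm hUinv
  simpa only [hA] using this

end Cfsg.Agent.PermP

namespace Cfsg.Agent.PermP

universe u' v'

variable {G : Type u'} [Group G] [Fintype G] {Ω : Type v'} [Fintype Ω] [MulAction G Ω]

/-- Counting the elements swapping and the elements fixing a pair. -/
theorem swap_count_le (x y : Ω) :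
    Nat.card {g : G // g • x = y ∧ g • y = x} ≤ Nat.card {g : G // g • x = x ∧ g • y = y} ∧
    (Nat.card {g : G // g • x = y ∧ g • y = x} = Nat.card {g : G // g • x = x ∧ g • y = y} ↔
      ∃ g : G, g • x = y ∧ g • y = x) := by
  by_cases h : ∃ g : G, g • x = y ∧ g • y = x
  · obtain ⟨t, h1, h2⟩ := h
    have e : Nat.card {g : G // g • x = y ∧ g • y = x} =
        Nat.card {g : G // g • x = x ∧ g • y = y} := by
      refine Nat.card_congr ⟨fun g => ⟨t⁻¹ * g, ?_, ?_⟩, fun g => ⟨t * g, ?_, ?_⟩, ?_, ?_⟩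
      · rw [mul_smul, g.2.1, inv_smul_eq_iff, h1]
      · rw [mul_smul, g.2.2, inv_smul_eq_iff, h2]
      · rw [mul_smul, g.2.1, h1]
      · rw [mul_smul, g.2.2, h2]
      · intro g; exact Subtype.ext (mul_inv_cancel_left t (g : G))
      · intro g; exact Subtype.ext (inv_mul_cancel_left t (g : G))
    exact ⟨e.le, iff_of_true e ⟨t, h1, h2⟩⟩
  · haveI : IsEmpty {g : G // g • x = y ∧ g • y = x} := ⟨fun g => h ⟨g, g.2⟩⟩
    haveI : Nonempty {g : G // g • x = x ∧ g • y = y} := ⟨⟨1, one_smul G x, one_smul G y⟩⟩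
    have hpos : 0 < Nat.card {g : G // g • x = x ∧ g • y = y} := Nat.card_pos
    rw [Nat.card_of_isEmpty (α := {g : G // g • x = y ∧ g • y = x})]
    exact ⟨Nat.zero_le _, iff_of_false hpos.ne h⟩

theorem sum_permChar_swap :
    (∑ g : G, Char.permChar (G := G) Ω (g * g)) =
      ((∑ p : Ω × Ω, Nat.card {g : G // g • p.1 = p.2 ∧ g • p.2 = p.1} : ℕ) : ℂ) := by
  classical
  push_cast
  have e : ∀ g : G, Char.permChar (G := G) Ω (g * g) =
      ∑ p : Ω × Ω, if g • p.1 = p.2 ∧ g • p.2 = p.1 then (1 : ℂ) else 0 := by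
    intro g
    rw [Char.permChar, Finset.sum_boole, ← Fintype.card_subtype, Nat.card_eq_fintype_card]
    congr 1
    refine Fintype.card_congr ⟨fun x => ⟨((x : Ω), g • (x : Ω)), rfl, ?_⟩,
      fun p => ⟨p.1.1, ?_⟩, ?_, ?_⟩
    · have hx : (g * g) • (x : Ω) = x := x.2
      rwa [mul_smul] at hx
    · show (g * g) • p.1.1 = p.1.1
      rw [mul_smul, p.2.1, p.2.2]
    · intro x; rfl
    · intro p; exact Subtype.ext (Prod.ext rfl p.2.1)
  rw [Finset.sum_congr rfl fun g _ => e g, Finset.sum_comm]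
  refine Finset.sum_congr rfl fun p _ => ?_
  rw [Finset.sum_boole, Nat.card_eq_fintype_card, Fintype.card_subtype]

theorem sum_permChar_sq :
    (∑ g : G, Char.permChar (G := G) Ω g * Char.permChar (G := G) Ω g) =
      ((∑ p : Ω × Ω, Nat.card {g : G // g • p.1 = p.1 ∧ g • p.2 = p.2} : ℕ) : ℂ) := by
  classical
  push_cast
  have e : ∀ g : G, Char.permChar (G := G) Ω g * Char.permChar (G := G) Ω g =
      ∑ p : Ω × Ω, if g • p.1 = p.1 ∧ g • p.2 = p.2 then (1 : ℂ) else 0 := by
    intro g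
    rw [Finset.sum_boole, ← Fintype.card_subtype, ← Char.permChar_prod, Char.permChar,
      Nat.card_eq_fintype_card]
    congr 1
    refine Fintype.card_congr (Equiv.subtypeEquivRight fun p => ?_)
    exact Prod.ext_iff
  rw [Finset.sum_congr rfl fun g _ => e g, Finset.sum_comm]
  refine Finset.sum_congr rfl fun p _ => ?_
  rw [Finset.sum_boole, Nat.card_eq_fintype_card, Fintype.card_subtype]

theorem selfPaired_iff [MulAction.IsPretransitive G Ω] :
    (∀ a b : Ω, ∃ g : G, g • a = b ∧ g • b = a) ↔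
      ∀ χ : G → ℂ, IsIrrCharacter G χ → classInner (Char.permChar (G := G) Ω) χ ≠ 0 →
        classInner (Char.permChar (G := G) Ω) χ = 1 ∧ ∀ g : G, conj (χ g) = χ g := by
  classical
  obtain ⟨m, hm, hmi⟩ := Char.isCharacter_exists_coeff (Char.isCharacter_permChar (G := G) Ω)
  have htri : ∀ χ : IrrCharacter G, ∃ e : ℤ, e ≤ 1 ∧
      (Nat.card G : ℂ)⁻¹ * ∑ s : G, (χ : G → ℂ) (s * s) = e := by
    intro χ
    rcases (Char.frobeniusSchur_trichotomy χ.2).1 with h | h | h
    · exact ⟨0, by omega, by rw [h, Int.cast_zero]⟩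
    · exact ⟨1, le_rfl, by rw [h, Int.cast_one]⟩
    · exact ⟨-1, by omega, by rw [h, Int.cast_neg, Int.cast_one]⟩
  choose e he1 he using htri
  set S := ∑ p : Ω × Ω, Nat.card {g : G // g • p.1 = p.2 ∧ g • p.2 = p.1} with hS
  set R := ∑ p : Ω × Ω, Nat.card {g : G // g • p.1 = p.1 ∧ g • p.2 = p.2} with hR
  have hSe : (S : ℤ) = (Nat.card G : ℤ) * ∑ χ, (m χ : ℤ) * e χ := by
    have h : ((S : ℤ) : ℂ) = (((Nat.card G : ℤ) * ∑ χ, (m χ : ℤ) * e χ : ℤ) : ℂ) := by
      push_cast
      rw [hS, ← sum_permChar_swap, hm]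
      simp only [Finset.sum_apply, Pi.smul_apply, nsmul_eq_mul, Pi.mul_apply, Pi.natCast_apply]
      rw [Finset.sum_comm, Finset.mul_sum]
      refine Finset.sum_congr rfl fun χ _ => ?_
      rw [← Finset.mul_sum, ← he χ, mul_left_comm, mul_inv_cancel_left₀ Char.card_ne_zero_complex]
    exact_mod_cast h
  have hRe : (R : ℤ) = (Nat.card G : ℤ) * ∑ χ, (m χ : ℤ) * m χ := by
    have h : ((R : ℤ) : ℂ) = (((Nat.card G : ℤ) * ∑ χ, (m χ : ℤ) * m χ : ℤ) : ℂ) := by
      push_cast
      rw [hR, ← sum_permChar_sq]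
      have h2 : classInner (Char.permChar (G := G) Ω) (Char.permChar Ω) =
          ∑ χ : IrrCharacter G, (m χ : ℂ) * (m χ : ℂ) := by
        conv_lhs => arg 2; rw [hm]
        rw [Char.classInner_sum_right]
        refine Finset.sum_congr rfl fun χ _ => ?_
        rw [← Nat.cast_smul_eq_nsmul ℂ, Char.classInner_smul_right, hmi, Complex.conj_natCast]
      rw [← h2, classInner, mul_inv_cancel_left₀ Char.card_ne_zero_complex]
      refine Finset.sum_congr rfl fun g _ => ?_
      simp [Char.permChar]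
    exact_mod_cast h
  have hG0 : (Nat.card G : ℤ) ≠ 0 := by exact_mod_cast Nat.card_pos.ne'
  have hiff : (∀ a b : Ω, ∃ g : G, g • a = b ∧ g • b = a) ↔ S = R := by
    rw [hS, hR, Finset.sum_eq_sum_iff_of_le fun p _ => (swap_count_le p.1 p.2).1]
    constructor
    · exact fun h p _ => (swap_count_le p.1 p.2).2.2 (h p.1 p.2)
    · exact fun h a b => (swap_count_le a b).2.1 (h (a, b) (Finset.mem_univ _))
  rw [hiff, ← Nat.cast_inj (R := ℤ), hSe, hRe, mul_right_inj' hG0,
    Finset.sum_eq_sum_iff_of_le (fun χ _ => ?_)]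
  swap
  · rcases Nat.eq_zero_or_pos (m χ) with h | h
    · simp [h]
    · exact mul_le_mul_of_nonneg_left ((he1 χ).trans (by exact_mod_cast h)) (Int.natCast_nonneg _)
  constructor
  · intro h χ hχ hne
    have hm0 : m ⟨χ, hχ⟩ ≠ 0 := fun h0 => hne (by rw [hmi ⟨χ, hχ⟩, h0, Nat.cast_zero])
    have he' : e ⟨χ, hχ⟩ = m ⟨χ, hχ⟩ :=
      mul_left_cancel₀ (by exact_mod_cast hm0) (h ⟨χ, hχ⟩ (Finset.mem_univ _))
    have hm1 : m ⟨χ, hχ⟩ = 1 := by
      have := he1 ⟨χ, hχ⟩
      omega
    refine ⟨by rw [hmi ⟨χ, hχ⟩, hm1, Nat.cast_one], fun g => ?_⟩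
    rw [Complex.conj_eq_iff_im]
    by_contra him
    have h0 := (Char.frobeniusSchur_trichotomy hχ).2.2 ⟨g, him⟩
    rw [he ⟨χ, hχ⟩, he', hm1] at h0
    norm_num at h0
  · intro h χ _
    rcases Nat.eq_zero_or_pos (m χ) with h0 | h0
    · simp [h0]
    obtain ⟨h1, hreal⟩ := h χ χ.2 (by rw [hmi, Nat.cast_ne_zero]; omega)
    have hm1 : m χ = 1 := by rw [hmi] at h1; exact_mod_cast h1
    have hne : Nonempty Ω := by
      by_contra hΩ
      rw [not_nonempty_iff] at hΩ
      have : Char.permChar (G := G) Ω = 0 := funext fun g => by simp [Char.permChar]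
      rw [this, Char.classInner_zero_left] at h1
      exact zero_ne_one h1
    obtain ⟨a⟩ := hne
    have he' : (e χ : ℂ) = 1 := by rw [← he]; exact fs_one_of_constituent χ.2 hreal h1 a
    have : e χ = 1 := by exact_mod_cast he'
    simp [this, hm1]

end Cfsg.Agent.PermP
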