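import Mathlib

/-!
Witt's extension lemma for multiply transitive groups.
-/

set_option autoImplicit false

namespace Cfsg.Agent.PermP

open MulAction

variable {α : Type*}

/-- The tower of groups: the stabiliser of `q 2`, then adjoin `s 1`, `s 2`, ... in turn. -/
def wittTower (L : Subgroup (Equiv.Perm α)) (s : ℕ → Equiv.Perm α) : ℕ → Subgroup (Equiv.Perm α)
  | 0 => L
  | 1 => L
  | m + 2 => Subgroup.closure ((wittTower L s (m + 1) : Set (Equiv.Perm α)) ∪ {s (m + 1)})

theorem wittTower_succ (L : Subgroup (Equiv.Perm α)) (s : ℕ → Equiv.Perm α) {m : ℕ} (hm : 1 ≤ m) :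
    wittTower L s (m + 1) = Subgroup.closure ((wittTower L s m : Set (Equiv.Perm α)) ∪ {s m}) := by
  obtain ⟨k, rfl⟩ := Nat.exists_eq_add_of_le' hm
  rw [wittTower]

theorem le_wittTower (L : Subgroup (Equiv.Perm α)) (s : ℕ → Equiv.Perm α) :
    ∀ {m n : ℕ}, 1 ≤ m → m ≤ n → wittTower L s m ≤ wittTower L s n := by
  intro m n hm hmn
  induction hmn with
  | refl => exact le_rfl
  | @step n hn ih =>
    refine ih.trans ?_
    rw [wittTower_succ L s (hm.trans hn)]
    exact fun x hx => Subgroup.subset_closure (Or.inl hx)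

/-- A conjugation mapping a finite subgroup into itself preserves it. -/
theorem conj_mem_iff_of_finite [Finite α] {L : Subgroup (Equiv.Perm α)} {s : Equiv.Perm α}
    (h : ∀ x ∈ L, s * x * s⁻¹ ∈ L) : ∀ x ∈ L, s⁻¹ * x * s ∈ L := by
  intro x hx
  have hbij : Function.Surjective (fun y : L => (⟨s * y * s⁻¹, h y y.2⟩ : L)) := by
    refine Finite.injective_iff_surjective.1 fun a b hab => Subtype.ext ?_
    have := congrArg Subtype.val hab
    simpa using this
  obtain ⟨y, hy⟩ := hbij ⟨x, hx⟩
  have hy' : s * (y : Equiv.Perm α) * s⁻¹ = x := congrArg Subtype.val hy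
  rw [← hy']
  simpa [mul_assoc] using y.2

/-- Bruhat-type decomposition: `L ∪ L s L` is the group generated by `L` and `s`. -/
theorem mem_closure_cases [Finite α] {L : Subgroup (Equiv.Perm α)} {s : Equiv.Perm α}
    (hs2 : s * s ∈ L)
    (hss : ∀ b ∈ L, s * b * s ∈ L ∨ ∃ c ∈ L, ∃ d ∈ L, s * b * s = c * s * d)
    {g : Equiv.Perm α} (hg : g ∈ Subgroup.closure ((L : Set (Equiv.Perm α)) ∪ {s})) :
    g ∈ L ∨ ∃ c ∈ L, ∃ d ∈ L, g = c * s * d := by
  rw [← Subgroup.mem_toSubmonoid, Subgroup.closure_toSubmonoid_of_finite] at hg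
  induction hg using Submonoid.closure_induction_left with
  | one => exact Or.inl L.one_mem
  | mul_left x hx y _ ih =>
    rcases hx with hx | hx
    · rcases ih with ih | ⟨c, hc, d, hd, rfl⟩
      · exact Or.inl (L.mul_mem hx ih)
      · exact Or.inr ⟨x * c, L.mul_mem hx hc, d, hd, by simp [mul_assoc]⟩
    · rw [Set.mem_singleton_iff] at hx
      subst hx
      rcases ih with ih | ⟨c, hc, d, hd, rfl⟩
      · exact Or.inr ⟨1, L.one_mem, y, ih, by rw [one_mul]⟩
      · rcases hss c hc with h | ⟨c', hc', d', hd', h⟩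
        · refine Or.inl ?_
          rw [show x * (c * x * d) = x * c * x * d by simp [mul_assoc]]
          exact L.mul_mem h hd
        · refine Or.inr ⟨c', hc', d' * d, L.mul_mem hd' hd, ?_⟩
          rw [show x * (c * x * d) = x * c * x * d by simp [mul_assoc], h]
          simp [mul_assoc]

theorem witt_extension [Finite α] (t : ℕ) (ht : 2 ≤ t) (q : ℕ → α)
    (hq : ∀ i j : ℕ, 1 ≤ i → i ≤ t → 1 ≤ j → j ≤ t → q i = q j → i = j)
    (G : Subgroup (Equiv.Perm α))
    (hfix : ∀ g ∈ G, ∀ i : ℕ, 3 ≤ i → i ≤ t → g (q i) = q i)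
    (h2 : ∀ a b c d : α, (∀ i, 3 ≤ i → i ≤ t → a ≠ q i ∧ b ≠ q i ∧ c ≠ q i ∧ d ≠ q i) →
      a ≠ b → c ≠ d → ∃ g ∈ G, g a = c ∧ g b = d)
    (s : ℕ → Equiv.Perm α) (hs1 : s 1 ∈ G) (hs1q : s 1 (q 1) = q 2 ∧ s 1 (q 2) = q 1)
    (hsq : ∀ i : ℕ, 2 ≤ i → i + 1 ≤ t → s i (q i) = q (i + 1) ∧ s i (q (i + 1)) = q i ∧
      ∀ j : ℕ, 1 ≤ j → j ≤ t → j ≠ i → j ≠ i + 1 → s i (q j) = q j)
    (H : Subgroup (Equiv.Perm α))
    (hH : H = G ⊓ stabilizer (Equiv.Perm α) (q 1) ⊓ stabilizer (Equiv.Perm α) (q 2))
    (hsq2 : ∀ i : ℕ, 1 ≤ i → i + 1 ≤ t → s i ^ 2 ∈ H)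
    (hbraid : ∀ i : ℕ, 1 ≤ i → i + 2 ≤ t → (s i * s (i + 1)) ^ 3 ∈ H)
    (hcomm : ∀ i j : ℕ, 1 ≤ i → i + 2 ≤ j → j + 1 ≤ t →
      (s i * s j) ^ 2 ∈ H ∧ (s j * s i) ^ 2 ∈ H)
    (hnorm : ∀ i : ℕ, 2 ≤ i → i + 1 ≤ t → ∀ g ∈ G ⊓ stabilizer (Equiv.Perm α) (q 2),
      s i * g * (s i)⁻¹ ∈ G ⊓ stabilizer (Equiv.Perm α) (q 2)) :
    IsMultiplyPretransitive ↥(Subgroup.closure ((G : Set (Equiv.Perm α)) ∪
        {x | ∃ i : ℕ, 2 ≤ i ∧ i + 1 ≤ t ∧ x = s i})) α t ∧
      Subgroup.closure ((G : Set (Equiv.Perm α)) ∪ {x | ∃ i : ℕ, 2 ≤ i ∧ i + 1 ≤ t ∧ x = s i}) ⊓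
        fixingSubgroup (Equiv.Perm α) {x | ∃ i : ℕ, 1 ≤ i ∧ i ≤ t ∧ x = q i} = H := by
  classical
  set L1 : Subgroup (Equiv.Perm α) := G ⊓ stabilizer (Equiv.Perm α) (q 2) with hL1
  set L := wittTower L1 s with hL
  have hL1' : L 1 = L1 := rfl
  have hHL1 : H ≤ L1 := by
    rw [hH]; exact le_inf (inf_le_left.trans inf_le_left) inf_le_right
  have hHL : ∀ m, 1 ≤ m → H ≤ L m := fun m hm => hHL1.trans (le_wittTower L1 s le_rfl hm)
  have hsmem : ∀ m, 1 ≤ m → s m ∈ L (m + 1) := fun m hm => by
    rw [hL, wittTower_succ _ _ hm]; exact Subgroup.subset_closure (Or.inr rfl)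
  have hfree : ∀ a : α, (∀ i, 2 ≤ i → i ≤ t → a ≠ q i) → ∀ c : α, (∀ i, 2 ≤ i → i ≤ t → c ≠ q i) →
      ∃ g ∈ L1, g a = c := by
    intro a ha c hc
    have hq2 : ∀ i, 3 ≤ i → i ≤ t → q 2 ≠ q i := fun i h3 hi e => by
      have := hq 2 i (by omega) ht (by omega) hi e; omega
    obtain ⟨g, hg, hga, hgb⟩ := h2 a (q 2) c (q 2)
      (fun i h3 hi => ⟨ha i (by omega) hi, hq2 i h3 hi, hc i (by omega) hi, hq2 i h3 hi⟩)
      (ha 2 le_rfl ht) (hc 2 le_rfl ht)
    exact ⟨g, ⟨hg, hgb⟩, hga⟩
  -- elements of `L m` fix the later points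
  have hLfix : ∀ m, 1 ≤ m → m ≤ t → ∀ g ∈ L m, ∀ i, m + 1 ≤ i → i ≤ t → g (q i) = q i := by
    intro m hm
    induction m, hm using Nat.le_induction with
    | base =>
      intro _ g hg i hi hit
      rw [hL1'] at hg
      rcases Nat.lt_or_ge i 3 with h3 | h3
      · obtain rfl : i = 2 := by omega
        exact hg.2
      · exact hfix g hg.1 i h3 hit
    | succ m hm ih =>
      intro hmt g hg i hi hit
      have hle : L (m + 1) ≤ stabilizer (Equiv.Perm α) (q i) := by
        rw [hL, wittTower_succ _ _ hm, Subgroup.closure_le]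
        rintro x (hx | hx)
        · exact ih (by omega) x hx i (by omega) hit
        · rw [Set.mem_singleton_iff] at hx
          subst hx
          show s m (q i) = q i
          rcases Nat.lt_or_ge m 2 with h2m | h2m
          · obtain rfl : m = 1 := by omega
            exact hfix _ hs1 i (by omega) hit
          · exact (hsq m h2m (by omega)).2.2 i (by omega) hit (by omega) (by omega)
      exact hle hg
  -- later generators normalise `L m`
  have hLnorm : ∀ m, 1 ≤ m → ∀ j, m + 1 ≤ j → j + 1 ≤ t → ∀ g ∈ L m, s j * g * (s j)⁻¹ ∈ L m := by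
    intro m hm
    induction m, hm using Nat.le_induction with
    | base => intro j hj hjt g hg; exact hnorm j (by omega) hjt g hg
    | succ m hm ih =>
      intro j hj hjt g hg
      have hle : L (m + 1) ≤ (L (m + 1)).comap (MulAut.conj (s j)).toMonoidHom := by
        conv_lhs => rw [hL, wittTower_succ _ _ hm]
        rw [Subgroup.closure_le]
        rintro x (hx | hx)
        · exact le_wittTower L1 s hm (Nat.le_succ m) (ih j (by omega) hjt x hx)
        · rw [Set.mem_singleton_iff] at hx
          subst hx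
          show s j * s m * (s j)⁻¹ ∈ L (m + 1)
          have h := (hcomm m j hm (by omega) hjt).1
          rw [sq] at h
          have h2j := hsq2 j (by omega) hjt
          rw [sq] at h2j
          have he : s j * s m * (s j)⁻¹ =
              (s m)⁻¹ * ((s m * s j) * (s m * s j)) * (s j * s j)⁻¹ := by simp [mul_assoc]
          rw [he]
          exact mul_mem (mul_mem (inv_mem (hsmem m hm)) (hHL _ (by omega) h))
            (inv_mem (hHL _ (by omega) h2j))
      exact hle hg
  -- the decomposition
  have hdec : ∀ m, 1 ≤ m → m + 1 ≤ t → ∀ g ∈ L (m + 1),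
      g ∈ L m ∨ ∃ c ∈ L m, ∃ d ∈ L m, g = c * s m * d := by
    intro m hm
    induction m, hm using Nat.le_induction with
    | base =>
      intro _ g hg
      have hgG : g ∈ G := by
        have hle : L 2 ≤ G := by
          rw [hL, wittTower_succ _ _ le_rfl, Subgroup.closure_le]
          rintro x (hx | hx)
          · exact hx.1
          · rw [Set.mem_singleton_iff] at hx; subst hx; exact hs1
        exact hle hg
      by_cases hg2 : g (q 2) = q 2
      · exact Or.inl ⟨hgG, hg2⟩
      right
      have hfree' : ∀ i, 2 ≤ i → i ≤ t → g (q 2) ≠ q i := by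
        intro i h2i hit
        rcases Nat.lt_or_ge i 3 with h3 | h3
        · obtain rfl : i = 2 := by omega
          exact hg2
        · intro e
          rw [← hfix g hgG i h3 hit] at e
          have := hq 2 i (by omega) ht (by omega) hit (g.injective e)
          omega
      obtain ⟨c, hc, hcq⟩ := hfree (q 1)
        (fun i h2i hit e => by have := hq 1 i le_rfl (by omega) (by omega) hit e; omega) _ hfree'
      refine ⟨c, hc, (s 1)⁻¹ * c⁻¹ * g, ⟨?_, ?_⟩, by simp [mul_assoc]⟩
      · exact G.mul_mem (G.mul_mem (G.inv_mem hs1) (G.inv_mem hc.1)) hgG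
      · show (s 1).symm (c.symm (g (q 2))) = q 2
        rw [← hcq, Equiv.symm_apply_apply, Equiv.symm_apply_eq, hs1q.2]
    | succ m hm ih =>
      intro hmt g hg
      rw [hL, wittTower_succ _ _ (show 1 ≤ m + 1 by omega)] at hg
      have hsm2 : s (m + 1) * s (m + 1) ∈ H := sq (s (m + 1)) ▸ hsq2 (m + 1) (by omega) hmt
      refine mem_closure_cases (hHL _ (by omega) hsm2) (fun b hb => ?_) hg
      have hn := hLnorm m hm (m + 1) le_rfl hmt
      rcases ih (by omega) b hb with hb' | ⟨c, hc, d, hd, rfl⟩
      · left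
        rw [show s (m + 1) * b * s (m + 1) =
          (s (m + 1) * b * (s (m + 1))⁻¹) * (s (m + 1) * s (m + 1)) by simp [mul_assoc]]
        exact mul_mem (le_wittTower L1 s hm (Nat.le_succ m) (hn b hb')) (hHL _ (by omega) hsm2)
      · right
        set x := s (m + 1)
        set r := s m
        have hbr : (r * x) * ((r * x) * (r * x)) ∈ H := by
          have := hbraid m hm (by omega)
          rwa [pow_succ', sq] at this
        refine ⟨(x * c * x⁻¹) * r⁻¹ * ((r * x) * ((r * x) * (r * x))), ?_,
          (x * x)⁻¹ * r⁻¹ * (x⁻¹ * d * x), ?_, by simp [mul_assoc]⟩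
        · exact mul_mem (mul_mem (le_wittTower L1 s hm (Nat.le_succ m) (hn c hc))
            (inv_mem (hsmem m hm))) (hHL _ (by omega) hbr)
        · exact mul_mem (mul_mem (inv_mem (hHL _ (by omega) hsm2)) (inv_mem (hsmem m hm)))
            (le_wittTower L1 s hm (Nat.le_succ m) (conj_mem_iff_of_finite hn d hd))
  -- identify the group
  set X := Subgroup.closure ((G : Set (Equiv.Perm α)) ∪ {x | ∃ i : ℕ, 2 ≤ i ∧ i + 1 ≤ t ∧ x = s i})
  have hXL : X = L t := by
    apply le_antisymm
    · rw [Subgroup.closure_le]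
      rintro x (hx | ⟨i, hi, hit, rfl⟩)
      · refine le_wittTower L1 s (show 1 ≤ 2 by omega) ht ?_
        have hx' : x ∈ G := hx
        by_cases hx2 : x (q 2) = q 2
        · exact le_wittTower L1 s le_rfl (Nat.le_succ 1) ⟨hx', hx2⟩
        · have hfree' : ∀ i, 2 ≤ i → i ≤ t → x (q 2) ≠ q i := by
            intro i h2i hit
            rcases Nat.lt_or_ge i 3 with h3 | h3
            · obtain rfl : i = 2 := by omega
              exact hx2
            · intro e
              rw [← hfix x hx' i h3 hit] at e
              have := hq 2 i (by omega) ht (by omega) hit (x.injective e)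
              omega
          obtain ⟨c, hc, hcq⟩ := hfree (q 1)
            (fun i h2i hit e => by have := hq 1 i le_rfl (by omega) (by omega) hit e; omega) _ hfree'
          have hmem : (s 1)⁻¹ * c⁻¹ * x ∈ L 1 := by
            refine ⟨G.mul_mem (G.mul_mem (G.inv_mem hs1) (G.inv_mem hc.1)) hx', ?_⟩
            show (s 1).symm (c.symm (x (q 2))) = q 2
            rw [← hcq, Equiv.symm_apply_apply, Equiv.symm_apply_eq, hs1q.2]
          have : x = c * s 1 * ((s 1)⁻¹ * c⁻¹ * x) := by simp [mul_assoc]
          rw [this]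
          exact mul_mem (mul_mem (le_wittTower L1 s le_rfl (Nat.le_succ 1) hc) (hsmem 1 le_rfl))
            (le_wittTower L1 s le_rfl (Nat.le_succ 1) hmem)
      · exact le_wittTower L1 s (show 1 ≤ i + 1 by omega) hit (hsmem i (by omega))
    · have hle : ∀ m, 1 ≤ m → m ≤ t → L m ≤ X := by
        intro m hm
        induction m, hm using Nat.le_induction with
        | base => exact fun _ x hx => Subgroup.subset_closure (Or.inl hx.1)
        | succ m hm ih =>
          intro hmt
          rw [hL, wittTower_succ _ _ hm, Subgroup.closure_le]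
          rintro x (hx | hx)
          · exact ih (by omega) hx
          · rw [Set.mem_singleton_iff] at hx; subst hx
            rcases Nat.lt_or_ge m 2 with h2m | h2m
            · obtain rfl : m = 1 := by omega
              exact Subgroup.subset_closure (Or.inl hs1)
            · exact Subgroup.subset_closure (Or.inr ⟨m, h2m, hmt, rfl⟩)
      exact hle t (by omega) le_rfl
  rw [hXL]
  constructor
  · -- transitivity on tuples
    have hmove : ∀ m, 1 ≤ m → m ≤ t → ∀ f : ℕ → α,
        (∀ i j, 1 ≤ i → i ≤ m → 1 ≤ j → j ≤ m → f i = f j → i = j) →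
        (∀ i j, 1 ≤ i → i ≤ m → m + 1 ≤ j → j ≤ t → f i ≠ q j) →
        ∃ g ∈ L m, ∀ i, 1 ≤ i → i ≤ m → g (q i) = f i := by
      intro m hm
      induction m, hm using Nat.le_induction with
      | base =>
        intro _ f _ hf
        obtain ⟨g, hg, hgq⟩ := hfree (q 1)
          (fun i h2i hit e => by have := hq 1 i le_rfl (by omega) (by omega) hit e; omega) (f 1)
          (fun i h2i hit => hf 1 i le_rfl le_rfl (by omega) hit)
        refine ⟨g, hg, fun i h1 h2 => ?_⟩
        obtain rfl : i = 1 := by omega
        exact hgq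
      | succ m hm ih =>
        intro hmt f hinj hf
        -- move `q (m + 1)` to `f (m + 1)`
        obtain ⟨g₀, hg₀, hg₀q⟩ : ∃ g ∈ L (m + 1), g (q (m + 1)) = f (m + 1) := by
          by_cases he : f (m + 1) = q (m + 1)
          · exact ⟨1, one_mem _, he.symm⟩
          · let f' : ℕ → α := fun i => if i = m then f (m + 1) else q i
            have hfree1 : ∀ j, m + 1 ≤ j → j ≤ t → f (m + 1) ≠ q j := by
              intro j hj hjt
              rcases Nat.lt_or_ge j (m + 2) with h | h
              · obtain rfl : j = m + 1 := by omega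
                exact he
              · exact hf (m + 1) j (by omega) le_rfl h hjt
            by_cases hin : ∃ i, 1 ≤ i ∧ i ≤ m ∧ f (m + 1) = q i
            · obtain ⟨i, hi1, him, hie⟩ := hin
              let f'' : ℕ → α := fun l => Equiv.swap (q i) (q m) (q l)
              obtain ⟨a, ha, haq⟩ := ih (by omega) f''
                (fun x y hx1 hx2 hy1 hy2 e => hq x y hx1 (by omega) hy1 (by omega)
                  ((Equiv.swap (q i) (q m)).injective e))
                (fun x j hx1 hx2 hj hjt e => by
                  have hne1 : q j ≠ q i := fun e' => by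
                    have := hq j i (by omega) hjt hi1 (by omega) e'; omega
                  have hne2 : q j ≠ q m := fun e' => by
                    have := hq j m (by omega) hjt hm (by omega) e'; omega
                  have h3 : q x = q j := (Equiv.swap (q i) (q m)).injective
                    (e.trans (Equiv.swap_apply_of_ne_of_ne hne1 hne2).symm)
                  have := hq x j hx1 (by omega) (by omega) hjt h3
                  omega)
              refine ⟨a * s m, mul_mem (le_wittTower L1 s hm (Nat.le_succ m) ha) (hsmem m hm), ?_⟩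
              show a (s m (q (m + 1))) = f (m + 1)
              have hsm : s m (q (m + 1)) = q m := by
                rcases Nat.lt_or_ge m 2 with h2m | h2m
                · obtain rfl : m = 1 := by omega
                  exact hs1q.2
                · exact (hsq m h2m hmt).2.1
              rw [hsm, haq m hm le_rfl, hie]
              exact Equiv.swap_apply_right _ _
            · push Not at hin
              obtain ⟨a, ha, haq⟩ := ih (by omega) f'
                (fun x y hx1 hx2 hy1 hy2 e => by
                  by_cases hx : x = m <;> by_cases hy : y = m <;> simp only [f', hx, hy, if_true, if_false] at e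
                  · omega
                  · exact absurd e (hin y hy1 hy2)
                  · exact absurd e.symm (hin x hx1 hx2)
                  · exact hq x y hx1 (by omega) hy1 (by omega) e)
                (fun x j hx1 hx2 hj hjt e => by
                  by_cases hx : x = m <;> simp only [f', hx, if_true, if_false] at e
                  · exact hfree1 j hj hjt e
                  · have := hq x j hx1 (by omega) (by omega) hjt e; omega)
              refine ⟨a * s m, mul_mem (le_wittTower L1 s hm (Nat.le_succ m) ha) (hsmem m hm), ?_⟩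
              show a (s m (q (m + 1))) = f (m + 1)
              have hsm : s m (q (m + 1)) = q m := by
                rcases Nat.lt_or_ge m 2 with h2m | h2m
                · obtain rfl : m = 1 := by omega
                  exact hs1q.2
                · exact (hsq m h2m hmt).2.1
              rw [hsm, haq m hm le_rfl]
              simp [f']
        obtain ⟨g₁, hg₁, hg₁q⟩ := ih (by omega) (fun i => g₀⁻¹ (f i))
          (fun x y hx1 hx2 hy1 hy2 e => hinj x y hx1 (by omega) hy1 (by omega) (g₀⁻¹.injective e))
          (fun x j hx1 hx2 hj hjt e => by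
            have e' : f x = g₀ (q j) := Equiv.symm_apply_eq _ |>.1 e
            rcases Nat.lt_or_ge j (m + 2) with h | h
            · obtain rfl : j = m + 1 := by omega
              rw [hg₀q] at e'
              have := hinj x (m + 1) hx1 (by omega) (by omega) le_rfl e'
              omega
            · rw [hLfix (m + 1) (by omega) hmt g₀ hg₀ j h hjt] at e'
              exact hf x j hx1 (by omega) h hjt e')
        refine ⟨g₀ * g₁, mul_mem hg₀ (le_wittTower L1 s hm (Nat.le_succ m) hg₁), fun i hi1 hi2 => ?_⟩
        show g₀ (g₁ (q i)) = f i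
        rcases Nat.lt_or_ge i (m + 1) with h | h
        · rw [hg₁q i hi1 (by omega)]
          exact Equiv.apply_symm_apply _ _
        · obtain rfl : i = m + 1 := by omega
          rw [hLfix m hm (by omega) g₁ hg₁ (m + 1) le_rfl hmt, hg₀q]
    rw [isMultiplyPretransitive_iff]
    have hbase : ∀ x : Fin t ↪ α, ∃ g ∈ L t, ∀ i : Fin t, g (q ((i : ℕ) + 1)) = x i := by
      intro x
      let f : ℕ → α := fun i => if h : i - 1 < t then x ⟨i - 1, h⟩ else q i
      obtain ⟨g, hg, hgq⟩ := hmove t (by omega) le_rfl f
        (fun i j hi1 hi2 hj1 hj2 e => by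
          simp only [f, dif_pos (show i - 1 < t by omega), dif_pos (show j - 1 < t by omega)] at e
          have := congrArg Fin.val (x.injective e)
          simp only at this
          omega)
        (fun i j hi1 hi2 hj hjt => absurd hjt (by omega))
      refine ⟨g, hg, fun i => ?_⟩
      rw [hgq ((i : ℕ) + 1) (by omega) (by omega)]
      simp [f]
    intro x y
    obtain ⟨g, hg, hgx⟩ := hbase x
    obtain ⟨g', hg', hgy⟩ := hbase y
    refine ⟨⟨g' * g⁻¹, mul_mem hg' (inv_mem hg)⟩, Function.Embedding.ext fun i => ?_⟩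
    show g' (g.symm (x i)) = y i
    rw [← hgx i, Equiv.symm_apply_apply, hgy i]
  · apply le_antisymm
    · rintro g ⟨hg, hgf'⟩
      have hgf : ∀ y ∈ {x | ∃ i : ℕ, 1 ≤ i ∧ i ≤ t ∧ x = q i}, g y = y :=
        (mem_fixingSubgroup_iff _).1 hgf'
      have hdown : ∀ m, 1 ≤ m → m ≤ t → g ∈ L m → g ∈ L1 := by
        intro m hm
        induction m, hm using Nat.le_induction with
        | base => exact fun _ h => h
        | succ m hm ih =>
          intro hmt h
          rcases hdec m hm hmt g h with h' | ⟨c, hc, d, hd, hgcd⟩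
          · exact ih (by omega) h'
          · exfalso
            have hsm : s m (q (m + 1)) = q m := by
              rcases Nat.lt_or_ge m 2 with h2m | h2m
              · obtain rfl : m = 1 := by omega
                exact hs1q.2
              · exact (hsq m h2m hmt).2.1
            have h1 : g (q (m + 1)) = q (m + 1) := hgf _ ⟨m + 1, by omega, hmt, rfl⟩
            rw [hgcd, Equiv.Perm.mul_apply, Equiv.Perm.mul_apply,
              hLfix m hm (by omega) d hd (m + 1) le_rfl hmt, hsm] at h1
            have h2' : c (q (m + 1)) = q (m + 1) := hLfix m hm (by omega) c hc (m + 1) le_rfl hmt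
            have := hq m (m + 1) hm (by omega) (by omega) hmt (c.injective (h1.trans h2'.symm))
            omega
      have h1 := hdown t (by omega) le_rfl hg
      rw [hH]
      exact ⟨⟨h1.1, hgf _ ⟨1, le_rfl, by omega, rfl⟩⟩, h1.2⟩
    · intro g hg
      refine ⟨hHL t (by omega) hg, (mem_fixingSubgroup_iff _).2 ?_⟩
      rintro _ ⟨i, hi1, hit, rfl⟩
      show g (q i) = q i
      have hg' := hg
      rw [hH] at hg'
      rcases Nat.lt_or_ge i 2 with h | h
      · obtain rfl : i = 1 := by omega
        exact hg'.1.2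
      · exact hLfix 1 le_rfl (by omega) g (hHL1 hg) i h hit

end Cfsg.Agent.PermP
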