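import Mathlib

/-!
# An elementary splitting criterion for the icosian quaternion algebra

For `r` prime to `10`, the quaternion algebra `(-1,-1)` over `ℚ(√5, ζ_r)` has zero divisors.
The proof uses Dirichlet's theorem, `2 q = x² + 5 y²` and the Gauss sum.
-/

set_option autoImplicit false
set_option linter.all false

namespace Cfsg.Agent.PermP.Zass

open Polynomial

theorem legendre_five_two : @legendreSym 5 ⟨by norm_num⟩ 2 = -1 := by
  haveI : Fact (Nat.Prime 5) := ⟨by norm_num⟩
  rw [legendreSym.at_two (by norm_num)]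
  decide

theorem thue {q : ℕ} (hq : q.Prime) (c : ZMod q) :
    ∃ x y : ℤ, (x ≠ 0 ∨ y ≠ 0) ∧ x ^ 2 < q ∧ y ^ 2 < q ∧ (x : ZMod q) = c * (y : ZMod q) := by
  haveI := Fact.mk hq
  have hcard : Fintype.card (ZMod q) <
      Fintype.card (Fin (Nat.sqrt q + 1) × Fin (Nat.sqrt q + 1)) := by
    rw [ZMod.card, Fintype.card_prod, Fintype.card_fin]
    exact Nat.lt_succ_sqrt q
  obtain ⟨u, v, huv, h⟩ := Fintype.exists_ne_map_eq_of_card_lt
    (fun p : Fin (Nat.sqrt q + 1) × Fin (Nat.sqrt q + 1) =>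
      ((p.1.val : ℕ) : ZMod q) - c * ((p.2.val : ℕ) : ZMod q)) hcard
  have hsq : (Nat.sqrt q) ^ 2 < q := by
    refine lt_of_le_of_ne (Nat.sqrt_le' q) fun e => ?_
    rw [← e] at hq
    exact Nat.Prime.not_prime_pow le_rfl hq
  have hb : ∀ a b : Fin (Nat.sqrt q + 1), ((a.val : ℤ) - b.val) ^ 2 < q := by
    intro a b
    have ha := a.isLt
    have hb := b.isLt
    calc ((a.val : ℤ) - b.val) ^ 2 ≤ (Nat.sqrt q : ℤ) ^ 2 := sq_le_sq' (by omega) (by omega)
      _ < q := by exact_mod_cast hsq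
  refine ⟨(u.1.val : ℤ) - v.1.val, (u.2.val : ℤ) - v.2.val, ?_, hb _ _, hb _ _, ?_⟩
  · by_contra hne
    push Not at hne
    exact huv (Prod.ext (Fin.ext (by omega)) (Fin.ext (by omega)))
  · push_cast
    linear_combination h

theorem exists_two_mul_eq {q : ℕ} (hq : q.Prime) (h20 : q % 20 = 7) :
    ∃ x y : ℤ, x ^ 2 + 5 * y ^ 2 = 2 * q := by
  haveI := Fact.mk hq
  haveI : Fact (Nat.Prime 5) := ⟨by norm_num⟩
  have hq5 : q ≠ 5 := by omega
  have hne : ((-5 : ℤ) : ZMod q) ≠ 0 := by
    intro h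
    rw [ZMod.intCast_zmod_eq_zero_iff_dvd, Int.dvd_neg] at h
    have := (Nat.prime_dvd_prime_iff_eq hq (by norm_num : Nat.Prime 5)).1 (Int.natCast_dvd_natCast.1 h)
    exact hq5 this
  obtain ⟨c, hc⟩ : IsSquare ((-5 : ℤ) : ZMod q) := by
    rw [← legendreSym.eq_one_iff q hne, show (-5 : ℤ) = -1 * 5 by norm_num, legendreSym.mul,
      legendreSym.at_neg_one (by omega), ZMod.χ₄_nat_three_mod_four (by omega),
      show (5 : ℤ) = ((5 : ℕ) : ℤ) by norm_num,
      legendreSym.quadratic_reciprocity_one_mod_four (by norm_num) (by omega)]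
    have : legendreSym 5 (q : ℤ) = -1 := by
      rw [legendreSym.mod, show ((q : ℤ) % (5 : ℕ)) = 2 by omega]
      exact legendre_five_two
    rw [this]; norm_num
  obtain ⟨x, y, hxy, hx, hy, hxc⟩ := thue hq c
  obtain ⟨k, hk⟩ : (q : ℤ) ∣ x ^ 2 + 5 * y ^ 2 := by
    rw [← ZMod.intCast_zmod_eq_zero_iff_dvd]
    push_cast
    rw [hxc]
    push_cast at hc
    linear_combination (y : ZMod q) ^ 2 * hc.symm
  have hqpos : (0 : ℤ) < q := by exact_mod_cast hq.pos
  have hk1 : 0 < k := by
    have : 0 < x ^ 2 + 5 * y ^ 2 := by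
      rcases hxy with h | h <;> nlinarith [sq_pos_of_ne_zero h, sq_nonneg x, sq_nonneg y]
    nlinarith
  have hk6 : k < 6 := by nlinarith
  have hm : ∀ z : ℤ, z ^ 2 % 5 = 0 ∨ z ^ 2 % 5 = 1 ∨ z ^ 2 % 5 = 4 := by
    intro z
    have : z % 5 = 0 ∨ z % 5 = 1 ∨ z % 5 = 2 ∨ z % 5 = 3 ∨ z % 5 = 4 := by omega
    rw [pow_two, Int.mul_emod]
    rcases this with h | h | h | h | h <;> simp [h]
  have hq5' : (q : ℤ) % 5 = 2 := by omega
  have := hm x
  have := hm y
  rcases (show k = 1 ∨ k = 2 ∨ k = 3 ∨ k = 4 ∨ k = 5 by omega) with rfl | rfl | rfl | rfl | rfl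
  · omega
  · exact ⟨x, y, by rw [hk]; ring⟩
  · obtain ⟨s, hs, hd⟩ : ∃ s : ℤ, (s = 1 ∨ s = -1) ∧ (3 : ℤ) ∣ x + s * y := by
      have h1 : (3 : ℤ) ∣ (x + y) * (x - y) :=
        ⟨q - 2 * y ^ 2, by linear_combination hk⟩
      rcases Int.prime_three.dvd_mul.1 h1 with h | h
      · exact ⟨1, Or.inl rfl, by rw [one_mul]; exact h⟩
      · exact ⟨-1, Or.inr rfl, by rw [neg_one_mul, ← sub_eq_add_neg]; exact h⟩
    obtain ⟨u, hu⟩ := hd
    obtain ⟨v, hv⟩ : (3 : ℤ) ∣ x - 5 * s * y := ⟨u - 2 * (s * y), by linear_combination hu⟩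
    refine ⟨v, u, ?_⟩
    have hs2 : s ^ 2 = 1 := by rcases hs with rfl | rfl <;> norm_num
    have e : (3 * v) ^ 2 + 5 * (3 * u) ^ 2 = 9 * (2 * (q : ℤ)) := by
      rw [← hv, ← hu]; linear_combination 30 * y ^ 2 * hs2 + 6 * hk
    linarith
  · omega
  · obtain ⟨x', rfl⟩ : (5 : ℤ) ∣ x := by
      have : (5 : ℤ) ∣ x ^ 2 := by omega
      exact (Int.prime_iff_natAbs_prime.2 (by norm_num)).dvd_of_dvd_pow this
    have h1 : y ^ 2 + 5 * x' ^ 2 = q := by
      have : 5 * (y ^ 2 + 5 * x' ^ 2) = 5 * (q : ℤ) := by linear_combination hk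
      linarith
    have := hm y
    omega

/-- The cyclotomic polynomial of a prime `q ≡ 3 (mod 4)` is a norm from `ℚ(√-q)`, up to a norm. -/
theorem exists_cyclotomic_norm {q : ℕ} (hq : q.Prime) (h4 : q % 4 = 3) :
    ∃ (p₁ p₂ : ℚ[X]) (e f : ℚ), e ^ 2 + (q : ℚ) * f ^ 2 ≠ 0 ∧
      p₁ ^ 2 + C (q : ℚ) * p₂ ^ 2 = C (e ^ 2 + (q : ℚ) * f ^ 2) * cyclotomic q ℚ := by
  classical
  haveI := Fact.mk hq
  set ζ : ℂ := Complex.exp (2 * Real.pi * Complex.I / q) with hζ
  have hprim : IsPrimitiveRoot ζ q := Complex.isPrimitiveRoot_exp q hq.ne_zero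
  let χ : MulChar (ZMod q) ℂ := (quadraticChar (ZMod q)).ringHomComp (Int.castRingHom ℂ)
  let ψ : AddChar (ZMod q) ℂ := ZMod.stdAddChar
  set g := gaussSum χ ψ with hg
  have hchar : ringChar (ZMod q) ≠ 2 := by rw [ZMod.ringChar_zmod_n]; omega
  have hg2 : g ^ 2 = -(q : ℂ) := by
    have h1 : χ ≠ 1 := by
      rw [MulChar.ringHomComp_ne_one_iff (Int.castRingHom ℂ).injective_int]
      exact quadraticChar_ne_one hchar
    rw [hg, gaussSum_sq h1 ((quadraticChar_isQuadratic (ZMod q)).comp _) (ZMod.isPrimitive_stdAddChar q)]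
    have : χ (-1) = -1 := by
      simp only [χ, MulChar.ringHomComp_apply]
      rw [quadraticChar_neg_one hchar, ZMod.card, ZMod.χ₄_nat_three_mod_four h4]
      simp
    rw [this, ZMod.card]; ring
  let A := IntermediateField.adjoin ℚ ({ζ} : Set ℂ)
  have hint : IsIntegral ℚ ζ := (hprim.isIntegral hq.pos).tower_top
  have hgA : g ∈ A := by
    rw [hg, gaussSum]
    refine sum_mem fun a _ => mul_mem ?_ ?_
    · simp only [χ, MulChar.ringHomComp_apply, eq_intCast]
      exact intCast_mem A _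
    · have : ψ a = ζ ^ a.val := by
        simp only [ψ, hζ, ZMod.stdAddChar_apply, ZMod.toCircle_apply]
        rw [← Complex.exp_nat_mul]
        congr 1
        ring
      rw [this]
      exact pow_mem (IntermediateField.mem_adjoin_simple_self ℚ ζ) _
  set m := (q - 1) / 2 with hm
  have h2m : q = 2 * m + 1 := by omega
  -- a linear dependency
  have hdimA : Module.finrank ℚ A = q - 1 := by
    rw [IntermediateField.adjoin.finrank hint, ← cyclotomic_eq_minpoly_rat hprim hq.pos,
      natDegree_cyclotomic, Nat.totient_prime hq]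
  let gA : A := ⟨g, hgA⟩
  let zA : A := ⟨ζ, IntermediateField.mem_adjoin_simple_self ℚ ζ⟩
  let vec : Fin (m + 1) × Fin 2 → A := fun i => zA ^ i.1.val * gA ^ i.2.val
  haveI : FiniteDimensional ℚ A := IntermediateField.adjoin.finiteDimensional hint
  have hdep : ¬ LinearIndependent ℚ vec := by
    intro h
    have := h.fintype_card_le_finrank
    rw [Fintype.card_prod, Fintype.card_fin, Fintype.card_fin, hdimA] at this
    omega
  rw [Fintype.not_linearIndependent_iff] at hdep
  obtain ⟨r, hr, i₀, hi₀⟩ := hdep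
  let P : Fin 2 → ℚ[X] := fun k => ∑ j : Fin (m + 1), C (r (j, k)) * X ^ j.val
  have hcoeff : ∀ (j : Fin (m + 1)) k, (P k).coeff j.val = r (j, k) := by
    intro j k
    simp only [P, finsetSum_coeff, coeff_C_mul, coeff_X_pow]
    rw [Finset.sum_eq_single j] <;> simp +contextual [Fin.val_inj, eq_comm]
  have hdeg : ∀ k, (P k).natDegree ≤ m := fun k =>
    natDegree_sum_le_of_forall_le _ _ fun j _ =>
      (natDegree_C_mul_X_pow_le _ _).trans (Nat.lt_succ_iff.1 j.isLt)
  have heval : aeval ζ (P 0) + g * aeval ζ (P 1) = 0 := by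
    have h := congrArg Subtype.val hr
    rw [AddSubmonoidClass.coe_finset_sum] at h
    simp only [Fintype.sum_prod_type, Fin.sum_univ_two, Finset.sum_add_distrib] at h
    simp only [P, map_sum, map_mul, map_pow, aeval_C, aeval_X, Finset.mul_sum]
    rw [← h.trans (ZeroMemClass.coe_zero A)]
    congr 1 <;> refine Finset.sum_congr rfl fun j _ => ?_ <;>
      simp [vec, zA, gA, Algebra.smul_def] <;> ring
  set T := P 0 ^ 2 + C (q : ℚ) * P 1 ^ 2 with hT
  have hT0 : aeval ζ T = 0 := by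
    have : aeval ζ T = (aeval ζ (P 0) + g * aeval ζ (P 1)) * (aeval ζ (P 0) - g * aeval ζ (P 1)) := by
      rw [hT, map_add, map_mul, map_pow, map_pow, aeval_C, map_natCast]
      linear_combination (aeval ζ (P 1)) ^ 2 * hg2
    rw [this, heval, zero_mul]
  have hqQ : (0 : ℚ) < q := by exact_mod_cast hq.pos
  have hTne : T ≠ 0 := by
    intro h0
    have hev : ∀ x : ℚ, (P 0).eval x = 0 ∧ (P 1).eval x = 0 := by
      intro x
      have h := congrArg (eval x) h0
      simp only [hT, eval_add, eval_mul, eval_pow, eval_C, eval_zero] at h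
      obtain ⟨h1, h2⟩ := (add_eq_zero_iff_of_nonneg (sq_nonneg _)
        (mul_nonneg hqQ.le (sq_nonneg _))).1 h
      exact ⟨pow_eq_zero_iff two_ne_zero |>.1 h1,
        pow_eq_zero_iff two_ne_zero |>.1 ((mul_eq_zero.1 h2).resolve_left hqQ.ne')⟩
    have e0 : P 0 = 0 := Polynomial.funext fun x => by rw [(hev x).1, eval_zero]
    have e1 : P 1 = 0 := Polynomial.funext fun x => by rw [(hev x).2, eval_zero]
    apply hi₀
    obtain ⟨j, k⟩ := i₀
    rw [← hcoeff j k]
    fin_cases k <;> simp [e0, e1]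
  have hdvd : cyclotomic q ℚ ∣ T := by
    rw [cyclotomic_eq_minpoly_rat hprim hq.pos]
    exact minpoly.dvd ℚ ζ hT0
  obtain ⟨u, hu⟩ := hdvd
  have hu0 : u.natDegree = 0 := by
    have hTd : T.natDegree ≤ 2 * m := by
      refine (natDegree_add_le _ _).trans (max_le ?_ ?_)
      · exact natDegree_pow_le.trans (Nat.mul_le_mul_left 2 (hdeg 0))
      · exact (natDegree_C_mul_le _ _).trans (natDegree_pow_le.trans (Nat.mul_le_mul_left 2 (hdeg 1)))
    have hune : u ≠ 0 := fun h => hTne (by rw [hu, h, mul_zero])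
    rw [hu, natDegree_mul (cyclotomic_ne_zero _ _) hune, natDegree_cyclotomic,
      Nat.totient_prime hq] at hTd
    omega
  obtain ⟨l, rfl⟩ := natDegree_eq_zero.1 hu0
  have hl : l = ((P 1).eval 1) ^ 2 + (q : ℚ) * ((P 0).eval 1 / q) ^ 2 := by
    have h := congrArg (eval (1 : ℚ)) hu
    simp only [hT, eval_add, eval_mul, eval_pow, eval_C, eval_one_cyclotomic_prime] at h
    field_simp
    linear_combination -h
  refine ⟨P 0, P 1, (P 1).eval 1, (P 0).eval 1 / q, ?_, ?_⟩
  · rw [← hl]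
    intro h
    exact hTne (by rw [hu, h, map_zero, mul_zero])
  · rw [← hl, ← hT, hu, mul_comm]

/-- No element of order prime to ten commutes with a copy of the icosian frame. -/
theorem no_central_root {D : Type*} [DivisionRing D] [Algebra ℚ D] {r : ℕ} (hr1 : 1 < r)
    (hr : r.Coprime 10) {c i j ψ : D} (hc : c ^ r = 1) (hc1 : c ≠ 1)
    (hi : i * i = -1) (hj : j * j = -1) (hij : j * i = -(i * j)) (hψ : ψ * ψ = 5)
    (hψi : ψ * i = i * ψ) (hψj : ψ * j = j * ψ) (hci : c * i = i * c) (hcj : c * j = j * c)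
    (hcψ : c * ψ = ψ * c) : False := by
  have hr20 : r.Coprime 20 := by
    have h2 := hr.coprime_dvd_right (show 2 ∣ 10 by norm_num)
    have h5 := hr.coprime_dvd_right (show 5 ∣ 10 by norm_num)
    rw [show (20 : ℕ) = 2 * 2 * 5 by norm_num]
    exact (h2.mul_right h2).mul_right h5
  obtain ⟨a, ha1, ha2⟩ := Nat.chineseRemainder hr20 (r - 1) 7
  have hcop : a.Coprime (r * 20) := by
    refine Nat.Coprime.mul_right ?_ ?_
    · rw [Nat.coprime_iff_gcd_eq_one, ha1.gcd_eq]
      have := Nat.coprime_sub_self_right (m := r - 1) (n := r) (by omega)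
      rw [show r - (r - 1) = 1 by omega] at this
      exact (this.1 (Nat.coprime_one_right _))
    · rw [Nat.coprime_iff_gcd_eq_one, ha2.gcd_eq]
      norm_num
  obtain ⟨q, -, hq, hqa⟩ := Nat.forall_exists_prime_gt_and_modEq 0
    (q := r * 20) (a := a) (by positivity) hcop
  have hq20 : q % 20 = 7 := (hqa.of_mul_left r).trans ha2
  have hqr : q ≡ r - 1 [MOD r] := (hqa.of_mul_right 20).trans ha1
  obtain ⟨x, y, hxy⟩ := exists_two_mul_eq hq hq20
  obtain ⟨p₁, p₂, e, f, hne, hp⟩ := exists_cyclotomic_norm hq (by omega)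
  -- evaluate at `c`
  have hcq : c ^ q = c ^ (r - 1) := by
    rw [← Nat.mod_add_div q r, hqr, Nat.mod_eq_of_lt (by omega : r - 1 < r), pow_add, pow_mul, hc,
      one_pow, mul_one]
  have hΦ : c * aeval c (cyclotomic q ℚ) = -1 := by
    haveI := Fact.mk hq
    have h1 : cyclotomic q ℚ * (X - 1) = X ^ q - 1 := cyclotomic_prime_mul_X_sub_one ℚ q
    have h2 := congrArg (fun p => c * aeval c p) h1
    simp only [map_mul, map_sub, map_pow, aeval_X, map_one, hcq, mul_sub, mul_one] at h2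
    rw [show c * c ^ (r - 1) = 1 by rw [← pow_succ', Nat.sub_add_cancel (by omega), hc]] at h2
    refine mul_right_cancel₀ (sub_ne_zero.2 hc1) ?_
    rw [mul_sub, mul_one, neg_one_mul, mul_assoc, h2]
    abel
  obtain ⟨w, hw, hwcom⟩ : ∃ w, w * w = c ∧ ∃ n : ℕ, w = c ^ n := by
    obtain ⟨m, hm⟩ := (Nat.Coprime.coprime_dvd_right (show 2 ∣ 10 by norm_num) hr).odd_of_right
    exact ⟨c ^ (m + 1), by rw [← pow_add, show m + 1 + (m + 1) = r + 1 by omega, pow_succ, hc,
      one_mul], _, rfl⟩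
  obtain ⟨n, rfl⟩ := hwcom
  let W : ℚ[X] := X ^ n
  set μ : ℚ := e ^ 2 + (q : ℚ) * f ^ 2 with hμ
  set A := aeval c (W * (C e * p₁ + C ((q : ℚ) * f) * p₂)) with hA
  set B := aeval c (W * (C f * p₁ - C e * p₂)) with hB
  have hAB : A * A + (q : D) * (B * B) = -(algebraMap ℚ D (μ ^ 2)) := by
    have epoly : (W * (C e * p₁ + C ((q : ℚ) * f) * p₂)) * (W * (C e * p₁ + C ((q : ℚ) * f) * p₂))
        + C (q : ℚ) * ((W * (C f * p₁ - C e * p₂)) * (W * (C f * p₁ - C e * p₂)))
        = C μ * ((W * W) * (p₁ ^ 2 + C (q : ℚ) * p₂ ^ 2)) := by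
      simp only [hμ, map_add, map_mul, map_pow]; ring
    rw [hp] at epoly
    have := congrArg (aeval c) epoly
    simp only [map_add, map_sub, map_mul, aeval_C, map_natCast] at this
    simp only [hA, hB, map_add, map_sub, map_mul, aeval_C, map_natCast]
    rw [this]
    simp only [W, map_pow, aeval_X]
    rw [hw, ← mul_assoc c, ← Algebra.commutes μ c, mul_assoc, hΦ, mul_neg_one, mul_neg]
    simp only [pow_two, map_mul]
  -- the frame
  have comm_c : ∀ z, c * z = z * c → ∀ p : ℚ[X], Commute (aeval c p) z := by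
    intro z hz p
    induction p using Polynomial.induction_on' with
    | add p p' h h' => rw [map_add]; exact h.add_left h'
    | monomial k u =>
      rw [aeval_monomial]
      exact (Algebra.commute_algebraMap_left u z).mul_left ((show Commute c z from hz).pow_left k)
  obtain ⟨k, hk⟩ : ∃ k, k = i * j := ⟨_, rfl⟩
  have hki : k * i = -(i * k) := by rw [hk, mul_assoc, hij, mul_neg]
  have hjk : k * j = -(j * k) := by
    rw [hk, ← mul_assoc j i j, hij, neg_mul, neg_neg]
  have hkk : k * k = -1 := by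
    rw [hk]
    calc i * j * (i * j) = i * (j * i) * j := by simp only [mul_assoc]
      _ = -(i * i * (j * j)) := by rw [hij, mul_neg, neg_mul]; simp only [mul_assoc]
      _ = -1 := by rw [hi, hj]; simp
  set t := ((x : D) + (y : D) * ψ) * i + ((x : D) - (y : D) * ψ) * j with ht
  have hψk : ψ * k = k * ψ := by rw [hk, ← mul_assoc, hψi, mul_assoc, hψj, mul_assoc]
  have cI : ∀ (z : D) (n : ℤ), z * (n : D) = (n : D) * z := fun z n => (Int.cast_commute n z).eq.symm
  have cI' : ∀ (z : D) (n : ℤ) (w : D), z * ((n : D) * w) = (n : D) * (z * w) := fun z n w => by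
    rw [← mul_assoc, cI, mul_assoc]
  have ei := fun w => (show ∀ w, i * (ψ * w) = ψ * (i * w) from fun w => by
    rw [← mul_assoc, ← hψi, mul_assoc]) w
  have ej := fun w => (show ∀ w, j * (ψ * w) = ψ * (j * w) from fun w => by
    rw [← mul_assoc, ← hψj, mul_assoc]) w
  haveI : CharZero D := charZero_of_injective_algebraMap (algebraMap ℚ D).injective
  have htt : t * t = -((4 * (q : ℤ) : ℤ) : D) := by
    rw [← show (2 * (x ^ 2 + 5 * y ^ 2) : ℤ) = 4 * (q : ℤ) by rw [hxy]; ring]
    simp only [ht, add_mul, mul_add, sub_mul, mul_sub, mul_assoc, cI i, cI j, cI' i, cI' j, cI' ψ,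
      ei, ej, hi, hj, hij, cI ψ, mul_neg, mul_one, hψ,
      show ∀ w, ψ * (ψ * w) = 5 * w from fun w => by rw [← mul_assoc, hψ]]
    push_cast
    noncomm_ring
    rw [show ∀ w : D, (y : D) * ((x : D) * w) = (x : D) * ((y : D) * w) from fun w => by
      rw [← mul_assoc, (Int.cast_commute y (x : D)).eq, mul_assoc]]
    abel
  have hkt : k * t = -(t * k) := by
    simp only [ht, add_mul, mul_add, sub_mul, mul_sub, mul_assoc, cI' k,
      show ∀ w, k * (ψ * w) = ψ * (k * w) from fun w => by rw [← mul_assoc, ← hψk, mul_assoc],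
      hki, hjk, mul_neg]
    abel
  have hct : c * t = t * c := by
    simp only [ht, add_mul, mul_add, sub_mul, mul_sub, mul_assoc, hci, hcj, cI' c,
      show ∀ w, c * (ψ * w) = ψ * (c * w) from fun w => by rw [← mul_assoc, hcψ, mul_assoc]]
  have hck : c * k = k * c := by rw [hk, ← mul_assoc, hci, mul_assoc, hcj, mul_assoc]
  set B' := algebraMap ℚ D (2⁻¹) * B with hB'
  set K := algebraMap ℚ D μ * k with hK
  have cAt : Commute A t := comm_c t hct _
  have cAk : Commute A k := comm_c k hck _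
  have cBt : Commute B' t := (Algebra.commute_algebraMap_left _ t).mul_left (comm_c t hct _)
  have cBk : Commute B' k := (Algebra.commute_algebraMap_left _ k).mul_left (comm_c k hck _)
  have cμ : ∀ z, Commute (algebraMap ℚ D μ) z := fun z => Algebra.commute_algebraMap_left μ z
  have cAB : Commute A B' := by
    refine Commute.mul_right (Algebra.commute_algebraMap_right _ _) ?_
    exact (Commute.all _ _).map (aeval c)
  have hprod : (A + B' * t + K) * (A - B' * t - K) = 0 := by
    have e1 : A * (B' * t) = B' * t * A := (cAB.mul_right cAt).eq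
    have e2 : A * K = K * A := (Commute.mul_right (cμ A).symm cAk).eq
    have e3 : B' * t * K + K * (B' * t) = 0 := by
      rw [hK, ← mul_assoc (B' * t), (cμ (B' * t)).eq.symm]
      simp only [mul_assoc]
      rw [show k * (B' * t) = B' * (k * t) by rw [← mul_assoc, ← cBk.eq, mul_assoc], hkt, mul_neg,
        mul_neg, add_neg_cancel]
    have e4 : B' * t * (B' * t) = -((q : D) * (B * B)) := by
      rw [(cBt.symm).mul_mul_mul_comm, htt]
      have : B' * B' = algebraMap ℚ D (4⁻¹) * (B * B) := by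
        rw [hB', mul_assoc, ← mul_assoc B, ← Algebra.commutes, mul_assoc, ← mul_assoc, ← map_mul]
        norm_num
      rw [this, mul_neg, mul_assoc, ← (Int.cast_commute (4 * (q : ℤ)) (B * B)).eq, ← mul_assoc,
        ← map_intCast (algebraMap ℚ D), ← map_mul, ← map_natCast (algebraMap ℚ D)]
      congr 2
      push_cast; rw [← mul_assoc, inv_mul_cancel₀ (by norm_num), one_mul]
    have e5 : K * K = -(algebraMap ℚ D (μ ^ 2)) := by
      rw [hK, mul_assoc, ← mul_assoc k, ← (cμ k).eq, mul_assoc, hkk, mul_neg_one, mul_neg, pow_two,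
        map_mul]
    calc (A + B' * t + K) * (A - B' * t - K)
        = A * A + (B' * t * A - A * (B' * t)) + (K * A - A * K)
            - (B' * t * K + K * (B' * t)) - B' * t * (B' * t) - K * K := by noncomm_ring
      _ = A * A + (q : D) * (B * B) + algebraMap ℚ D (μ ^ 2) := by
          rw [e1, e2, e3, e4, e5]; abel
      _ = 0 := by rw [hAB]; abel
  have hKcom : K * t = t * K := by
    rcases mul_eq_zero.1 hprod with h | h
    · rw [show K = -(A + B' * t) by rw [← add_zero (-(A + B' * t)), ← h]; abel]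
      rw [neg_mul, mul_neg, (cAt.add_left (cBt.mul_left (Commute.refl t))).eq]
    · rw [show K = A - B' * t by rw [← add_zero K, ← h]; abel]
      exact (cAt.sub_left (cBt.mul_left (Commute.refl t))).eq
  have h0 : (2 : D) * (algebraMap ℚ D μ * (t * k)) = 0 := by
    rw [hK, mul_assoc, hkt, ← mul_assoc t, ← (cμ t).eq, mul_assoc, mul_neg] at hKcom
    rw [two_mul]
    nth_rewrite 1 [← hKcom]
    abel
  rcases mul_eq_zero.1 h0 with h | h
  · exact two_ne_zero h
  rcases mul_eq_zero.1 h with h | h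
  · exact hne ((map_eq_zero _).1 h)
  rcases mul_eq_zero.1 h with h | h
  · rw [h, mul_zero, eq_comm, neg_eq_zero, Int.cast_eq_zero] at htt
    have := hq.pos; omega
  · rw [h, mul_zero] at hkk
    exact neg_ne_zero.2 one_ne_zero hkk.symm

end Cfsg.Agent.PermP.Zass
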