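import Mathlib
import Cfsg.Agent.PermP.ZassFC
import Cfsg.Agent.PermP.ZassArith

/-!
# Non-solvable finite multiplicative subgroups of division rings
-/

set_option autoImplicit false
set_option linter.all false
set_option maxHeartbeats 1000000

namespace Cfsg.Agent.PermP.Zass

open Subgroup
open Cfsg.Agent.Recog.Icosahedral

theorem assoc_rule' {M : Type*} [Monoid M] {x y z : M} (h : x * y = z) (w : M) : x * (y * w) = z * w := by
  rw [← mul_assoc, h]

/-- The invariant of a pair is a root of `X² - X - 1` as soon as the product has order ten. -/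
theorem gamma_root {R : Type*} [Ring R] {A B g i : R} (hA : Ord3 A) (hB : Ord3 B) (hg : g = A * B)
    (hi : i = B * B * (A * A)) (h5 : g ^ 5 = -1) (hu : IsUnit (g + 1)) :
    cc A B * cc A B = cc A B + 1 := by
  have hA3 : A * (A * A) = 1 := by
    have h' := assoc_rule hA
    unfold Ord3 at hA
    simp only [mul_sub, mul_neg, mul_one, hA, h']
    abel
  have hB3 : B * (B * B) = 1 := by
    have h' := assoc_rule hB
    unfold Ord3 at hB
    simp only [mul_sub, mul_neg, mul_one, hB, h']
    abel
  have hgi : g * i = 1 := by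
    calc g * i = A * (B * (B * B)) * (A * A) := by rw [hg, hi]; simp only [mul_assoc]
      _ = 1 := by rw [hB3, mul_one, hA3]
  have hA3' : A * A * A = 1 := by rw [mul_assoc, hA3]
  have hB3' : B * B * B = 1 := by rw [mul_assoc, hB3]
  have hig : i * g = 1 := by
    calc i * g = B * B * (A * A * A) * B := by rw [hg, hi]; simp only [mul_assoc]
      _ = 1 := by rw [hA3', mul_one, hB3']
  have hc : cc A B = g + i := by
    rw [hg, hi]
    simp only [cc, show A * A = -A - 1 from hA, show B * B = -B - 1 from hB, mul_sub, sub_mul,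
      mul_neg, neg_mul, one_mul, mul_one]
    abel
  have hq : g ^ 4 - g ^ 3 + g ^ 2 - g + 1 = 0 := by
    refine hu.mul_left_cancel ?_
    rw [mul_zero]
    linear_combination (norm := noncomm_ring) h5
  have hig' := assoc_rule hig
  have hgi' := assoc_rule hgi
  have h' := congrArg (fun t => i * (i * t)) hq
  simp only [mul_add, mul_sub, mul_one, mul_zero, pow_succ, pow_zero, one_mul, mul_assoc, hig,
    hig'] at h'
  rw [hc]
  simp only [mul_add, add_mul, hgi, hig]
  linear_combination (norm := noncomm_ring) h'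

/-- `I` in `SL(2,5)`. -/
def slI : Matrix.SpecialLinearGroup (Fin 2) (ZMod 5) := ⟨!![2, 0; 0, 3], by decide⟩

/-- `J` in `SL(2,5)`. -/
def slJ : Matrix.SpecialLinearGroup (Fin 2) (ZMod 5) := ⟨!![0, 1; 4, 0], by decide⟩

theorem sl_quaternion : slI * slI = slNeg ∧ slJ * slJ = slNeg ∧ slJ * slI = slNeg * (slI * slJ) ∧
    slNeg * slNeg = 1 ∧ slNeg ≠ 1 ∧ slI * slI * (slI * slI) = 1 := by decide +kernel

theorem comm_of_charP {D : Type*} [DivisionRing D] (p : ℕ) [Fact p.Prime] [CharP D p] {A : Type*}
    [Group A] [Finite A] (φ : A →* D) (a b : A) : φ a * φ b = φ b * φ a := by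
  letI : Algebra (ZMod p) D := ZMod.algebra D p
  let M := Submodule.span (ZMod p) (Set.range φ)
  haveI : Module.Finite (ZMod p) M := Module.Finite.span_of_finite _ (Set.finite_range φ)
  haveI : Finite M := Module.finite_of_finite (ZMod p)
  have hmul : ∀ x ∈ M, ∀ y ∈ M, x * y ∈ M := by
    intro x hx y hy
    induction hx using Submodule.span_induction with
    | mem u hu =>
      induction hy using Submodule.span_induction with
      | mem v hv =>
        obtain ⟨a, rfl⟩ := hu
        obtain ⟨b, rfl⟩ := hv
        exact Submodule.subset_span ⟨a * b, map_mul φ a b⟩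
      | zero => rw [mul_zero]; exact M.zero_mem
      | add v w _ _ h1 h2 => rw [mul_add]; exact M.add_mem h1 h2
      | smul r v _ h => rw [mul_smul_comm]; exact M.smul_mem r h
    | zero => rw [zero_mul]; exact M.zero_mem
    | add u v _ _ h1 h2 => rw [add_mul]; exact M.add_mem h1 h2
    | smul r u _ h => rw [smul_mul_assoc]; exact M.smul_mem r h
  let R : Subring D :=
    { carrier := M
      mul_mem' := fun hx hy => hmul _ hx _ hy
      one_mem' := Submodule.subset_span ⟨1, map_one φ⟩
      add_mem' := fun hx hy => M.add_mem hx hy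
      zero_mem' := M.zero_mem
      neg_mem' := fun hx => M.neg_mem hx }
  haveI : Finite R := ‹Finite M›
  exact congrArg Subtype.val ((Finite.isDomain_to_isField R).mul_comm
    (⟨φ a, Submodule.subset_span ⟨a, rfl⟩⟩ : R) ⟨φ b, Submodule.subset_span ⟨b, rfl⟩⟩)

/-- A non-solvable finite group embedded in a division ring is `SL(2,5)`. -/
theorem equiv_sl_of_division {D : Type*} [DivisionRing D] {H : Type*} [Group H] [Finite H]
    (ι : H →* Dˣ) (hι : Function.Injective ι) (hns : ¬ Group.IsSolvable H) :
    Nonempty (H ≃* Matrix.SpecialLinearGroup (Fin 2) (ZMod 5)) := by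
  classical
  haveI : Nontrivial H := by
    by_contra h
    rw [not_nontrivial_iff_subsingleton] at h
    exact hns inferInstance
  let φ : H →* D := (Units.coeHom D).comp ι
  have hφinj : Function.Injective φ := fun x y h => hι (Units.ext h)
  have hFC : FGS.FC.IsFC H := FGS.FC.isFC_units ι hι
  obtain ⟨c, hcp⟩ := CharP.exists D
  rcases CharP.char_is_prime_or_zero D c with hp | rfl
  · exfalso
    haveI := Fact.mk hp
    apply hns
    exact Group.isSolvable_of_comm fun a b => hφinj (by
      rw [map_mul, map_mul]; exact comm_of_charP c φ a b)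
  haveI : CharZero D := CharP.charP_to_charZero D
  letI : Algebra ℚ D := DivisionRing.toRatAlgebra
  obtain ⟨S⟩ := exists_slData hFC hns
  haveI : Nonempty (Fin S.n) := ⟨⟨0, S.hn⟩⟩
  obtain ⟨a, b, z, ha, hb, hz⟩ : ∃ a b z, a = S.a ∧ b = S.b ∧ z = S.z := ⟨_, _, _, rfl, rfl, rfl⟩
  have hinv : ∀ x : H, x * x = 1 → x ≠ 1 → φ x = -1 := by
    intro x hx hx1
    have e : (φ x - 1) * (φ x + 1) = 0 := by
      rw [sub_mul, mul_add, mul_one, one_mul, ← map_mul, hx, map_one]; abel
    rcases mul_eq_zero.1 e with h | h
    · exact absurd (hφinj ((sub_eq_zero.1 h).trans (map_one φ).symm)) hx1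
    · exact eq_neg_of_add_eq_zero_left h
  have hφz : φ z = -1 := hz ▸ hinv S.z S.z_sq S.z_ne_one
  have hord : ∀ x : H, IsOrd3 x → Ord3 (φ x) := by
    intro x hx
    have h3 : φ x * (φ x * φ x) = 1 := by
      rw [← map_mul, ← map_mul, ← map_one φ, ← hx.1]; congr 1; simp [pow_succ, mul_assoc]
    have e : (φ x - 1) * (φ x * φ x + φ x + 1) = 0 := by
      simp only [mul_add, sub_mul, mul_one, one_mul, h3]; abel
    have := (mul_eq_zero.1 e).resolve_left fun h =>
      hx.2 (hφinj ((sub_eq_zero.1 h).trans (map_one φ).symm))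
    unfold Ord3
    linear_combination (norm := noncomm_ring) this
  have haO : IsOrd3 a := ha ▸ S.ha
  have hbB : b ∈ S.P.B a := ha ▸ hb ▸ S.hb
  -- `γ`
  set γ : D := cc (φ a) (φ b) with hγ
  have hab5 : (a * b) ^ 5 = z := S.P.injective (by
    rw [(S.P.bpair_rel haO hbB).2, hz, S.rho_z])
  have hγ2 : γ * γ = γ + 1 := by
    refine gamma_root (hord a haO) (hord b hbB.1) (g := φ (a * b)) (i := φ (a * b)⁻¹)
      (map_mul φ a b) ?_ ?_ ?_
    · rw [mul_inv_rev, Rep.inv_eq haO, Rep.inv_eq hbB.1, map_mul, map_mul, map_mul]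
    · rw [← map_pow, hab5, hφz]
    · refine isUnit_iff_ne_zero.2 fun h => ?_
      have he : a * b = z := hφinj (by rw [hφz]; exact eq_neg_of_add_eq_zero_left h)
      have hb2 := hbB.2
      have e : (a * b)⁻¹ = z := by
        rw [he]; exact inv_eq_of_mul_eq_one_right (hz ▸ S.z_sq)
      have hc : S.P.inv3 a b = -2 := by
        have : S.P.inv3 a b = S.P.ρ (a * b) + S.P.ρ (a * b)⁻¹ := by
          rw [mul_inv_rev, Rep.inv_eq haO, Rep.inv_eq hbB.1]
          simp only [Rep.inv3, cc, map_mul, show S.P.ρ a * S.P.ρ a = -S.P.ρ a - 1 from S.P.ord3 haO,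
            show S.P.ρ b * S.P.ρ b = -S.P.ρ b - 1 from S.P.ord3 hbB.1]
          simp only [mul_sub, sub_mul, mul_neg, neg_mul, one_mul, mul_one]
          abel
        rw [this, e, he, hz, S.rho_z]
        norm_num
      rw [hc] at hb2
      refine ofNat_ne_zero (R := Matrix (Fin S.n) (Fin S.n) ℚ) (n := 5) (by norm_num) ?_
      linear_combination
        (norm := (noncomm_ring <;> norm_num [zsmul_eq_mul, nsmul_eq_mul] <;> noncomm_ring)) hb2
  set ψ : D := 1 - 2 * γ with hψ
  have hψ5 : ψ * ψ = 5 := by
    calc ψ * ψ = 1 - 4 * γ + 4 * (γ * γ) := by rw [hψ]; noncomm_ring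
      _ = 5 := by rw [hγ2]; noncomm_ring; norm_num
  have hγS : ∀ x ∈ S.S, Commute γ (φ x) := by
    intro x hx
    induction hx using Subgroup.closure_induction with
    | mem y hy =>
      rcases hy with rfl | rfl
      · rw [← ha]; exact cc_commute (hord a haO)
      · rw [← hb]
        change cc (φ a) (φ b) * φ b = φ b * cc (φ a) (φ b)
        rw [cc_comm]; exact cc_commute (hord b hbB.1)
    | one => rw [map_one]; exact Commute.one_right _
    | mul x y _ _ h1 h2 => rw [map_mul]; exact h1.mul_right h2
    | inv x _ h1 =>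
      have e : φ x⁻¹ = (φ x)⁻¹ := eq_inv_of_mul_eq_one_left (by
        rw [← map_mul, inv_mul_cancel, map_one])
      rw [e]; exact h1.inv_right₀
  have hψS : ∀ x ∈ S.S, Commute ψ (φ x) := fun x hx =>
    (Commute.one_left _).sub_left ((Commute.ofNat_left 2 _).mul_left (hγS x hx))
  -- the quaternion frame
  obtain ⟨q1, q2, q3, q4, q5, -⟩ := sl_quaternion
  have hneg : ((S.e.symm slNeg : S.S) : H) = z := by
    rw [hz]
    refine S.involution_eq ?_ ?_
    · rw [← Subgroup.coe_mul, ← map_mul, q4, map_one]; rfl
    · intro h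
      exact q5 (S.e.symm.injective ((Subtype.ext h).trans (map_one _).symm))
  let φ' : Matrix.SpecialLinearGroup (Fin 2) (ZMod 5) →* D :=
    φ.comp (S.S.subtype.comp S.e.symm.toMonoidHom)
  have hφn : φ' slNeg = -1 := by change φ ((S.e.symm slNeg : S.S) : H) = -1; rw [hneg, hφz]
  set i := φ' slI with hi'
  set j := φ' slJ with hj'
  have hi : i * i = -1 := by rw [hi', ← map_mul, q1, hφn]
  have hj : j * j = -1 := by rw [hj', ← map_mul, q2, hφn]
  have hij : j * i = -(i * j) := by
    rw [hi', hj', ← map_mul, q3, map_mul, hφn, neg_one_mul, map_mul]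
  have hψi : ψ * i = i * ψ := hψS _ (S.e.symm slI).2
  have hψj : ψ * j = j * ψ := hψS _ (S.e.symm slJ).2
  -- the centraliser is central
  obtain ⟨M, hMC, hSM, hcov, -, hcop⟩ := S.exists_odd_complement hFC
  have hM : M = ⊥ := by
    by_contra hM
    haveI := (Subgroup.nontrivial_iff_ne_bot M).2 hM
    obtain ⟨m, hm⟩ := exists_ne (1 : M)
    have hmC : (m : H) ∈ S.C := hMC m.2
    have hcom : ∀ x ∈ S.S, φ m * φ x = φ x * φ m := fun x hx => by
      rw [← map_mul, ← map_mul, mem_centralizer_iff.1 hmC x hx]
    have hcψ : φ m * ψ = ψ * φ m := by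
      have h1 : Commute (φ m) (φ a) := hcom a (ha ▸ subset_closure (Set.mem_insert _ _))
      have h2 : Commute (φ m) (φ b) := hcom b (hb ▸ subset_closure (Set.mem_insert_of_mem _ rfl))
      exact (Commute.one_right _).sub_right ((Commute.ofNat_right _ 2).mul_right
        (((((h1.mul_right h2).add_right (h2.mul_right h1)).add_right h1).add_right h2).add_right
          (Commute.one_right _)))
    refine no_central_root (r := Nat.card M) (Finite.one_lt_card) ?_ (c := φ m) ?_ ?_ hi hj hij hψ5
      hψi hψj (hcom _ (S.e.symm slI).2) (hcom _ (S.e.symm slJ).2) hcψ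
    · exact hcop.coprime_dvd_right (by norm_num)
    · have := congrArg Subtype.val (pow_card_eq_one' (x := m))
      rw [Subgroup.coe_pow, Subgroup.coe_one] at this
      rw [← map_pow, this, map_one]
    · intro h
      exact hm (Subtype.ext (hφinj (h.trans (map_one φ).symm)))
  have hC : ∀ x ∈ S.C, x = 1 ∨ x = z := by
    intro x hx
    rcases hcov x hx with h | h <;> rw [hM, mem_bot] at h
    · exact Or.inl h
    · right
      rw [hz, ← mul_one x, ← S.z_sq, ← mul_assoc, h, one_mul]
  have hCle : S.C ≤ S.S := fun x hx => by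
    rcases hC x hx with h | h <;> rw [h]
    · exact one_mem _
    · exact hz ▸ S.z_mem
  haveI := S.normal
  have hidx : S.S.index ≤ 2 := by
    have h : (S.S ⊔ S.C).index ≤ 2 := S.index_le
    rwa [sup_of_le_left hCle] at h
  by_cases htop : S.S = ⊤
  · exact ⟨(Subgroup.topEquiv.symm.trans (MulEquiv.subgroupCongr htop.symm)).trans S.e⟩
  exfalso
  haveI : Fact (Nat.Prime 2) := ⟨Nat.prime_two⟩
  have hidx2 : S.S.index = 2 := by
    have h0 : S.S.index ≠ 0 := Subgroup.index_ne_zero_of_finite
    have h1 : S.S.index ≠ 1 := fun h => htop (Subgroup.index_eq_one.1 h)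
    omega
  -- an element of order four outside
  obtain ⟨h, hhS, hhh⟩ : ∃ h : H, h ∉ S.S ∧ h * h = z := by
    set i0 : H := ((S.e.symm slI : S.S) : H) with hi0
    set j0 : H := ((S.e.symm slJ : S.S) : H) with hj0
    obtain ⟨P⟩ : Nonempty (Sylow 2 H) := inferInstance
    have hPS : ¬ (P : Subgroup H) ≤ S.S := fun hle => P.not_dvd_index (by
      have h := Subgroup.index_dvd_of_le hle
      rwa [hidx2] at h)
    rcases TwoGroups.cyclic_or_quaternion_of_unique_involution P.isPGroup'
        (fun x y hx hy => Subtype.ext ((S.involution_eq (by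
            rw [← Subgroup.coe_mul, ← pow_two]
            exact congrArg Subtype.val (show x ^ 2 = 1 from orderOf_dvd_iff_pow_eq_one.1 hx.dvd))
          (fun e => by rw [orderOf_eq_one_iff.2 (Subtype.ext e)] at hx; norm_num at hx)).trans
          (S.involution_eq (by
            rw [← Subgroup.coe_mul, ← pow_two]
            exact congrArg Subtype.val (show y ^ 2 = 1 from orderOf_dvd_iff_pow_eq_one.1 hy.dvd))
          (fun e => by rw [orderOf_eq_one_iff.2 (Subtype.ext e)] at hy; norm_num at hy)).symm))
      with hcyc | ⟨k, hk, -, ⟨eq⟩⟩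
    · exfalso
      -- a copy of the quaternion group lies in some Sylow subgroup
      set Q := closure ({i0, j0} : Set H) with hQ
      have hQle : Q ≤ S.S := (closure_le _).2 (Set.insert_subset (S.e.symm slI).2
        (Set.singleton_subset_iff.2 (S.e.symm slJ).2))
      have hrel : i0 * i0 = z ∧ j0 * j0 = z ∧ j0 * i0 = z * (i0 * j0) := by
        refine ⟨?_, ?_, ?_⟩
        · rw [hi0, ← Subgroup.coe_mul, ← map_mul, q1, hneg]
        · rw [hj0, ← Subgroup.coe_mul, ← map_mul, q2, hneg]
        · rw [hi0, hj0, ← hneg]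
          simp only [← Subgroup.coe_mul, ← map_mul, q3]
      have hQP : IsPGroup 2 Q := by
        have hzc : ∀ g, g * z = z * g := hz ▸ S.z_central
        have hzz : z * z = 1 := hz ▸ S.z_sq
        let T : Set H := {g | ∃ u ∈ ({1, i0, j0, i0 * j0} : Set H), g = u ∨ g = z * u}
        let K : Submonoid H :=
          { carrier := T
            one_mem' := ⟨1, by simp, Or.inl rfl⟩
            mul_mem' := by
              obtain ⟨hii, hjj, hji⟩ := hrel
              have hiz : ∀ w, i0 * (z * w) = z * (i0 * w) := fun w => by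
                rw [← mul_assoc, hzc, mul_assoc]
              have hjz : ∀ w, j0 * (z * w) = z * (j0 * w) := fun w => by
                rw [← mul_assoc, hzc, mul_assoc]
              have hzz' := assoc_rule' hzz
              have hii' := assoc_rule' hii
              have hjj' := assoc_rule' hjj
              have hji' := assoc_rule' hji
              rintro g g' ⟨u, hu, hg⟩ ⟨v, hv, hg'⟩
              simp only [Set.mem_insert_iff, Set.mem_singleton_iff] at hu hv
              simp only [T, Set.mem_ofPred_eq, Set.mem_insert_iff, Set.mem_singleton_iff,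
                exists_eq_or_imp, exists_eq_left]
              rcases hu with rfl | rfl | rfl | rfl <;> rcases hv with rfl | rfl | rfl | rfl <;>
                rcases hg with rfl | rfl <;> rcases hg' with rfl | rfl <;>
                simp [mul_assoc, hiz, hjz, hzc i0, hzc j0, hzz, hzz', hii, hii', hjj, hjj', hji,
                  hji'] }
        have hcard : Nat.card Q ≤ 8 := by
          have hle : (Q : Set H) ⊆ T := by
            intro g hg
            rw [SetLike.mem_coe, hQ, ← Subgroup.mem_toSubmonoid,
              Subgroup.closure_toSubmonoid_of_finite] at hg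
            refine (Submonoid.closure_le (S := K)).2 ?_ hg
            rintro x (rfl | rfl)
            · exact ⟨i0, by simp, Or.inl rfl⟩
            · exact ⟨j0, by simp, Or.inl rfl⟩
          have hT : T ⊆ ↑({1, i0, j0, i0 * j0, z, z * i0, z * j0, z * (i0 * j0)} : Finset H) := by
            rintro g ⟨u, hu, hg⟩
            simp only [Set.mem_insert_iff, Set.mem_singleton_iff] at hu
            simp only [Finset.coe_insert, Finset.coe_singleton, Set.mem_insert_iff,
              Set.mem_singleton_iff]
            rcases hg with rfl | rfl <;> rcases hu with rfl | rfl | rfl | rfl <;> simp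
          calc Nat.card Q = (Q : Set H).ncard := Nat.card_coe_set_eq _
            _ ≤ _ := Set.ncard_le_ncard (hle.trans hT) (Finset.finite_toSet _)
            _ ≤ 8 := by rw [Set.ncard_coe_finset]; exact ((Finset.card_insert_le _ _).trans (Nat.succ_le_succ ((Finset.card_insert_le _ _).trans (Nat.succ_le_succ ((Finset.card_insert_le _ _).trans (Nat.succ_le_succ ((Finset.card_insert_le _ _).trans (Nat.succ_le_succ ((Finset.card_insert_le _ _).trans (Nat.succ_le_succ ((Finset.card_insert_le _ _).trans (Nat.succ_le_succ ((Finset.card_insert_le _ _).trans (Nat.succ_le_succ (Finset.card_singleton _).le))))))))))))))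
        have h4 : orderOf i0 = 4 := by
          refine orderOf_eq_prime_pow (p := 2) (n := 1) ?_ ?_
          · rw [pow_one, pow_two, hrel.1]; exact hz ▸ S.z_ne_one
          · rw [show (2 : ℕ) ^ (1 + 1) = 2 + 2 from rfl, pow_add, pow_two, hrel.1, hz, S.z_sq]
        have h4' : 4 ∣ Nat.card Q := h4 ▸ Subgroup.orderOf_dvd_natCard _ (subset_closure (Set.mem_insert _ _))
        have hpos : 0 < Nat.card Q := Nat.card_pos
        have : Nat.card Q = 4 ∨ Nat.card Q = 8 := by omega
        rcases this with e | e
        · exact IsPGroup.of_card (n := 2) (e.trans (by norm_num))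
        · exact IsPGroup.of_card (n := 3) (e.trans (by norm_num))
      obtain ⟨P', hP'⟩ := hQP.exists_le_sylow
      haveI : IsCyclic (P' : Subgroup H) := (Sylow.equiv P P').isCyclic.1 hcyc
      haveI : IsMulCommutative (P' : Subgroup H) := IsCyclic.isMulCommutative
      have e : i0 * j0 = j0 * i0 := congrArg Subtype.val (mul_comm'
        (⟨i0, hP' (subset_closure (Set.mem_insert _ _))⟩ : (P' : Subgroup H))
        ⟨j0, hP' (subset_closure (Set.mem_insert_of_mem _ rfl))⟩)
      have := congrArg φ e
      rw [map_mul, map_mul] at this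
      change i * j = j * i at this
      rw [hij] at this
      have h2 : (2 : D) * (i * j) = 0 := by rw [two_mul]; nth_rewrite 1 [this]; exact neg_add_cancel _
      rcases mul_eq_zero.1 h2 with h | h
      · exact two_ne_zero h
      rcases mul_eq_zero.1 h with h | h
      · rw [h, mul_zero] at hi; exact neg_ne_zero.2 one_ne_zero hi.symm
      · rw [h, mul_zero] at hj; exact neg_ne_zero.2 one_ne_zero hj.symm
    · haveI : NeZero (2 ^ (k - 1)) := ⟨by positivity⟩
      obtain ⟨m, hm⟩ : ∃ m, ((eq.symm (QuaternionGroup.xa m) : (P : Subgroup H)) : H) ∉ S.S := by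
        by_contra hall
        push Not at hall
        apply hPS
        intro x hx
        have hxa : ∀ m, ((eq.symm (QuaternionGroup.a m) : (P : Subgroup H)) : H) ∈ S.S := by
          intro m
          have e : (QuaternionGroup.a m : QuaternionGroup (2 ^ (k - 1))) =
              (QuaternionGroup.xa 0)⁻¹ * QuaternionGroup.xa m := by
            rw [eq_inv_mul_iff_mul_eq, QuaternionGroup.xa_mul_a, zero_add]
          rw [e, map_mul, map_inv, Subgroup.coe_mul, Subgroup.coe_inv]
          exact mul_mem (inv_mem (hall 0)) (hall m)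
        obtain ⟨u, hu⟩ := eq.symm.surjective ⟨x, hx⟩
        cases u with
        | a m => simpa [hu] using hxa m
        | xa m => simpa [hu] using hall m
      refine ⟨_, hm, ?_⟩
      have h4 : orderOf ((eq.symm (QuaternionGroup.xa m) : (P : Subgroup H)) : H) = 4 := by
        rw [Subgroup.orderOf_coe, MulEquiv.orderOf_eq, QuaternionGroup.orderOf_xa]
      rw [hz]
      refine S.involution_eq ?_ ?_
      · have := pow_orderOf_eq_one ((eq.symm (QuaternionGroup.xa m) : (P : Subgroup H)) : H)
        rw [h4] at this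
        simpa [pow_succ, mul_assoc] using this
      · intro e
        have := orderOf_le_of_pow_eq_one (x := ((eq.symm (QuaternionGroup.xa m) : (P : Subgroup H)) : H)) (show 0 < 2 by norm_num) (by rw [pow_two]; exact e)
        omega
  -- conjugation by `h` sends `γ` to its conjugate
  have hi2 : φ h * φ h = -1 := by rw [← map_mul, hhh, hφz]
  have hinvφ : ∀ x : H, φ x * φ x⁻¹ = 1 := fun x => by rw [← map_mul, mul_inv_cancel, map_one]
  have hinvφ' : ∀ x : H, φ x⁻¹ * φ x = 1 := fun x => by rw [← map_mul, inv_mul_cancel, map_one]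
  -- values of the invariant
  let V : H → H → D := fun x y => cc (φ x) (φ y)
  have hVmem : ∀ x y : H, IsOrd3 x → y ∈ S.P.B x → V x y = γ ∨ V x y = 1 - γ := by
    intro x y hx hy
    have hv : V x y * V x y = V x y + 1 := by
      refine gamma_root (hord x hx) (hord y hy.1) (g := φ (x * y)) (i := φ (x * y)⁻¹)
        (map_mul φ x y) ?_ ?_ ?_
      · rw [mul_inv_rev, Rep.inv_eq hx, Rep.inv_eq hy.1, map_mul, map_mul, map_mul]
      · rw [← map_pow, show (x * y) ^ 5 = z from S.P.injective (by
          rw [(S.P.bpair_rel hx hy).2, hz, S.rho_z]), hφz]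
      · refine isUnit_iff_ne_zero.2 fun h0 => ?_
        have h5 : (x * y) ^ 5 = z := S.P.injective (by
          rw [(S.P.bpair_rel hx hy).2, hz, S.rho_z])
        have he : x * y = z := hφinj (by rw [hφz]; exact eq_neg_of_add_eq_zero_left h0)
        have hy2 := hy.2
        have hc : S.P.inv3 x y = -2 := by
          have : S.P.inv3 x y = S.P.ρ (x * y) + S.P.ρ (x * y)⁻¹ := by
            rw [mul_inv_rev, Rep.inv_eq hx, Rep.inv_eq hy.1]
            simp only [Rep.inv3, cc, map_mul, show S.P.ρ x * S.P.ρ x = -S.P.ρ x - 1 from S.P.ord3 hx,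
              show S.P.ρ y * S.P.ρ y = -S.P.ρ y - 1 from S.P.ord3 hy.1]
            simp only [mul_sub, sub_mul, mul_neg, neg_mul, one_mul, mul_one]
            abel
          rw [this, show (x * y)⁻¹ = z by
            rw [he]; exact inv_eq_of_mul_eq_one_right (hz ▸ S.z_sq), he, hz, S.rho_z]
          norm_num
        rw [hc] at hy2
        refine ofNat_ne_zero (R := Matrix (Fin S.n) (Fin S.n) ℚ) (n := 5) (by norm_num) ?_
        linear_combination
          (norm := (noncomm_ring <;> norm_num [zsmul_eq_mul, nsmul_eq_mul] <;> noncomm_ring)) hy2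
    have hcomm : Commute γ (V x y) := by
      have h1 := hγS x (S.ord3_mem x hx)
      have h2 := hγS y (S.ord3_mem y hy.1)
      exact ((((h1.mul_right h2).add_right (h2.mul_right h1)).add_right h1).add_right h2).add_right
        (Commute.one_right _)
    have e : (V x y - γ) * (V x y - (1 - γ)) = 0 := by
      have h3 : V x y * γ = γ * V x y := hcomm.eq.symm
      simp only [mul_sub, sub_mul, mul_one, one_mul, hv, h3, hγ2]
      abel
    rcases mul_eq_zero.1 e with h0 | h0
    · exact Or.inl (sub_eq_zero.1 h0)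
    · exact Or.inr (sub_eq_zero.1 h0)
  have hne : γ ≠ 1 - γ := by
    intro e
    have : ψ = 0 := by rw [hψ, two_mul]; nth_rewrite 1 [e]; abel
    rw [this, zero_mul] at hψ5
    exact (by norm_num : (0 : D) ≠ 5) hψ5
  -- the stabiliser of `γ`
  have hstab : φ h * γ ≠ γ * φ h := by
    intro hcom
    let Stab : Subgroup H :=
      { carrier := {g | Commute γ (φ g)}
        one_mem' := by simp only [Set.mem_ofPred_eq, map_one]; exact Commute.one_right _
        mul_mem' := fun {x y} hx hy => by
          simp only [Set.mem_ofPred_eq, map_mul] at hx hy ⊢; exact hx.mul_right hy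
        inv_mem' := fun {x} hx => by
          simp only [Set.mem_ofPred_eq] at hx ⊢
          have e : φ x⁻¹ = (φ x)⁻¹ := eq_inv_of_mul_eq_one_left (hinvφ' x)
          rw [e]; exact hx.inv_right₀ }
    have htopS : Stab = ⊤ := by
      have hle : S.S ≤ Stab := fun x hx => hγS x hx
      have hlt : S.S < Stab := lt_of_le_of_ne hle fun e => hhS (e ▸ (show Commute γ (φ h) from hcom.symm))
      have hdvd : Stab.index ∣ 2 := hidx2 ▸ Subgroup.index_dvd_of_le hle
      rcases (Nat.dvd_prime Nat.prime_two).1 hdvd with e | e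
      · exact Subgroup.index_eq_one.1 e
      · exfalso
        have h1 := Subgroup.relIndex_mul_index hle
        rw [e, hidx2] at h1
        exact hlt.not_ge (Subgroup.relIndex_eq_one.1 (by omega))
    -- all elements fix `γ`, so the pairs with invariant `γ` are too few
    let Pr : Set (H × H) := {q | IsOrd3 q.1 ∧ q.2 ∈ S.P.B q.1 ∧ V q.1 q.2 = γ}
    have hconjγ : ∀ g : H, V (g * a * g⁻¹) (g * b * g⁻¹) = γ := by
      intro g
      have hg : Commute γ (φ g) := by
        have : g ∈ Stab := htopS ▸ mem_top g
        exact this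
      have e' : ∀ w, φ g⁻¹ * (φ g * w) = w := fun w => by rw [← mul_assoc, hinvφ', one_mul]
      calc V (g * a * g⁻¹) (g * b * g⁻¹) = φ g * γ * φ g⁻¹ := by
            simp only [V, hγ, cc, map_mul, mul_add, add_mul, mul_one, hinvφ, mul_assoc, e']
        _ = γ := by rw [← hg.eq, mul_assoc, hinvφ, mul_one]
    have hmemPr : ∀ g : H, (g * a * g⁻¹, g * b * g⁻¹) ∈ Pr := fun g => by
      refine ⟨Rep.isOrd3_conj haO g, ⟨Rep.isOrd3_conj hbB.1 g, ?_⟩, hconjγ g⟩
      have e1 : S.P.ρ g⁻¹ * S.P.ρ g = 1 := by rw [← map_mul, inv_mul_cancel, map_one]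
      rw [S.P.inv3_conj]
      calc S.P.ρ g * S.P.inv3 a b * S.P.ρ g⁻¹ * (S.P.ρ g * S.P.inv3 a b * S.P.ρ g⁻¹)
          = S.P.ρ g * (S.P.inv3 a b * (S.P.ρ g⁻¹ * S.P.ρ g) * S.P.inv3 a b) * S.P.ρ g⁻¹ := by
            simp only [mul_assoc]
        _ = S.P.ρ g * (S.P.inv3 a b + 1) * S.P.ρ g⁻¹ := by rw [e1, mul_one, hbB.2]
        _ = _ := by
            rw [mul_add, mul_one, add_mul]
            congr 1
            rw [← map_mul, mul_inv_cancel, map_one]
    have hPr : Pr.ncard ≤ 60 := by
      haveI := Fintype.ofFinite H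
      have hfib : ∀ x, IsOrd3 x → ({y | y ∈ S.P.B x ∧ V x y = γ} : Set H).ncard ≤ 3 := by
        intro x hx
        set A := {y | y ∈ S.P.B x ∧ V x y = γ}
        set A' := (fun y : H => y⁻¹) '' A
        have hdis : Disjoint A A' := by
          rw [Set.disjoint_left]
          rintro y hy ⟨w, hw, rfl⟩
          apply hne
          have e1 : V x w⁻¹ = 1 - V x w := by
            simp only [V]
            rw [cc_comm, Rep.inv_eq hw.1.1, map_mul, cc_sq_left (hord w hw.1.1), cc_comm]
          exact hy.2.symm.trans (e1.trans (by rw [hw.2]))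
        have hsub : A ∪ A' ⊆ S.P.B x := by
          rintro y (hy | ⟨w, hw, rfl⟩)
          · exact hy.1
          · refine ⟨Rep.isOrd3_inv hw.1.1, ?_⟩
            rw [S.P.inv3_comm, S.P.inv3_inv hw.1.1, S.P.inv3_comm]
            linear_combination (norm := noncomm_ring) hw.1.2
        have h6 : (S.P.B x).ncard ≤ 6 := by
          refine (Set.ncard_le_ncard_of_injOn _ (S.P.B_inj hx).1 (S.P.B_inj hx).2).trans ?_
          rcases S.P.T_subset hx with ⟨c, hc⟩ | ⟨⟨c, d, hcd⟩, -⟩
          · exact ((Set.ncard_le_ncard hc).trans (Rep.ncard_rot_le x c)).trans (by norm_num)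
          · exact (Set.ncard_le_ncard hcd).trans ((Set.ncard_union_le _ _).trans
              (Nat.add_le_add (Rep.ncard_rot_le x c) (Rep.ncard_rot_le x d)))
        have h2 : A'.ncard = A.ncard := Set.ncard_image_of_injective A inv_injective
        have h3 := Set.ncard_le_ncard hsub
        rw [Set.ncard_union_eq hdis] at h3
        omega
      let F : Finset H := Finset.univ.filter IsOrd3
      have hF : F.card ≤ 20 := by
        refine le_of_eq_of_le ?_ (S.P.ncard_ord3 haO).1
        rw [← Set.ncard_coe_finset]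
        congr 1
        ext x; simp [F]
      calc Pr.ncard ≤ (↑(F.biUnion fun x =>
            ({x} : Finset H) ×ˢ (Set.toFinite {y | y ∈ S.P.B x ∧ V x y = γ}).toFinset) :
            Set (H × H)).ncard := by
            refine Set.ncard_le_ncard (fun q hq => ?_) (Finset.finite_toSet _)
            simp only [Finset.coe_biUnion, Set.mem_iUnion, Finset.mem_coe, Finset.mem_product,
              Finset.mem_singleton, Set.Finite.mem_toFinset]
            exact ⟨q.1, by simp [F, hq.1], rfl, hq.2.1, hq.2.2⟩
        _ ≤ F.card * 3 := by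
            rw [Set.ncard_coe_finset]
            refine Finset.card_biUnion_le_card_mul _ _ _ fun x hx => ?_
            rw [Finset.card_product, Finset.card_singleton, one_mul, ← Set.ncard_eq_toFinset_card]
            exact hfib x (by simpa [F] using hx)
        _ ≤ 60 := by omega
    have hfibre : Nat.card H ≤ 2 * Pr.ncard := by
      let Ψ : H → Bool × Pr := fun g => (if ∃ g', g' * a * g'⁻¹ = g * a * g⁻¹ ∧
          g' * b * g'⁻¹ = g * b * g⁻¹ ∧ g = g' ∧
          g = Classical.choose (show ∃ w, w * a * w⁻¹ = g * a * g⁻¹ ∧ w * b * w⁻¹ = g * b * g⁻¹ from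
            ⟨g, rfl, rfl⟩) then true else false, ⟨_, hmemPr g⟩)
      have hΨ : Function.Injective Ψ := by
        intro g g' he
        simp only [Ψ, Prod.ext_iff, Subtype.ext_iff] at he
        obtain ⟨hb', hea, heb⟩ := he
        have k : ∀ w, g * w * g⁻¹ = g' * w * g'⁻¹ → g⁻¹ * g' * w = w * (g⁻¹ * g') := fun w hw => by
          calc g⁻¹ * g' * w = g⁻¹ * (g' * w * g'⁻¹) * g' := by group
            _ = w * (g⁻¹ * g') := by rw [← hw]; group
        have hcS : g⁻¹ * g' ∈ S.C := by
          refine mem_centralizer_iff.2 fun w hw => ?_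
          have hle : S.S ≤ centralizer ({g⁻¹ * g'} : Set H) := (closure_le _).2
            (Set.insert_subset (mem_centralizer_singleton_iff.2 (ha ▸ (k a hea).symm))
              (Set.singleton_subset_iff.2 (mem_centralizer_singleton_iff.2 (hb ▸ (k b heb).symm))))
          exact mem_centralizer_singleton_iff.1 (hle hw)
        rcases hC _ hcS with e | e
        · exact inv_mul_eq_one.1 e
        exfalso
        have hgg : g ≠ g' := fun eq => by
          rw [eq, inv_mul_cancel] at e; exact S.z_ne_one (hz ▸ e.symm)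
        set w0 := Classical.choose (show ∃ w, w * a * w⁻¹ = g * a * g⁻¹ ∧
          w * b * w⁻¹ = g * b * g⁻¹ from ⟨g, rfl, rfl⟩) with hw0
        have hw0' := Classical.choose_spec (show ∃ w, w * a * w⁻¹ = g * a * g⁻¹ ∧
          w * b * w⁻¹ = g * b * g⁻¹ from ⟨g, rfl, rfl⟩)
        rw [← hw0] at hw0'
        have hsame : Classical.choose (show ∃ w, w * a * w⁻¹ = g' * a * g'⁻¹ ∧
            w * b * w⁻¹ = g' * b * g'⁻¹ from ⟨g', rfl, rfl⟩) = w0 := by
          rw [hw0]; congr 1; funext w; rw [hea, heb]
        rw [hsame] at hb'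
        -- exactly one of `g, g'` is the chosen element
        have hwC : g⁻¹ * w0 ∈ S.C := by
          have k' : ∀ w, g * w * g⁻¹ = w0 * w * w0⁻¹ → g⁻¹ * w0 * w = w * (g⁻¹ * w0) := fun w hw => by
            calc g⁻¹ * w0 * w = g⁻¹ * (w0 * w * w0⁻¹) * w0 := by group
              _ = w * (g⁻¹ * w0) := by rw [← hw]; group
          refine mem_centralizer_iff.2 fun w hw => ?_
          have hle : S.S ≤ centralizer ({g⁻¹ * w0} : Set H) := (closure_le _).2
            (Set.insert_subset (mem_centralizer_singleton_iff.2 (ha ▸ (k' a hw0'.1.symm).symm))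
              (Set.singleton_subset_iff.2
                (mem_centralizer_singleton_iff.2 (hb ▸ (k' b hw0'.2.symm).symm))))
          exact mem_centralizer_singleton_iff.1 (hle hw)
        rcases hC _ hwC with e' | e'
        · have hwg : w0 = g := (inv_mul_eq_one.1 e').symm
          rw [hwg] at hb'
          simp [hea, heb, hgg.symm] at hb'
        · have hwg : w0 = g' := by
            have := e'.trans e.symm
            exact mul_left_cancel this
          rw [hwg] at hb'
          simp [hea, heb, hgg] at hb'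
      calc Nat.card H ≤ Nat.card (Bool × Pr) := Nat.card_le_card_of_injective Ψ hΨ
        _ = 2 * Pr.ncard := by
          rw [Nat.card_prod, Nat.card_eq_fintype_card (α := Bool), Fintype.card_bool,
            Nat.card_coe_set_eq]
    have hcardH := S.S.card_mul_index
    rw [hidx2, S.card_S] at hcardH
    omega
  -- so `h` anticommutes with `ψ`
  have hflip : φ h * ψ = -(ψ * φ h) := by
    have hm : IsOrd3 (h * a * h⁻¹) ∧ h * b * h⁻¹ ∈ S.P.B (h * a * h⁻¹) := by
      refine ⟨Rep.isOrd3_conj haO h, Rep.isOrd3_conj hbB.1 h, ?_⟩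
      have e1 : S.P.ρ h⁻¹ * S.P.ρ h = 1 := by rw [← map_mul, inv_mul_cancel, map_one]
      rw [S.P.inv3_conj]
      calc S.P.ρ h * S.P.inv3 a b * S.P.ρ h⁻¹ * (S.P.ρ h * S.P.inv3 a b * S.P.ρ h⁻¹)
          = S.P.ρ h * (S.P.inv3 a b * (S.P.ρ h⁻¹ * S.P.ρ h) * S.P.inv3 a b) * S.P.ρ h⁻¹ := by
            simp only [mul_assoc]
        _ = S.P.ρ h * (S.P.inv3 a b + 1) * S.P.ρ h⁻¹ := by rw [e1, mul_one, hbB.2]
        _ = _ := by
            rw [mul_add, mul_one, add_mul]
            congr 1
            rw [← map_mul, mul_inv_cancel, map_one]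
    have e' : ∀ w, φ h⁻¹ * (φ h * w) = w := fun w => by rw [← mul_assoc, hinvφ', one_mul]
    have hV : V (h * a * h⁻¹) (h * b * h⁻¹) = φ h * γ * φ h⁻¹ := by
      simp only [V, hγ, cc, map_mul, mul_add, add_mul, mul_one, hinvφ, mul_assoc, e']
    rcases hVmem _ _ hm.1 hm.2 with e | e <;> rw [hV] at e
    · have := congrArg (fun w => w * φ h) e
      simp only [mul_assoc, hinvφ', mul_one] at this
      exact absurd this hstab
    · have := congrArg (fun w => w * φ h) e
      simp only [mul_assoc, hinvφ', mul_one, sub_mul, one_mul] at this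
      rw [hψ, mul_sub, mul_one, sub_mul, one_mul, two_mul, mul_add, add_mul, this]
      abel
  set t := φ h with ht
  set u := (1 - 2 * t) * (t * ψ) with hu
  have htψ' : ∀ w, ψ * (t * w) = -(t * (ψ * w)) := fun w => by
    rw [← mul_assoc, ← mul_assoc, hflip, neg_mul, neg_neg]
  have htψ : ψ * t = -(t * ψ) := by rw [hflip, neg_neg]
  have htt' := assoc_rule hi2
  have hψ5' := assoc_rule hψ5
  have huu : u * u = 25 := by
    simp only [hu, two_mul, mul_add, add_mul, mul_sub, sub_mul, mul_assoc, one_mul, mul_one,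
      htψ', htψ, hi2, htt', hψ5, hψ5', neg_mul, mul_neg]
    noncomm_ring
    norm_num
  have hut : u * t = -(t * u) := by
    simp only [hu, two_mul, mul_add, add_mul, mul_sub, sub_mul, mul_assoc, one_mul, mul_one,
      htψ', htψ, hi2, htt', neg_mul, mul_neg]
    abel
  have h55 : (u - 5) * (u + 5) = 0 := by
    rw [sub_mul, mul_add, mul_add, huu, ← Nat.cast_ofNat (R := D) (n := 5), Nat.cast_comm 5 u]
    norm_num
    abel
  have hcomm : u * t = t * u := by
    rcases mul_eq_zero.1 h55 with e | e
    · rw [sub_eq_zero.1 e]; exact (Commute.ofNat_left 5 t).eq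
    · rw [eq_neg_of_add_eq_zero_left e, neg_mul, mul_neg, (Commute.ofNat_left 5 t).eq]
  have h2 : (2 : D) * (t * u) = 0 := by
    rw [two_mul]
    nth_rewrite 1 [← hcomm]
    rw [hut, neg_add_cancel]
  rcases mul_eq_zero.1 h2 with e | e
  · exact two_ne_zero e
  rcases mul_eq_zero.1 e with e | e
  · rw [e, mul_zero] at hi2; exact neg_ne_zero.2 one_ne_zero hi2.symm
  · rw [e, mul_zero] at huu; exact (by norm_num : (0 : D) ≠ 25) huu

end Cfsg.Agent.PermP.Zass
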